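import Cfsg.Agent.Lib.Helper99.DetPlanes

set_option autoImplicit false

namespace Cfsg.Agent.Lib.Helper99

open Module Submodule

variable {F V : Type*} [Field F] [AddCommGroup V] [Module F V]

/-- If `T ∘ T = z`, an even-dimensional space has a basis of pairs, each pair either consisting of two
eigenvectors or swapped up to scalars. -/
theorem exists_monomial_planes [FiniteDimensional F V] {T : V →ₗ[F] V} {z : F}
    (hT : ∀ v, T (T v) = z • v) {t : ℕ} (ht : finrank F V = 2 * t) :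
    ∃ (bb : Basis (Fin t × Fin 2) F V) (c : Fin t × Fin 2 → F), ∀ j,
      (T (bb (j, 0)) = c (j, 0) • bb (j, 0) ∧ T (bb (j, 1)) = c (j, 1) • bb (j, 1) ∧
        c (j, 0) ^ 2 = z ∧ c (j, 1) ^ 2 = z) ∨
      (T (bb (j, 0)) = c (j, 0) • bb (j, 1) ∧ T (bb (j, 1)) = c (j, 1) • bb (j, 0) ∧
        c (j, 0) * c (j, 1) = z) := by
  classical
  obtain ⟨ι, _, _, b, π, c, hli, hsp, hπ, hTb⟩ := exists_monomial_aux hT _ ⊤ rfl (fun _ _ => trivial)
  have hcard : Fintype.card ι = 2 * t := by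
    rw [← finrank_span_eq_card hli, hsp, finrank_top, ht]
  obtain ⟨β, hfib, hβ⟩ := exists_invariant_blocks π hπ 2 t (by norm_num) (by norm_num) hcard
  obtain ⟨e, he⟩ := exists_equiv_prod_of_fibres β hfib
  have hcc : ∀ i, c i * c (π i) = z := by
    intro i
    have h1 := hT (b i)
    rw [hTb, map_smul, hTb, hπ, smul_smul] at h1
    have h2 : (c i * c (π i) - z) • b i = 0 := by rw [sub_smul, h1, sub_self]
    exact sub_eq_zero.1 ((smul_eq_zero.1 h2).resolve_right (hli.ne_zero i))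
  have hex : ∀ j s, ∃ r, π (e (j, s)) = e (j, r) := by
    intro j s
    obtain ⟨⟨j', r⟩, hjr⟩ := e.surjective (π (e (j, s)))
    have h1 : β (π (e (j, s))) = j := by rw [hβ, he]
    rw [← hjr, he] at h1
    exact ⟨r, by rw [← hjr, h1]⟩
  let bb : Basis (Fin t × Fin 2) F V := (Basis.mk hli (by rw [hsp])).reindex e.symm
  have hbb : ∀ k, bb k = b (e k) := by
    intro k
    simp [bb]
  refine ⟨bb, fun k => c (e k), ?_⟩
  intro j
  have hne01 : e (j, 0) ≠ e (j, 1) := by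
    intro h
    simpa using e.injective h
  obtain ⟨r, hr⟩ := hex j 0
  have hr' : r = 0 ∨ r = 1 := by fin_cases r <;> simp
  rcases hr' with rfl | rfl
  · left
    have hr1 : π (e (j, 1)) = e (j, 1) := by
      obtain ⟨r', hr'⟩ := hex j 1
      have hr'' : r' = 0 ∨ r' = 1 := by fin_cases r' <;> simp
      rcases hr'' with rfl | rfl
      · exact absurd (π.injective (hr.trans hr'.symm)) hne01
      · exact hr'
    have h0 := hcc (e (j, 0))
    have h1 := hcc (e (j, 1))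
    rw [hr] at h0
    rw [hr1] at h1
    refine ⟨by rw [hbb, hTb, hr], by rw [hbb, hTb, hr1], by rw [pow_two]; exact h0,
      by rw [pow_two]; exact h1⟩
  · right
    have hr1 : π (e (j, 1)) = e (j, 0) := by rw [← hr, hπ]
    have h0 := hcc (e (j, 0))
    rw [hr] at h0
    exact ⟨by rw [hbb, hbb, hTb, hr], by rw [hbb, hbb, hTb, hr1], h0⟩

/-- If `T ∘ T = z` with `z` a non-square, there is a basis of pairs `(v, T v)`. -/
theorem exists_companion_basis [FiniteDimensional F V] {T : V →ₗ[F] V} {z : F}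
    (hT : ∀ v, T (T v) = z • v) (hz : ∀ c : F, c ^ 2 ≠ z) {t : ℕ} (ht : finrank F V = 2 * t) :
    ∃ bb : Basis (Fin t × Fin 2) F V, ∀ j, T (bb (j, 0)) = bb (j, 1) ∧ T (bb (j, 1)) = z • bb (j, 0) := by
  classical
  obtain ⟨bb, c, h⟩ := exists_monomial_planes hT ht
  have h' : ∀ j, T (bb (j, 0)) = c (j, 0) • bb (j, 1) ∧ T (bb (j, 1)) = c (j, 1) • bb (j, 0) ∧
        c (j, 0) * c (j, 1) = z := by
    intro j
    rcases h j with h1 | h1
    · exact absurd h1.2.2.1 (hz _)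
    · exact h1
  have hz0 : z ≠ 0 := by
    intro h0
    exact hz 0 (by rw [h0]; simp)
  have hc0 : ∀ j, c (j, 0) ≠ 0 := by
    intro j h0
    have := (h' j).2.2
    rw [h0, zero_mul] at this
    exact hz0 this.symm
  let w : Fin t × Fin 2 → Fˣ := fun k => if k.2 = 0 then 1 else Units.mk0 (c (k.1, 0)) (hc0 k.1)
  refine ⟨bb.unitsSMul w, ?_⟩
  intro j
  have e0 : (bb.unitsSMul w) (j, 0) = bb (j, 0) := by
    simp [Basis.unitsSMul_apply, w]
  have e1 : (bb.unitsSMul w) (j, 1) = c (j, 0) • bb (j, 1) := by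
    simp [Basis.unitsSMul_apply, w, Units.smul_def]
  rw [e0, e1, map_smul, (h' j).1, (h' j).2.1, smul_smul, (h' j).2.2]
  exact ⟨rfl, rfl⟩

/-- Determinant of a map which is block diagonal with respect to a basis of pairs. -/
theorem det_of_blocks {ι : Type*} [Fintype ι] [DecidableEq ι] (bb : Basis (ι × Fin 2) F V)
    {T : V →ₗ[F] V} {A : ι → Matrix (Fin 2) (Fin 2) F}
    (hT : ∀ i s, T (bb (i, s)) = ∑ r, A i r s • bb (i, r)) :
    LinearMap.det T = ∏ i, (A i).det := by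
  rw [← LinearMap.det_toMatrix bb, ← Matrix.det_blockDiagonal,
    ← Matrix.det_submatrix_equiv_self (Equiv.prodComm ι (Fin 2)) (Matrix.blockDiagonal A)]
  congr 1
  ext ⟨i, r⟩ ⟨j, s⟩
  rw [LinearMap.toMatrix_apply, hT, Matrix.submatrix_apply]
  simp only [Equiv.prodComm_apply, Prod.swap_prod_mk, Matrix.blockDiagonal_apply, map_sum, map_smul,
    Basis.repr_self, Finsupp.coe_finsetSum, Finset.sum_apply, Finsupp.coe_smul, Pi.smul_apply,
    smul_eq_mul, Finsupp.single_apply, Prod.mk.injEq]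
  by_cases hij : i = j
  · subst hij
    simp
  · simp [hij, Ne.symm hij]

/-- Maps of the form `α + β T₁` on each plane of a companion basis commute with `T₁`. -/
theorem planeMap_commute {ι : Type*} (bb : Basis (ι × Fin 2) F V) {T₁ S : V →ₗ[F] V} {ζ : F}
    (hb : ∀ j, T₁ (bb (j, 0)) = bb (j, 1) ∧ T₁ (bb (j, 1)) = ζ • bb (j, 0)) (α β : ι → F)
    (hS : ∀ k, S (bb k) = α k.1 • bb k + β k.1 • T₁ (bb k)) : ∀ v, S (T₁ v) = T₁ (S v) := by
  have h : S ∘ₗ T₁ = T₁ ∘ₗ S := by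
    apply bb.ext
    rintro ⟨i, s⟩
    have hs : s = 0 ∨ s = 1 := by fin_cases s <;> simp
    rcases hs with rfl | rfl
    · simp only [LinearMap.comp_apply, hS, (hb i).1, (hb i).2, map_add, map_smul]
    · simp only [LinearMap.comp_apply, hS, (hb i).1, (hb i).2, map_add, map_smul]
      module
  intro v
  exact congrArg (fun f : V →ₗ[F] V => f v) h

theorem planeMap_det {ι : Type*} [Fintype ι] [DecidableEq ι] (bb : Basis (ι × Fin 2) F V)
    {T₁ S : V →ₗ[F] V} {ζ : F}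
    (hb : ∀ j, T₁ (bb (j, 0)) = bb (j, 1) ∧ T₁ (bb (j, 1)) = ζ • bb (j, 0)) (α β : ι → F)
    (hS : ∀ k, S (bb k) = α k.1 • bb k + β k.1 • T₁ (bb k)) :
    LinearMap.det S = ∏ i, (α i ^ 2 - ζ * β i ^ 2) := by
  rw [det_of_blocks bb (T := S) (A := fun i => !![α i, ζ * β i; β i, α i])]
  · apply Finset.prod_congr rfl
    intro i _
    rw [Matrix.det_fin_two_of]
    ring
  · intro i s
    have hs : s = 0 ∨ s = 1 := by fin_cases s <;> simp
    rcases hs with rfl | rfl
    · simp [hS, (hb i).1, Fin.sum_univ_two]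
    · simp [hS, (hb i).2, Fin.sum_univ_two, smul_smul, mul_comm, add_comm]

/-- The form `a² - ζ b²` represents everything over a finite field of odd order. -/
lemma exists_sq_sub_mul_sq_eq [Fintype F] (hodd : Fintype.card F % 2 = 1) {ζ : F} (hζ : ζ ≠ 0) (δ : F) :
    ∃ a b : F, a ^ 2 - ζ * b ^ 2 = δ := by
  obtain ⟨a, b, hab⟩ := FiniteField.exists_root_sum_quadratic (R := F)
    (f := Polynomial.X ^ 2) (g := Polynomial.C (-ζ) * Polynomial.X ^ 2 - Polynomial.C δ)
    (Polynomial.degree_X_pow 2) (by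
      rw [Polynomial.degree_sub_C]
      · rw [Polynomial.degree_C_mul_X_pow 2 (neg_ne_zero.2 hζ)]; rfl
      · rw [Polynomial.degree_C_mul_X_pow 2 (neg_ne_zero.2 hζ)]; norm_num) hodd
  simp only [Polynomial.eval_pow, Polynomial.eval_X, Polynomial.eval_sub, Polynomial.eval_mul,
    Polynomial.eval_C] at hab
  exact ⟨a, b, by linear_combination hab⟩

/-- The centraliser of `T₁` contains maps of every non-zero determinant. -/
theorem exists_commuting_det [Fintype F] (hodd : Fintype.card F % 2 = 1) {ι : Type*} [Fintype ι]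
    [DecidableEq ι] [Nonempty ι] (bb : Basis (ι × Fin 2) F V) {T₁ : V →ₗ[F] V} {ζ : F} (hζ : ζ ≠ 0)
    (hb : ∀ j, T₁ (bb (j, 0)) = bb (j, 1) ∧ T₁ (bb (j, 1)) = ζ • bb (j, 0)) {δ : F} (hδ : δ ≠ 0) :
    ∃ g : V ≃ₗ[F] V, (∀ v, g (T₁ v) = T₁ (g v)) ∧ LinearMap.det (g : V →ₗ[F] V) = δ := by
  obtain ⟨i₀⟩ := ‹Nonempty ι›
  obtain ⟨a, b, hab⟩ := exists_sq_sub_mul_sq_eq hodd hζ δ
  set α : ι → F := Function.update (fun _ => 1) i₀ a with hα
  set β : ι → F := Function.update (fun _ => 0) i₀ b with hβ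
  set S : V →ₗ[F] V := bb.constr F (fun k => α k.1 • bb k + β k.1 • T₁ (bb k)) with hS
  have hS' : ∀ k, S (bb k) = α k.1 • bb k + β k.1 • T₁ (bb k) := by
    intro k
    rw [hS, Basis.constr_basis]
  have hdet : LinearMap.det S = δ := by
    rw [planeMap_det bb hb α β hS', Finset.prod_eq_single i₀]
    · simp [hα, hβ, hab]
    · intro i _ hi
      simp [hα, hβ, hi]
    · intro h; exact absurd (Finset.mem_univ i₀) h
  have hu : IsUnit (LinearMap.det S) := by rw [hdet]; exact isUnit_iff_ne_zero.2 hδ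
  refine ⟨LinearEquiv.ofIsUnitDet (f := S) (v := bb) (v' := bb) (by rwa [LinearMap.det_toMatrix]), ?_, ?_⟩
  · intro v
    exact planeMap_commute bb hb α β hS' v
  · exact hdet

/-- A map which looks like `α + β T₁` on the planes of some basis of pairs is conjugate, by a map of
determinant one, to a map commuting with `T₁`. -/
theorem exists_conj_commute [Fintype F] (hodd : Fintype.card F % 2 = 1) [FiniteDimensional F V]
    {T₁ T : V →ₗ[F] V} {ζ : F} (hζ : ∀ c : F, c ^ 2 ≠ ζ) (hT₁ : ∀ v, T₁ (T₁ v) = ζ • v) {t : ℕ}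
    (ht : finrank F V = 2 * t) (ht0 : 0 < t) (bb : Basis (Fin t × Fin 2) F V) (α β : Fin t → F)
    (h0 : ∀ i, T (bb (i, 0)) = α i • bb (i, 0) + β i • bb (i, 1))
    (h1 : ∀ i, T (bb (i, 1)) = (ζ * β i) • bb (i, 0) + α i • bb (i, 1)) :
    ∃ P : V ≃ₗ[F] V, LinearMap.det (P : V →ₗ[F] V) = 1 ∧
      ∀ v, P.symm (T (P (T₁ v))) = T₁ (P.symm (T (P v))) := by
  classical
  obtain ⟨vv, hvv⟩ := exists_companion_basis hT₁ hζ ht
  have hζ0 : ζ ≠ 0 := by
    intro h
    exact hζ 0 (by rw [h]; simp)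
  have : Nonempty (Fin t) := ⟨⟨0, ht0⟩⟩
  set P₀ : V ≃ₗ[F] V := vv.equiv bb (Equiv.refl _) with hP₀
  have hP₀v : ∀ k, P₀ (vv k) = bb k := by
    intro k
    simp [hP₀]
  have hP₀s : ∀ k, P₀.symm (bb k) = vv k := by
    intro k
    rw [← hP₀v, LinearEquiv.symm_apply_apply]
  set S : V →ₗ[F] V := (P₀.symm : V →ₗ[F] V) ∘ₗ T ∘ₗ (P₀ : V →ₗ[F] V) with hS
  have hS' : ∀ k, S (vv k) = α k.1 • vv k + β k.1 • T₁ (vv k) := by
    rintro ⟨i, s⟩
    have hs : s = 0 ∨ s = 1 := by fin_cases s <;> simp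
    rcases hs with rfl | rfl
    · simp only [hS, LinearMap.comp_apply, LinearEquiv.coe_coe, hP₀v, h0, map_add, map_smul, hP₀s,
        (hvv i).1]
    · simp only [hS, LinearMap.comp_apply, LinearEquiv.coe_coe, hP₀v, h1, map_add, map_smul, hP₀s,
        (hvv i).2]
      module
  have hSc := planeMap_commute vv hvv α β hS'
  have hu : IsUnit (LinearMap.det (P₀ : V →ₗ[F] V)) := LinearEquiv.isUnit_det' P₀
  obtain ⟨g, hg, hgdet⟩ := exists_commuting_det hodd vv hζ0 hvv (inv_ne_zero hu.ne_zero)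
  have hgs : ∀ w, g.symm (T₁ w) = T₁ (g.symm w) := by
    intro w
    rw [LinearEquiv.symm_apply_eq, hg, LinearEquiv.apply_symm_apply]
  refine ⟨g.trans P₀, ?_, ?_⟩
  · rw [LinearEquiv.coe_trans, LinearMap.det_comp, hgdet, mul_inv_cancel₀ hu.ne_zero]
  · intro v
    have e1 : ∀ w, (g.trans P₀).symm (T ((g.trans P₀) w)) = g.symm (S (g w)) := by
      intro w
      simp [hS]
    rw [e1, e1, hg, hSc, hgs]

theorem exists_paired_eigenbasis {T : V →ₗ[F] V} {l : F} {α β : ℕ} (b : Basis (Fin α ⊕ Fin β) F V)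
    (h1 : ∀ i, T (b (Sum.inl i)) = l • b (Sum.inl i))
    (h2 : ∀ j, T (b (Sum.inr j)) = (-l) • b (Sum.inr j)) (hα : Even α) (hβ : Even β) {t : ℕ}
    (ht : α + β = 2 * t) :
    ∃ (bb : Basis (Fin t × Fin 2) F V) (c : Fin t → F), ∀ i s, T (bb (i, s)) = c i • bb (i, s) := by
  classical
  obtain ⟨a, rfl⟩ := hα
  obtain ⟨a', rfl⟩ := hβ
  obtain rfl : t = a + a' := by omega
  let e₁ : Fin a × Fin 2 ≃ Fin (a + a) := finProdFinEquiv.trans (finCongr (by omega))
  let e₂ : Fin a' × Fin 2 ≃ Fin (a' + a') := finProdFinEquiv.trans (finCongr (by omega))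
  let e : (Fin a ⊕ Fin a') × Fin 2 ≃ Fin (a + a) ⊕ Fin (a' + a') :=
    (Equiv.sumProdDistrib _ _ _).trans (Equiv.sumCongr e₁ e₂)
  refine ⟨b.reindex (e.symm.trans (Equiv.prodCongr finSumFinEquiv (Equiv.refl _))),
    fun i => Sum.elim (fun _ => l) (fun _ => -l) (finSumFinEquiv.symm i), ?_⟩
  intro i s
  obtain ⟨i', rfl⟩ := finSumFinEquiv.surjective i
  rcases i' with i' | i'
  · have : (b.reindex (e.symm.trans (Equiv.prodCongr finSumFinEquiv (Equiv.refl _))))
        (finSumFinEquiv (Sum.inl i'), s) = b (Sum.inl (e₁ (i', s))) := by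
      simp [e]
    rw [this, h1]
    simp
  · have : (b.reindex (e.symm.trans (Equiv.prodCongr finSumFinEquiv (Equiv.refl _))))
        (finSumFinEquiv (Sum.inr i'), s) = b (Sum.inr (e₂ (i', s))) := by
      simp [e]
    rw [this, h2]
    simp

end Cfsg.Agent.Lib.Helper99
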