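import Cfsg.Agent.Lib.Helper99.SubfieldGrp
import Cfsg.Agent.Lib.Helper99.SympBridge
import Cfsg.Agent.Lib.Helper99.Companion

set_option autoImplicit false
open scoped MatrixGroups

namespace Cfsg.Agent.Lib.Helper99

open Module

section

variable {F : Type*} [Field F]

/-- If `x` acts monomially, with coefficients in `c F₀`, on the image of the standard basis under a map
of determinant one, then `x` is conjugate into the subfield subgroup. -/
theorem exists_conj_mem_subfield {n : ℕ} (F₀ : Subfield F) (x : Matrix.SpecialLinearGroup (Fin n) F)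
    (P : (Fin n → F) ≃ₗ[F] (Fin n → F)) (hdet : LinearMap.det (P : (Fin n → F) →ₗ[F] (Fin n → F)) = 1)
    (c : F) (hc : c ≠ 0)
    (h : ∀ j : Fin n, ∃ (j' : Fin n) (a : F), a ∈ F₀ ∧
      Matrix.toLin' (x : Matrix (Fin n) (Fin n) F) (P (Pi.single j 1)) = (c * a) • P (Pi.single j' 1)) :
    ∃ P' : Matrix.SpecialLinearGroup (Fin n) F, P'⁻¹ * x * P' ∈ ((Cfsg.Geo.subfieldSubgroup F₀ 1).comap
      (Matrix.SpecialLinearGroup.toGL : Matrix.SpecialLinearGroup (Fin n) F →* GL (Fin n) F)) := by
  obtain ⟨P', hP'⟩ := exists_sl_conj x P hdet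
  refine ⟨P', ?_⟩
  apply mem_subfieldSubgroup_of_entries F₀ _ c hc
  intro i j
  obtain ⟨j', a, ha, hj⟩ := h j
  have h1 := hP' (Pi.single j 1)
  rw [hj, map_smul, LinearEquiv.symm_apply_apply] at h1
  have h2 := congrFun h1 i
  rw [Matrix.mulVec_single_one] at h2
  refine ⟨a * (if i = j' then 1 else 0), ?_, ?_⟩
  · split_ifs
    · rw [mul_one]; exact ha
    · rw [mul_zero]; exact F₀.zero_mem
  · show ((P'⁻¹ * x * P' : Matrix.SpecialLinearGroup (Fin n) F) : Matrix (Fin n) (Fin n) F) i j = _
    have h3 : ((P'⁻¹ * x * P' : Matrix.SpecialLinearGroup (Fin n) F) : Matrix (Fin n) (Fin n) F) i j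
        = ((c * a) • (Pi.single j' 1 : Fin n → F)) i := h2
    rw [h3, Pi.smul_apply, Pi.single_apply, smul_eq_mul, mul_assoc]

variable {V : Type*} [AddCommGroup V] [Module F V]

/-- Effect on the determinant of rescaling the target basis. -/
theorem det_equiv_unitsSMul {κ ι : Type*} [Fintype κ] [DecidableEq κ] [Fintype ι] [DecidableEq ι]
    (e : Basis κ F V) (b : Basis ι F V) (σ : κ ≃ ι) (w : ι → Fˣ) :
    LinearMap.det ((e.equiv (b.unitsSMul w) σ : V ≃ₗ[F] V) : V →ₗ[F] V)
      = (∏ i, (w i : F)) * LinearMap.det ((e.equiv b σ : V ≃ₗ[F] V) : V →ₗ[F] V) := by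
  have key : ∀ f : V →ₗ[F] V, LinearMap.det f = e.det (f ∘ e) := by
    intro f
    rw [Basis.det_comp, Basis.det_self, mul_one]
  rw [key, key]
  have h1 : (((e.equiv (b.unitsSMul w) σ : V ≃ₗ[F] V) : V →ₗ[F] V) ∘ e)
      = fun j => (w (σ j) : F) • (((e.equiv b σ : V ≃ₗ[F] V) : V →ₗ[F] V) ∘ e) j := by
    funext j
    simp [Basis.unitsSMul_apply, Units.smul_def]
  rw [h1]
  have h2 := (e.det : V [⋀^κ]→ₗ[F] F).toMultilinearMap.map_smul_univ (fun j => (w (σ j) : F))
    (((e.equiv b σ : V ≃ₗ[F] V) : V →ₗ[F] V) ∘ e)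
  have h3 : ∏ j, (w (σ j) : F) = ∏ i, (w i : F) := Equiv.prod_comp σ (fun i => (w i : F))
  rw [h3] at h2
  exact h2

/-- In characteristic two a map with `T ∘ T = c²` is `c` times a permutation of a suitable basis. -/
theorem exists_perm_basis_char_two (h2 : (2 : F) = 0) [FiniteDimensional F V] {T : V →ₗ[F] V} {c : F}
    (hc : c ≠ 0) (hT : ∀ v, T (T v) = (c ^ 2) • v) :
    ∃ (ι : Type) (_ : Fintype ι) (_ : DecidableEq ι) (b : Basis ι F V) (π : Equiv.Perm ι),
      (∀ i, π (π i) = i) ∧ ∀ i, T (b i) = c • b (π i) := by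
  classical
  obtain ⟨ι, _, _, b, π, d, hli, hsp, hπ, hTb⟩ := exists_monomial_aux hT _ ⊤ rfl (fun _ _ => trivial)
  have hdd : ∀ i, d i * d (π i) = c ^ 2 := by
    intro i
    have h1 := hT (b i)
    rw [hTb, map_smul, hTb, hπ, smul_smul] at h1
    have h3 : (d i * d (π i) - c ^ 2) • b i = 0 := by rw [sub_smul, h1, sub_self]
    exact sub_eq_zero.1 ((smul_eq_zero.1 h3).resolve_right (hli.ne_zero i))
  have hd0 : ∀ i, d i ≠ 0 := by
    intro i h
    have := hdd i
    rw [h, zero_mul] at this
    exact (pow_ne_zero 2 hc) this.symm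
  have hfix : ∀ i, π i = i → d i = c := by
    intro i hi
    have h1 := hdd i
    rw [hi] at h1
    have h4 : (d i - c) ^ 2 = 0 := by
      have : (d i - c) ^ 2 = d i * d i + c ^ 2 - 2 * (d i * c) := by ring
      rw [this, h1, h2, ← two_mul, h2]; ring
    exact sub_eq_zero.1 (pow_eq_zero_iff (two_ne_zero) |>.1 h4)
  set k : ι → ℕ := fun i => (Fintype.equivFin ι i : ℕ) with hkdef
  have hk : Function.Injective k := by
    intro i j hij
    exact (Fintype.equivFin ι).injective (Fin.ext hij)
  let w : ι → Fˣ := fun i => if k (π i) < k i then Units.mk0 (d (π i) / c) (div_ne_zero (hd0 _) hc) else 1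
  refine ⟨ι, inferInstance, inferInstance, (Basis.mk hli (by rw [hsp])).unitsSMul w, π, hπ, ?_⟩
  intro i
  simp only [Basis.unitsSMul_apply, Basis.mk_apply, Units.smul_def, map_smul, hTb]
  rcases lt_trichotomy (k (π i)) (k i) with hlt | heq | hgt
  · have e1 : (w i : F) = d (π i) / c := by simp [w, hlt]
    have e2 : (w (π i) : F) = 1 := by
      have : ¬ k (π (π i)) < k (π i) := by rw [hπ]; omega
      simp [w, this]
    rw [e1, e2, one_smul, smul_smul]
    congr 1
    have := hdd i
    field_simp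
    linear_combination this
  · have hi : π i = i := hk heq
    have e1 : (w i : F) = 1 := by
      have : ¬ k (π i) < k i := by omega
      simp [w, this]
    rw [hi, e1, one_smul, one_smul, hfix i hi]
  · have e1 : (w i : F) = 1 := by
      have : ¬ k (π i) < k i := by omega
      simp [w, this]
    have e2 : (w (π i) : F) = d i / c := by
      simp [w, hπ, hgt]
    rw [e1, e2, one_smul, smul_smul]
    congr 1
    field_simp

/-- Weights invariant under an involution with prescribed product, in characteristic two. -/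
theorem exists_invariant_weights [Fintype F] (hev : Fintype.card F % 2 = 0) {ι : Type*} [Fintype ι]
    [DecidableEq ι] [Nonempty ι] (π : Equiv.Perm ι) (hπ : ∀ i, π (π i) = i) (δ : Fˣ) :
    ∃ w : ι → Fˣ, (∀ i, w (π i) = w i) ∧ ∏ i, (w i : F) = δ := by
  obtain ⟨i₀⟩ := ‹Nonempty ι›
  by_cases hfix : π i₀ = i₀
  · refine ⟨fun i => if i = i₀ then δ else 1, ?_, ?_⟩
    · intro i
      by_cases hi : i = i₀
      · subst hi; simp [hfix]
      · have : π i ≠ i₀ := by
          intro h
          apply hi
          rw [← hπ i, h, hfix]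
        simp [hi, this]
    · rw [Finset.prod_eq_single i₀]
      · simp
      · intro i _ hi
        simp [hi]
      · intro h; exact absurd (Finset.mem_univ i₀) h
  · obtain ⟨ε, hε⟩ := FiniteField.isSquare_of_char_two (ringChar_eq_two_of_even_card hev) (δ : F)
    have hε0 : ε ≠ 0 := by
      rintro rfl
      rw [mul_zero] at hε
      exact δ.ne_zero hε
    refine ⟨fun i => if i = i₀ ∨ i = π i₀ then Units.mk0 ε hε0 else 1, ?_, ?_⟩
    · intro i
      have : (π i = i₀ ∨ π i = π i₀) ↔ (i = i₀ ∨ i = π i₀) := by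
        constructor
        · rintro (h | h)
          · right; rw [← h, hπ]
          · left; exact π.injective h
        · rintro (h | h)
          · right; rw [h]
          · left; rw [h, hπ]
      simp only [this]
    · have h1 : ∀ i, (((if i = i₀ ∨ i = π i₀ then Units.mk0 ε hε0 else 1 : Fˣ)) : F)
          = (if i = i₀ then ε else 1) * (if i = π i₀ then ε else 1) := by
        intro i
        by_cases h1 : i = i₀
        · subst h1
          simp [Ne.symm hfix]
        · by_cases h3 : i = π i₀
          · subst h3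
            simp [hfix]
          · simp [h1, h3]
      simp only [h1, Finset.prod_mul_distrib, Finset.prod_ite_eq', Finset.mem_univ, if_true]
      exact hε.symm

end

end Cfsg.Agent.Lib.Helper99
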