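import Cfsg.Agent.Lib.Helper99.TwoByTwo

set_option autoImplicit false

namespace Cfsg.Agent.Lib.Helper99

open Matrix

variable {F : Type*} [Field F] [Fintype F]

lemma two_ne_zero_of_odd_card (hodd : Fintype.card F % 2 = 1) : (2 : F) ≠ 0 := by
  apply Ring.two_ne_zero
  intro h
  have := FiniteField.even_card_of_char_two h
  omega

lemma ringChar_ne_two_of_odd_card (hodd : Fintype.card F % 2 = 1) : ringChar F ≠ 2 := by
  intro h
  have := FiniteField.even_card_of_char_two h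
  omega

lemma ringChar_eq_two_of_even_card (hev : Fintype.card F % 2 = 0) : ringChar F = 2 := by
  by_contra h
  have := FiniteField.odd_card_of_char_ne_two h
  omega

lemma two_eq_zero_of_even_card (hev : Fintype.card F % 2 = 0) : (2 : F) = 0 := by
  have h := ringChar.Nat.cast_ringChar (R := F)
  rw [ringChar_eq_two_of_even_card hev] at h
  exact_mod_cast h

/-- The quotient of two non-squares is a square. -/
lemma exists_eq_mul_sq_of_nonsquares (hodd : Fintype.card F % 2 = 1) {z ζ : F}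
    (hz : ∀ c : F, c ^ 2 ≠ z) (hζ : ∀ c : F, c ^ 2 ≠ ζ) : ∃ s : F, s ≠ 0 ∧ z = ζ * s ^ 2 := by
  have hF := ringChar_ne_two_of_odd_card hodd
  have hz0 : z ≠ 0 := fun h => hz 0 (by rw [h]; simp)
  have hζ0 : ζ ≠ 0 := fun h => hζ 0 (by rw [h]; simp)
  have h1 : z ^ (Fintype.card F / 2) = -1 := by
    rcases FiniteField.pow_dichotomy hF hz0 with h | h
    · obtain ⟨c, hc⟩ := (FiniteField.isSquare_iff hF hz0).2 h
      exact absurd (by rw [hc, pow_two]) (hz c)
    · exact h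
  have h2 : ζ ^ (Fintype.card F / 2) = -1 := by
    rcases FiniteField.pow_dichotomy hF hζ0 with h | h
    · obtain ⟨c, hc⟩ := (FiniteField.isSquare_iff hF hζ0).2 h
      exact absurd (by rw [hc, pow_two]) (hζ c)
    · exact h
  have h3 : IsSquare (z / ζ) := by
    rw [FiniteField.isSquare_iff hF (div_ne_zero hz0 hζ0), div_pow, h1, h2]
    simp
  obtain ⟨s, hs⟩ := h3
  refine ⟨s, ?_, ?_⟩
  · rintro rfl
    rw [mul_zero] at hs
    exact (div_ne_zero hz0 hζ0) hs
  · rw [pow_two, ← hs]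
    field_simp

/-- Non-scalar matrices of determinant one with the same trace are conjugate under `SL₂` in
characteristic two. -/
lemma exists_sl2_conj_even (hev : Fintype.card F % 2 = 0) (X Y : Matrix (Fin 2) (Fin 2) F)
    (hX : ∀ z : F, X ≠ z • (1 : Matrix (Fin 2) (Fin 2) F))
    (hY : ∀ z : F, Y ≠ z • (1 : Matrix (Fin 2) (Fin 2) F))
    (hXd : X.det = 1) (hYd : Y.det = 1) (htr : X.trace = Y.trace) :
    ∃ G : Matrix (Fin 2) (Fin 2) F, G.det = 1 ∧ X * G = G * Y := by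
  obtain ⟨G₁, hG₁, h1⟩ := exists_companion X hX
  obtain ⟨G₂, hG₂, h2⟩ := exists_companion Y hY
  rw [hXd, htr] at h1
  rw [hYd] at h2
  have hu₂ : IsUnit G₂.det := isUnit_iff_ne_zero.2 hG₂
  obtain ⟨c, hc⟩ := FiniteField.isSquare_of_char_two (ringChar_eq_two_of_even_card hev) (G₂.det / G₁.det)
  refine ⟨c • (G₁ * G₂⁻¹), ?_, ?_⟩
  · rw [Matrix.det_smul, Matrix.det_mul, Matrix.det_nonsing_inv, Ring.inverse_eq_inv', Fintype.card_fin,
      pow_two, ← hc]
    field_simp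
  · have h3 : G₂⁻¹ * Y = !![0, -1; 1, Y.trace] * G₂⁻¹ := by
      have : G₂⁻¹ * (Y * G₂) * G₂⁻¹ = G₂⁻¹ * (G₂ * !![0, -1; 1, Y.trace]) * G₂⁻¹ := by rw [h2]
      rw [← Matrix.mul_assoc, Matrix.mul_assoc (G₂⁻¹ * Y), Matrix.mul_nonsing_inv _ hu₂, Matrix.mul_one,
        ← Matrix.mul_assoc, Matrix.nonsing_inv_mul _ hu₂, Matrix.one_mul] at this
      exact this
    have h4 : X * (G₁ * G₂⁻¹) = (G₁ * G₂⁻¹) * Y := by
      rw [← Matrix.mul_assoc, h1, Matrix.mul_assoc, Matrix.mul_assoc, h3]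
    rw [Matrix.mul_smul, h4, Matrix.smul_mul]

end Cfsg.Agent.Lib.Helper99
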