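import Cfsg.Agent.Lib.Helper99.FFArith
import Cfsg.Agent.Lib.Helper99.FFArithB

set_option autoImplicit false

namespace Cfsg.Agent.Lib.Helper99

section general

variable {F : Type*} [Field F]

/-- `y ^ A = -1` and `y ^ B = 1` are incompatible when `v₂ B ≤ v₂ A`. -/
lemma false_of_pow_eq_neg_one_of_pow_eq_one (h2 : (2 : F) ≠ 0) {y : F} {A B : ℕ} (hA : y ^ A = -1)
    (hB : y ^ B = 1) (hB0 : B ≠ 0) (hv : padicValNat 2 B ≤ padicValNat 2 A) : False := by
  have hne : (1 : F) ≠ -1 := by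
    intro h
    apply h2
    have : (1 : F) + 1 = 0 := by nth_rewrite 1 [h]; simp
    rw [← this]; norm_num
  have hA0 : A ≠ 0 := by
    rintro rfl
    exact hne (by simpa using hA)
  obtain ⟨a, A', hA', hAe⟩ := Nat.exists_eq_two_pow_mul_odd hA0
  obtain ⟨b, B', hB', hBe⟩ := Nat.exists_eq_two_pow_mul_odd hB0
  rw [hAe, hBe, padicValNat_two_pow_mul_odd _ _ hA', padicValNat_two_pow_mul_odd _ _ hB'] at hv
  have h1 : y ^ (A * B') = -1 := by rw [pow_mul, hA, hB'.neg_one_pow]
  have h3 : A * B' = B * (2 ^ (a - b) * A') := by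
    rw [hAe, hBe]
    have : 2 ^ a = 2 ^ b * 2 ^ (a - b) := by rw [← pow_add]; congr 1; omega
    rw [this]; ring
  rw [h3, pow_mul, hB, one_pow] at h1
  exact hne h1

end general

/-- For odd `Q` and odd `k`, `Q ^ k - 1` is `Q - 1` times an odd number. -/
lemma exists_odd_mul_eq_pow_sub_one (Q k : ℕ) (hQ : Odd Q) (hk : Odd k) :
    ∃ s : ℕ, Odd s ∧ Q ^ k - 1 = (Q - 1) * s := by
  refine ⟨∑ i ∈ Finset.range k, Q ^ i, ?_, ?_⟩
  · have : ∀ m : ℕ, (∑ i ∈ Finset.range m, Q ^ i) % 2 = m % 2 := by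
      intro m
      induction m with
      | zero => simp
      | succ m ih =>
        rw [Finset.sum_range_succ]
        have h1 : Q ^ m % 2 = 1 := Nat.odd_iff.1 (hQ.pow)
        omega
    rw [Nat.odd_iff, this]
    exact Nat.odd_iff.1 hk
  · have hpos : 0 < Q := hQ.pos
    have h1 : (Q - 1) * (∑ i ∈ Finset.range k, Q ^ i) + 1 = Q ^ k := by
      have : ∀ m : ℕ, (Q - 1) * (∑ i ∈ Finset.range m, Q ^ i) + 1 = Q ^ m := by
        intro m
        induction m with
        | zero => simp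
        | succ m ih =>
          rw [Finset.sum_range_succ, mul_add, add_right_comm, ih, pow_succ]
          obtain ⟨Q', rfl⟩ : ∃ Q', Q = Q' + 1 := ⟨Q - 1, by omega⟩
          simp only [Nat.add_sub_cancel]
          ring
      exact this k
    omega

variable {F : Type*} [Field F] [Fintype F]

/-- A non-square whose order is a power of two. -/
lemma exists_nonsquare_two_pow (hodd : Fintype.card F % 2 = 1) :
    ∃ y : F, (∀ d : F, d ^ 2 ≠ y) ∧ y ^ (2 ^ padicValNat 2 (Fintype.card F - 1)) = 1 := by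
  have h2 := two_ne_zero_of_odd_card hodd
  set e := padicValNat 2 (Fintype.card F - 1) with he
  have hcard := Fintype.one_lt_card (α := F)
  have he1 : 1 ≤ e := by
    rw [he]
    apply one_le_padicValNat_of_dvd (by omega)
    omega
  obtain ⟨l, hl, -⟩ := exists_pow_eq_neg_one (F := F) (n := 2 ^ (e - 1)) (by positivity) (by
    rw [padicValNat.prime_pow, ← he]; omega)
  refine ⟨l, ?_, ?_⟩
  · intro d hd
    rw [← hd, ← pow_mul, ← pow_succ', show e - 1 + 1 = e by omega] at hl
    have := padicValNat_lt_of_pow_eq_neg_one h2 hl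
    rw [padicValNat.prime_pow, ← he] at this
    omega
  · have : 2 ^ e = 2 ^ (e - 1) * 2 := by rw [← pow_succ]; congr 1; omega
    rw [this, pow_mul, hl]
    simp

/-- Elements of the subfield of index two are squares. -/
lemma exists_sq_eq_of_mem_subfield (hodd : Fintype.card F % 2 = 1) (F₀ : Subfield F)
    (hcard : Fintype.card F = Nat.card F₀ ^ 2) {a : F} (ha : a ∈ F₀) : ∃ d : F, d ^ 2 = a := by
  by_cases ha0 : a = 0
  · exact ⟨0, by rw [ha0]; simp⟩
  have hF := ringChar_ne_two_of_odd_card hodd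
  have : Fintype F₀ := Fintype.ofFinite F₀
  set q₀ := Nat.card F₀ with hq₀
  have h1 : a ^ (q₀ - 1) = 1 := by
    have h3 := FiniteField.pow_card_sub_one_eq_one (⟨a, ha⟩ : F₀) (by
      intro h
      exact ha0 (congrArg Subtype.val h))
    rw [← Nat.card_eq_fintype_card, ← hq₀] at h3
    have := congrArg Subtype.val h3
    simpa using this
  have hq₀odd : q₀ % 2 = 1 := by
    rw [hcard] at hodd
    rcases Nat.mod_two_eq_zero_or_one q₀ with h | h
    · exfalso
      have : (q₀ ^ 2) % 2 = 0 := by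
        rw [pow_two, Nat.mul_mod, h]
      omega
    · exact h
  have h4 : Fintype.card F / 2 = (q₀ - 1) * ((q₀ + 1) / 2) := by
    rw [hcard]
    obtain ⟨r, hr⟩ : ∃ r, q₀ = 2 * r + 1 := ⟨q₀ / 2, by omega⟩
    rw [hr]
    have e1 : (2 * r + 1) ^ 2 = 2 * (2 * r * (r + 1)) + 1 := by ring
    have e2 : (2 * r + 1 + 1) / 2 = r + 1 := by omega
    rw [e1, e2]
    have e3 : (2 * (2 * r * (r + 1)) + 1) / 2 = 2 * r * (r + 1) := by omega
    rw [e3]
    simp
  obtain ⟨d, hd⟩ := (FiniteField.isSquare_iff hF ha0).2 (by rw [h4, pow_mul, h1, one_pow])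
  exact ⟨d, by rw [hd, pow_two]⟩

end Cfsg.Agent.Lib.Helper99
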