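import Mathlib
import Cfsg.Agent.Lib.Helper95.SympLagr

set_option autoImplicit false
set_option linter.unusedSimpArgs false
set_option linter.unusedSectionVars false
set_option linter.unusedVariables false

/-! Elementary geometry of a non-degenerate alternating space: dual vectors, hyperbolic pairs in
orthogonal complements, transitivity of the transvection group on isotropic pairs. -/

namespace Cfsg.Agent.Lib.Helper99.SpSub

open Module Cfsg.Agent.Lib.Helper95

variable {K V : Type*} [Field K] [AddCommGroup V] [Module K V]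
variable {B : LinearMap.BilinForm K V}

/-- linear independence of a pair, in hands-on form -/
def Ind (K : Type*) {V : Type*} [Field K] [AddCommGroup V] [Module K V] (x y : V) : Prop :=
  ∀ s t : K, s • x + t • y = 0 → s = 0 ∧ t = 0

theorem Ind.symm {x y : V} (h : Ind K x y) : Ind K y x := by
  intro s t hst
  have := h t s (by rw [add_comm]; exact hst)
  exact ⟨this.2, this.1⟩

theorem Ind.left_ne {x y : V} (h : Ind K x y) : x ≠ 0 := by
  rintro rfl
  have := h 1 0 (by simp)
  exact one_ne_zero this.1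

theorem Ind.right_ne {x y : V} (h : Ind K x y) : y ≠ 0 := h.symm.left_ne

theorem Ind.ne_smul {x y : V} (h : Ind K x y) (c : K) : x ≠ c • y := by
  intro hx
  have := h 1 (-c) (by rw [hx]; module)
  exact one_ne_zero this.1

theorem ind_of_ne_smul {x y : V} (hy : y ≠ 0) (h : ∀ c : K, x ≠ c • y) : Ind K x y := by
  intro s t hst
  by_cases hs : s = 0
  · subst hs
    rw [zero_smul, zero_add] at hst
    exact ⟨rfl, (smul_eq_zero.1 hst).resolve_right hy⟩
  · exfalso
    apply h (-(s⁻¹ * t))
    have : x = s⁻¹ • (s • x + t • y) - (s⁻¹ * t) • y := by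
      rw [smul_add, smul_smul, smul_smul, inv_mul_cancel₀ hs]; module
    rw [this, hst]; module

/-- a pair separated by the form is independent -/
theorem ind_of_form {x y t : V} (hx : x ≠ 0) (h1 : B y t ≠ 0) (h2 : B x t = 0) : Ind K x y := by
  intro a b hab
  have h3 : B (a • x + b • y) t = 0 := by rw [hab]; simp
  simp only [map_add, map_smul, LinearMap.add_apply, LinearMap.smul_apply, smul_eq_mul, h2,
    mul_zero, zero_add] at h3
  have hb : b = 0 := (mul_eq_zero.1 h3).resolve_right h1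
  subst hb
  rw [zero_smul, add_zero] at hab
  exact ⟨(smul_eq_zero.1 hab).resolve_right hx, rfl⟩

theorem exists_one (hnd : B.Nondegenerate) {x : V} (hx : x ≠ 0) : ∃ t, B x t = 1 := by
  have : ∃ y, B x y ≠ 0 := by
    by_contra hcon
    push Not at hcon
    exact hx (hnd.1 x hcon)
  obtain ⟨y, hy⟩ := this
  exact ⟨(B x y)⁻¹ • y, by simp [hy]⟩

theorem exists_one_zero (hnd : B.Nondegenerate) {x y : V} (h : Ind K x y) :
    ∃ t, B x t = 1 ∧ B y t = 0 := by
  have key : ∃ t, B x t ≠ 0 ∧ B y t = 0 := by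
    by_contra hcon
    push Not at hcon
    obtain ⟨t₀, ht₀⟩ := exists_one hnd h.right_ne
    have h0 : x - (B x t₀) • y = 0 := by
      apply hnd.1
      intro t
      have h1 : B y (t - (B y t) • t₀) = 0 := by simp [ht₀]
      have h2 : B x (t - (B y t) • t₀) = 0 := by
        by_contra h3
        exact hcon _ h3 h1
      simp only [map_sub, map_smul, smul_eq_mul, LinearMap.sub_apply, LinearMap.smul_apply] at h2 ⊢
      linear_combination h2
    exact h.ne_smul _ (sub_eq_zero.1 h0)
  obtain ⟨t, ht1, ht2⟩ := key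
  exact ⟨(B x t)⁻¹ • t, by simp [ht1], by simp [ht2]⟩

/-- hyperbolic pairs in the orthogonal complement of a small family -/
theorem exists_hyp [FiniteDimensional K V] (hB : B.IsAlt) (hnd : B.Nondegenerate) {d : ℕ}
    (v : Fin d → V) (hd : 2 * d < finrank K V) :
    ∃ e f, B e f = 1 ∧ ∀ i, B (v i) e = 0 ∧ B (v i) f = 0 := by
  set S := Submodule.span K (Set.range v) with hS
  set U := B.orthogonal S with hU
  have h1 : finrank K S ≤ d := by
    have := finrank_range_le_card (R := K) v
    rw [Fintype.card_fin] at this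
    exact this
  have h2 : finrank K U = finrank K V - finrank K S :=
    LinearMap.BilinForm.finrank_orthogonal hnd S
  have key : ∃ e ∈ U, ∃ f ∈ U, B e f ≠ 0 := by
    by_contra hcon
    push Not at hcon
    have hle : U ≤ B.orthogonal U := by
      intro x hx
      rw [LinearMap.BilinForm.mem_orthogonal_iff]
      intro y hy
      exact hcon y hy x hx
    have h3 := Submodule.finrank_mono hle
    have h4 : finrank K (B.orthogonal U) = finrank K V - finrank K U :=
      LinearMap.BilinForm.finrank_orthogonal hnd U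
    omega
  obtain ⟨e, he, f, hf, hef⟩ := key
  refine ⟨e, (B e f)⁻¹ • f, by simp [hef], fun i => ?_⟩
  have hvi : v i ∈ S := Submodule.subset_span ⟨i, rfl⟩
  have a1 : B (v i) e = 0 := LinearMap.BilinForm.mem_orthogonal_iff.1 he _ hvi
  have a2 : B (v i) f = 0 := LinearMap.BilinForm.mem_orthogonal_iff.1 hf _ hvi
  exact ⟨a1, by simp [a2]⟩

theorem nondegOn_top (hnd : B.Nondegenerate) : NondegOn B ⊤ := by
  intro u _ hu
  obtain ⟨t, ht⟩ := exists_one hnd hu
  exact ⟨t, trivial, by rw [ht]; exact one_ne_zero⟩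

/-- transitivity on non-zero vectors -/
theorem trans_one (hB : B.IsAlt) (hnd : B.Nondegenerate) {x x' : V} (hx : x ≠ 0) (hx' : x' ≠ 0) :
    ∃ h ∈ tvGrp B hB ⊤, h x = x' :=
  transA hB (nondegOn_top hnd) trivial trivial hx hx'

/-- transitivity on independent isotropic pairs -/
theorem trans_two (hB : B.IsAlt) (hnd : B.Nondegenerate) {x y x' y' : V} (h : Ind K x y)
    (hxy : B x y = 0) (h' : Ind K x' y') (hxy' : B x' y' = 0) :
    ∃ h ∈ tvGrp B hB ⊤, h x = x' ∧ h y = y' := by
  obtain ⟨h₁, hh₁, e₁⟩ := trans_one hB hnd h.left_ne h'.left_ne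
  have hiso := tvGrp_le_isoGrp hB ⊤ hh₁
  set y₁ := h₁ y with hy₁
  have hxy₁ : B x' y₁ = 0 := by rw [← e₁, hy₁, hiso, hxy]
  have hind : Ind K x' y₁ := by
    intro s t hst
    apply h s t
    apply h₁.injective
    rw [map_add, map_smul, map_smul, e₁, map_zero]
    exact hst
  have key : ∀ a b : V, B x' a = 0 → B x' b = 0 → B a b ≠ 0 →
      ∃ g ∈ tvGrp B hB ⊤, g x' = x' ∧ g a = b := by
    intro a b ha hb hab
    refine ⟨stv B hB (a - b) (B a b)⁻¹, stv_mem_tvGrp hB Submodule.mem_top _, ?_, ?_⟩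
    · rw [stv_apply, map_sub, ha, hb]; simp
    · rw [stv_apply, map_sub, hB a, zero_sub, mul_neg, inv_mul_cancel₀ hab]
      simp
  obtain ⟨t₁, ht₁, ht₁'⟩ := exists_one_zero hnd hind.symm
  obtain ⟨t₂, ht₂, ht₂'⟩ := exists_one_zero hnd h'.symm
  set U : Submodule K V := LinearMap.ker (B x') with hU
  obtain ⟨z, hzU, hz1, hz2⟩ := exists_mem_ne_zero_both U (B y₁) (B y')
    ⟨t₁, ht₁', by rw [ht₁]; exact one_ne_zero⟩ ⟨t₂, ht₂', by rw [ht₂]; exact one_ne_zero⟩
  have hz0 : B x' z = 0 := hzU
  obtain ⟨g₁, hg₁, a1, a2⟩ := key y₁ z hxy₁ hz0 hz1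
  obtain ⟨g₂, hg₂, b1, b2⟩ := key z y' hz0 hxy' (by rw [alt_swap hB]; simpa using hz2)
  refine ⟨g₂ * g₁ * h₁, mul_mem (mul_mem hg₂ hg₁) hh₁, ?_, ?_⟩
  · rw [LinearEquiv.mul_apply, LinearEquiv.mul_apply, e₁, a1, b1]
  · rw [LinearEquiv.mul_apply, LinearEquiv.mul_apply, ← hy₁, a2, b2]

end Cfsg.Agent.Lib.Helper99.SpSub
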