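import Mathlib
import Cfsg.Agent.Lib.Helper95.SympLagr

set_option autoImplicit false
set_option linter.unusedSimpArgs false
set_option linter.unusedSectionVars false
set_option linter.unusedVariables false

/-! Identities between symplectic transvections and the elements `sElt`. -/

namespace Cfsg.Agent.Lib.Helper99.SpSub

open Module Cfsg.Agent.Lib.Helper95

variable {F V : Type*} [Field F] [AddCommGroup V] [Module F V]
variable {B : LinearMap.BilinForm F V} (hB : B.IsAlt)

include hB in
theorem swap0 {x y : V} (h : B x y = 0) : B y x = 0 := by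
  rw [alt_swap hB, h, neg_zero]

theorem stv_mul (v : V) (a b : F) : stv B hB v a * stv B hB v b = stv B hB v (a + b) := by
  ext x
  simp only [LinearEquiv.mul_apply, stv_apply, map_add, map_smul, LinearMap.add_apply,
    LinearMap.smul_apply, smul_eq_mul, hB v]
  module

theorem stv_zero_right (v : V) : stv B hB v 0 = 1 := by
  ext x; simp

theorem sElt_smul_eq {w z : V} (h : B w z = 0) (a : F) :
    stv B hB (w + z) a * stv B hB w (-a) * stv B hB z (-a) = sElt B hB (a • w) z := by
  have h' := swap0 hB h
  have h2 : B (a • w) z = 0 := by simp [h]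
  ext x
  simp only [LinearEquiv.mul_apply, stv_apply, sElt_apply hB h2, map_add, map_smul,
    LinearMap.add_apply, LinearMap.smul_apply, smul_eq_mul, hB w, hB z, h, h']
  module

theorem sElt_add {p p' q : V} (h1 : B p q = 0) (h2 : B p' q = 0) (h3 : B p p' = 0) :
    sElt B hB (p + p') q = sElt B hB p q * sElt B hB p' q := by
  have h1' := swap0 hB h1
  have h2' := swap0 hB h2
  have h3' := swap0 hB h3
  have h4 : B (p + p') q = 0 := by simp [h1, h2]
  ext x
  simp only [LinearEquiv.mul_apply, sElt_apply hB h1, sElt_apply hB h2, sElt_apply hB h4, map_add,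
    map_smul, LinearMap.add_apply, LinearMap.smul_apply, smul_eq_mul, hB p, hB p', hB q, h1, h2, h3,
    h1', h2', h3']
  module

theorem sElt_smul_comm {w z : V} (h : B w z = 0) (a : F) :
    sElt B hB (a • w) z = sElt B hB w (a • z) := by
  have h2 : B (a • w) z = 0 := by simp [h]
  have h3 : B w (a • z) = 0 := by simp [h]
  ext x
  simp only [sElt_apply hB h2, sElt_apply hB h3, map_smul, smul_eq_mul]
  module

theorem stv_add_smul {e w : V} (h : B e w = 0) (a : F) :
    stv B hB (e + a • w) 1 = stv B hB e 1 * stv B hB w (a ^ 2) * sElt B hB (a • w) e := by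
  have h' := swap0 hB h
  have h2 : B (a • w) e = 0 := by simp [h']
  ext x
  simp only [LinearEquiv.mul_apply, stv_apply, sElt_apply hB h2, map_add, map_smul,
    LinearMap.add_apply, LinearMap.smul_apply, smul_eq_mul, hB w, hB e, h, h']
  module

theorem stv_comm_eq {u w : V} (h : B u w = 0) (c β : F) :
    stv B hB u (-c) * stv B hB (u + β • w) c =
      sElt B hB ((c * β) • u) w * stv B hB w (c * β ^ 2) := by
  have h' := swap0 hB h
  have h2 : B ((c * β) • u) w = 0 := by simp [h]
  ext x
  simp only [LinearEquiv.mul_apply, stv_apply, sElt_apply hB h2, map_add, map_smul,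
    LinearMap.add_apply, LinearMap.smul_apply, smul_eq_mul, hB w, hB u, h, h']
  module

theorem q_shift {y x w : V} (h1 : B y w = 0) (h2 : B x w = 0) (a : F) :
    sElt B hB (y + (B y x) • x) w * stv B hB w a =
      (sElt B hB ((B y x) • x) w * stv B hB w (-(B y x) ^ 2)) *
        (sElt B hB y w * stv B hB w a) := by
  have h1' := swap0 hB h1
  have h2' := swap0 hB h2
  have h3 : B (y + (B y x) • x) w = 0 := by simp [h1, h2]
  have h4 : B ((B y x) • x) w = 0 := by simp [h2]
  ext t
  simp only [LinearEquiv.mul_apply, stv_apply, sElt_apply hB h1, sElt_apply hB h3,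
    sElt_apply hB h4, map_add, map_smul, LinearMap.add_apply, LinearMap.smul_apply, smul_eq_mul,
    hB w, hB x, hB y, h1, h2, h1', h2']
  module

/-- if `a = c * d` with `a`, `d` in a subgroup then `c` is in the subgroup -/
theorem mem_of_eq_mul {G : Type*} [Group G] {M : Subgroup G} {a c d : G} (h : a = c * d)
    (ha : a ∈ M) (hd : d ∈ M) : c ∈ M := by
  have : c = a * d⁻¹ := by rw [h]; group
  rw [this]
  exact M.mul_mem ha (M.inv_mem hd)

theorem mem_of_eq_mul' {G : Type*} [Group G] {M : Subgroup G} {a c d : G} (h : a = c * d)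
    (ha : a ∈ M) (hc : c ∈ M) : d ∈ M := by
  have : d = c⁻¹ * a := by rw [h]; group
  rw [this]
  exact M.mul_mem (M.inv_mem hc) ha

end Cfsg.Agent.Lib.Helper99.SpSub
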