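import Mathlib
import Cfsg.Agent.Lib.Helper99.SpSubV0
import Cfsg.Agent.Lib.Helper99.SpSubCalc

set_option autoImplicit false
set_option linter.unusedSimpArgs false
set_option linter.unusedSectionVars false
set_option linter.unusedVariables false

/-! A symplectic space over `F` together with a form of it over a subfield `F₀`. -/

namespace Cfsg.Agent.Lib.Helper99.SpSub

open Module Cfsg.Agent.Lib.Helper95

/-- a symplectic `F`-space `V` with a rational structure `j : V₀ → V` over the subfield `F₀` -/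
structure RS {F : Type*} [Field F] (F₀ : Subfield F) (V₀ V : Type*) [AddCommGroup V₀]
    [Module F₀ V₀] [AddCommGroup V] [Module F V] where
  B₀ : LinearMap.BilinForm F₀ V₀
  B : LinearMap.BilinForm F V
  j : V₀ →+ V
  j_smul : ∀ (c : F₀) (x : V₀), j (c • x) = (c : F) • j x
  B_j : ∀ x y, B (j x) (j y) = (B₀ x y : F)
  alt₀ : B₀.IsAlt
  alt : B.IsAlt
  nd₀ : B₀.Nondegenerate
  nd : B.Nondegenerate
  span : Submodule.span F (Set.range j) = ⊤

variable {F : Type*} [Field F] {F₀ : Subfield F} {V₀ V : Type*} [AddCommGroup V₀]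
  [Module F₀ V₀] [AddCommGroup V] [Module F V] (D : RS F₀ V₀ V)

namespace RS

theorem B_j_zero {x y : V₀} (h : D.B₀ x y = 0) : D.B (D.j x) (D.j y) = 0 := by
  rw [D.B_j, h]; rfl

theorem B_j_one {x y : V₀} (h : D.B₀ x y = 1) : D.B (D.j x) (D.j y) = 1 := by
  rw [D.B_j, h]; rfl

theorem B_j_mem (x y : V₀) : D.B (D.j x) (D.j y) ∈ F₀ := by
  rw [D.B_j]; exact (D.B₀ x y).2

theorem zero_of_perp {v : V} (h : ∀ x, D.B v (D.j x) = 0) : v = 0 := by
  apply D.nd.1
  have : D.B v = 0 := by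
    apply LinearMap.ext_on D.span
    rintro _ ⟨x, rfl⟩
    simpa using h x
  intro y
  rw [this]; rfl

theorem j_inj {x : V₀} (h : D.j x = 0) : x = 0 := by
  apply D.nd₀.1
  intro y
  have := D.B_j x y
  rw [h] at this
  simp only [map_zero, LinearMap.zero_apply] at this
  exact_mod_cast this.symm

theorem j_ne {x : V₀} (h : x ≠ 0) : D.j x ≠ 0 := fun h0 => h (D.j_inj h0)

theorem j_injective : Function.Injective D.j := by
  intro x y hxy
  have : D.j (x - y) = 0 := by rw [map_sub, hxy, sub_self]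
  exact sub_eq_zero.1 (D.j_inj this)

/-- a vector with rational products with all rational vectors is rational -/
theorem rat_of_forall [FiniteDimensional F₀ V₀] {v : V} (h : ∀ x, D.B v (D.j x) ∈ F₀) :
    ∃ v₀, v = D.j v₀ := by
  let φ : V₀ →ₗ[F₀] F₀ :=
    { toFun := fun x => ⟨D.B v (D.j x), h x⟩
      map_add' := by
        intro x y
        apply Subtype.ext
        simp
      map_smul' := by
        intro c x
        apply Subtype.ext
        simp [D.j_smul] }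
  refine ⟨(D.B₀.toDual D.nd₀).symm φ, ?_⟩
  rw [← sub_eq_zero]
  apply D.zero_of_perp
  intro x
  rw [map_sub, LinearMap.sub_apply, D.B_j, LinearMap.BilinForm.apply_toDual_symm_apply]
  simp [φ]

/-- a vector orthogonal to all rational vectors of `w^⊥` is a multiple of `w` -/
theorem smul_of_perp {w : V₀} (hw : w ≠ 0) {u : V}
    (h : ∀ x, D.B₀ w x = 0 → D.B u (D.j x) = 0) : ∃ c : F, u = c • D.j w := by
  obtain ⟨t, ht⟩ := exists_one D.nd₀ hw
  refine ⟨D.B u (D.j t), ?_⟩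
  rw [← sub_eq_zero]
  apply D.zero_of_perp
  intro x
  have h1 : D.B₀ w (x - (D.B₀ w x) • t) = 0 := by simp [ht]
  have h2 := h _ h1
  rw [map_sub, D.j_smul, map_sub, map_smul, smul_eq_mul] at h2
  rw [map_sub, LinearMap.sub_apply, map_smul, LinearMap.smul_apply, smul_eq_mul, D.B_j]
  linear_combination h2

/-- `M` contains the rational transvections -/
def HasRat (M : Subgroup (V ≃ₗ[F] V)) : Prop :=
  ∀ (x : V₀) (c : F₀), stv D.B D.alt (D.j x) (c : F) ∈ M

variable {D} {M : Subgroup (V ≃ₗ[F] V)}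

theorem HasRat.stv_one (hM : D.HasRat M) (x : V₀) : stv D.B D.alt (D.j x) 1 ∈ M := by
  simpa using hM x 1

theorem HasRat.stv_neg_one (hM : D.HasRat M) (x : V₀) : stv D.B D.alt (D.j x) (-1) ∈ M := by
  simpa using hM x (-1)

theorem HasRat.sElt (hM : D.HasRat M) (x y : V₀) : sElt D.B D.alt (D.j x) (D.j y) ∈ M := by
  unfold Cfsg.Agent.Lib.Helper95.sElt
  rw [← map_add]
  exact M.mul_mem (M.mul_mem (hM.stv_one _) (hM.stv_neg_one _)) (hM.stv_neg_one _)

theorem HasRat.lift (hM : D.HasRat M) {g₀ : V₀ ≃ₗ[F₀] V₀} (hg : g₀ ∈ tvGrp D.B₀ D.alt₀ ⊤) :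
    ∃ g ∈ M, ∀ x, g (D.j x) = D.j (g₀ x) := by
  unfold tvGrp at hg
  induction hg using Subgroup.closure_induction with
  | mem t ht =>
    obtain ⟨v, -, c, rfl⟩ := ht
    refine ⟨_, hM v c, fun x => ?_⟩
    rw [stv_apply, stv_apply, map_add, D.j_smul, D.B_j]
    simp
  | one => exact ⟨1, M.one_mem, fun x => by simp⟩
  | mul a b _ _ iha ihb =>
    obtain ⟨g, hg, h1⟩ := iha
    obtain ⟨g', hg', h2⟩ := ihb
    exact ⟨g * g', M.mul_mem hg hg', fun x => by
      rw [LinearEquiv.mul_apply, LinearEquiv.mul_apply, h2, h1]⟩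
  | inv a _ iha =>
    obtain ⟨g, hg, h1⟩ := iha
    refine ⟨g⁻¹, M.inv_mem hg, fun x => ?_⟩
    show g.symm _ = _
    rw [LinearEquiv.symm_apply_eq, h1]
    congr 1
    show x = a (a.symm x)
    simp

theorem HasRat.trans_one (hM : D.HasRat M) {x x' : V₀} (hx : x ≠ 0) (hx' : x' ≠ 0) :
    ∃ g ∈ M, g (D.j x) = D.j x' := by
  obtain ⟨g₀, hg₀, e⟩ := SpSub.trans_one D.alt₀ D.nd₀ hx hx'
  obtain ⟨g, hg, h1⟩ := hM.lift hg₀
  exact ⟨g, hg, by rw [h1, e]⟩

theorem HasRat.trans_two (hM : D.HasRat M) {x y x' y' : V₀} (h : Ind F₀ x y)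
    (hxy : D.B₀ x y = 0) (h' : Ind F₀ x' y') (hxy' : D.B₀ x' y' = 0) :
    ∃ g ∈ M, g (D.j x) = D.j x' ∧ g (D.j y) = D.j y' := by
  obtain ⟨g₀, hg₀, e1, e2⟩ := SpSub.trans_two D.alt₀ D.nd₀ h hxy h' hxy'
  obtain ⟨g, hg, h1⟩ := hM.lift hg₀
  exact ⟨g, hg, by rw [h1, e1], by rw [h1, e2]⟩

end RS

end Cfsg.Agent.Lib.Helper99.SpSub
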