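import Mathlib
import Cfsg.Agent.Lib.Helper99.SpSubRS

set_option autoImplicit false
set_option linter.unusedSimpArgs false
set_option linter.unusedSectionVars false
set_option linter.unusedVariables false

/-! Overgroups of the rational symplectic group: the coefficient field of the short root
elements. -/

namespace Cfsg.Agent.Lib.Helper99.SpSub

open Module Cfsg.Agent.Lib.Helper95

variable {F : Type*} [Field F] {F₀ : Subfield F} {V₀ V : Type*} [AddCommGroup V₀]
  [Module F₀ V₀] [AddCommGroup V] [Module F V] {D : RS F₀ V₀ V} {M : Subgroup (V ≃ₗ[F] V)}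

/-- `δ` is a coefficient of short root elements of `M` -/
def Sh (D : RS F₀ V₀ V) (M : Subgroup (V ≃ₗ[F] V)) (δ : F) : Prop :=
  ∀ x y : V₀, Ind F₀ x y → D.B₀ x y = 0 → sElt D.B D.alt (δ • D.j x) (D.j y) ∈ M

/-- `a` is a coefficient of rational transvections of `M` -/
def Tv (D : RS F₀ V₀ V) (M : Subgroup (V ≃ₗ[F] V)) (a : F) : Prop :=
  ∀ x : V₀, stv D.B D.alt (D.j x) a ∈ M

theorem Sh_of_one (hM : D.HasRat M) (hMi : M ≤ isoGrp D.B) {x y : V₀} (h : Ind F₀ x y)
    (hxy : D.B₀ x y = 0) {δ : F} (hδ : sElt D.B D.alt (δ • D.j x) (D.j y) ∈ M) : Sh D M δ := by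
  intro x' y' h' hxy'
  obtain ⟨g, hg, e1, e2⟩ := hM.trans_two h hxy h' hxy'
  have := conj_sElt D.alt (hMi hg) (δ • D.j x) (D.j y)
  rw [map_smul, e1, e2] at this
  rw [← this]
  exact M.mul_mem (M.mul_mem hg hδ) (M.inv_mem hg)

theorem Sh_rat (hM : D.HasRat M) {c : F} (hc : c ∈ F₀) : Sh D M c := by
  intro x y _ _
  have := hM.sElt ((⟨c, hc⟩ : F₀) • x) y
  rwa [D.j_smul] at this

theorem Sh_add {a b : F} (ha : Sh D M a) (hb : Sh D M b) : Sh D M (a + b) := by
  intro x y h hxy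
  have h0 := D.B_j_zero hxy
  rw [add_smul, sElt_add D.alt (by simp [h0]) (by simp [h0]) (by simp [D.alt (D.j x)])]
  exact M.mul_mem (ha x y h hxy) (hb x y h hxy)

theorem sElt_zero_left {B : LinearMap.BilinForm F V} (hB : B.IsAlt) (q : V) :
    sElt B hB 0 q = 1 := by
  ext x
  rw [sElt_apply hB (by simp)]
  simp

theorem Sh_neg {a : F} (ha : Sh D M a) : Sh D M (-a) := by
  intro x y h hxy
  have h0 := D.B_j_zero hxy
  have h1 : sElt D.B D.alt ((-a) • D.j x + a • D.j x) (D.j y) =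
      sElt D.B D.alt ((-a) • D.j x) (D.j y) * sElt D.B D.alt (a • D.j x) (D.j y) :=
    sElt_add D.alt (by simp [h0]) (by simp [h0]) (by simp [D.alt (D.j x)])
  have h2 : (-a) • D.j x + a • D.j x = 0 := by module
  rw [h2, sElt_zero_left] at h1
  exact mem_of_eq_mul h1 M.one_mem (ha x y h hxy)

section dim

variable [FiniteDimensional F₀ V₀]

theorem Sh_mul (hM : D.HasRat M) (hMi : M ≤ isoGrp D.B) (hdim : 5 ≤ finrank F₀ V₀) {a b : F}
    (ha : Sh D M a) (hb : Sh D M b) : Sh D M (a * b) := by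
  intro w z h hwz
  obtain ⟨e, f, hef, hv⟩ := exists_hyp D.alt₀ D.nd₀ ![w, z] (by omega)
  have hwe : D.B₀ w e = 0 := (hv 0).1
  have hwf : D.B₀ w f = 0 := (hv 0).2
  have hze : D.B₀ z e = 0 := (hv 1).1
  have hzf : D.B₀ z f = 0 := (hv 1).2
  have hfe : D.B₀ f e ≠ 0 := by
    rw [alt_swap D.alt₀, hef]; simp
  have hg : sElt D.B D.alt (a • D.j w) (D.j f) ∈ M :=
    ha w f (ind_of_form h.left_ne hfe hwe) hwf
  have hs : sElt D.B D.alt (b • D.j e) (D.j z) ∈ M :=
    hb e z (ind_of_form (B := D.B₀) h.right_ne (by rw [hef]; exact one_ne_zero) hzf).symm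
      (swap0 D.alt₀ hze)
  have hc := conj_sElt D.alt (hMi hg) (b • D.j e) (D.j z)
  have hwf' : D.B (a • D.j w) (D.j f) = 0 := by simp [D.B_j_zero hwf]
  have e1 : sElt D.B D.alt (a • D.j w) (D.j f) (b • D.j e) = b • D.j e + (a * b) • D.j w := by
    rw [sElt_apply D.alt hwf']
    simp only [map_smul, LinearMap.smul_apply, smul_eq_mul, D.B_j_zero (swap0 D.alt₀ hwe),
      D.B_j_one hef]
    module
  have e2 : sElt D.B D.alt (a • D.j w) (D.j f) (D.j z) = D.j z := by
    rw [sElt_apply D.alt hwf']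
    simp [D.B_j_zero (swap0 D.alt₀ hwz), D.B_j_zero hzf]
  rw [e1, e2, sElt_add D.alt (by simp [D.B_j_zero (swap0 D.alt₀ hze)])
    (by simp [D.B_j_zero hwz]) (by simp [D.B_j_zero (swap0 D.alt₀ hwe)])] at hc
  exact mem_of_eq_mul' hc (M.mul_mem (M.mul_mem hg hs) (M.inv_mem hg)) hs

theorem Sh_pow (hM : D.HasRat M) (hMi : M ≤ isoGrp D.B) (hdim : 5 ≤ finrank F₀ V₀) {a : F}
    (ha : Sh D M a) (n : ℕ) : Sh D M (a ^ n) := by
  induction n with
  | zero => simpa using Sh_rat hM F₀.one_mem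
  | succ k ih => rw [pow_succ]; exact Sh_mul hM hMi hdim ih ha

/-- the coefficient field -/
def ShField [Fintype F] (hM : D.HasRat M) (hMi : M ≤ isoGrp D.B) (hdim : 5 ≤ finrank F₀ V₀) :
    Subfield F where
  carrier := {δ | Sh D M δ}
  mul_mem' := Sh_mul hM hMi hdim
  one_mem' := Sh_rat hM F₀.one_mem
  add_mem' := Sh_add
  zero_mem' := Sh_rat hM F₀.zero_mem
  neg_mem' := Sh_neg
  inv_mem' := by
    intro c hc
    by_cases h0 : c = 0
    · rw [h0, _root_.inv_zero]; exact Sh_rat hM F₀.zero_mem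
    · have h1 : c ^ (Fintype.card F - 1) = 1 := FiniteField.pow_card_sub_one_eq_one c h0
      have h2 : 2 ≤ Fintype.card F := Fintype.one_lt_card
      have h4 : c⁻¹ = c ^ (Fintype.card F - 2) := by
        apply inv_eq_of_mul_eq_one_left
        rw [← pow_succ]
        have : Fintype.card F - 2 + 1 = Fintype.card F - 1 := by omega
        rw [this, h1]
      rw [h4]
      exact Sh_pow hM hMi hdim hc _

end dim

theorem Tv_of_one (hM : D.HasRat M) (hMi : M ≤ isoGrp D.B) {x : V₀} (hx : x ≠ 0) {a : F}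
    (ha : stv D.B D.alt (D.j x) a ∈ M) : Tv D M a := by
  intro x'
  by_cases hx' : x' = 0
  · rw [hx', map_zero, stv_zero_left]; exact M.one_mem
  · obtain ⟨g, hg, e⟩ := hM.trans_one hx hx'
    rw [← e, ← conj_stv D.alt (hMi hg)]
    exact M.mul_mem (M.mul_mem hg ha) (M.inv_mem hg)

theorem Sh_of_Tv {a : F} (ha : Tv D M a) : Sh D M a := by
  intro x y _ hxy
  rw [← sElt_smul_eq D.alt (D.B_j_zero hxy), ← map_add, ← stv_inv, ← stv_inv]
  exact M.mul_mem (M.mul_mem (ha _) (M.inv_mem (ha _))) (M.inv_mem (ha _))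

theorem Tv_add {a b : F} (ha : Tv D M a) (hb : Tv D M b) : Tv D M (a + b) := by
  intro x
  rw [← stv_mul]
  exact M.mul_mem (ha x) (hb x)

theorem Tv_neg {a : F} (ha : Tv D M a) : Tv D M (-a) := by
  intro x
  rw [← stv_inv]
  exact M.inv_mem (ha x)

theorem Tv_sq [FiniteDimensional F₀ V₀] (hM : D.HasRat M) (hMi : M ≤ isoGrp D.B)
    (hdim : 3 ≤ finrank F₀ V₀) {a : F} (ha : Sh D M a) : Tv D M (a ^ 2) := by
  intro w
  by_cases hw : w = 0
  · rw [hw, map_zero, stv_zero_left]; exact M.one_mem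
  obtain ⟨e, f, hef, hv⟩ := exists_hyp D.alt₀ D.nd₀ ![w] (by omega)
  have hwe : D.B₀ w e = 0 := (hv 0).1
  have hwf : D.B₀ w f = 0 := (hv 0).2
  have hfe : D.B₀ f e ≠ 0 := by
    rw [alt_swap D.alt₀, hef]; simp
  have hg : sElt D.B D.alt (a • D.j w) (D.j f) ∈ M := ha w f (ind_of_form hw hfe hwe) hwf
  have hs : sElt D.B D.alt (a • D.j w) (D.j e) ∈ M :=
    ha w e (ind_of_form (B := D.B₀) hw (by rw [hef]; exact one_ne_zero) hwf) hwe
  have hc := conj_stv D.alt (hMi hg) (D.j e) 1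
  have hwf' : D.B (a • D.j w) (D.j f) = 0 := by simp [D.B_j_zero hwf]
  have e1 : sElt D.B D.alt (a • D.j w) (D.j f) (D.j e) = D.j e + a • D.j w := by
    rw [sElt_apply D.alt hwf']
    simp only [map_smul, LinearMap.smul_apply, smul_eq_mul, D.B_j_zero (swap0 D.alt₀ hwe),
      D.B_j_one hef]
    module
  rw [e1, stv_add_smul D.alt (D.B_j_zero (swap0 D.alt₀ hwe))] at hc
  have h1 := mem_of_eq_mul hc (M.mul_mem (M.mul_mem hg (hM.stv_one e)) (M.inv_mem hg)) hs
  exact mem_of_eq_mul' rfl h1 (hM.stv_one e)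

theorem Tv_all [Fintype F] [FiniteDimensional F₀ V₀] (hM : D.HasRat M) (hMi : M ≤ isoGrp D.B)
    (hdim : 3 ≤ finrank F₀ V₀) (h : ∀ a, Sh D M a) (a : F) : Tv D M a := by
  by_cases h2 : (2 : F) = 0
  · have hc : ringChar F = 2 := CharP.ringChar_of_prime_eq_zero Nat.prime_two (by exact_mod_cast h2)
    obtain ⟨b, hb⟩ := FiniteField.isSquare_of_char_two hc a
    rw [hb, ← pow_two]
    exact Tv_sq hM hMi hdim (h b)
  · have : a = ((a + 1) / 2) ^ 2 + -((a - 1) / 2) ^ 2 := by field_simp; ring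
    rw [this]
    exact Tv_add (Tv_sq hM hMi hdim (h _)) (Tv_neg (Tv_sq hM hMi hdim (h _)))

theorem tvSet_add_rat (hMi : M ≤ isoGrp D.B) (hS : ∀ a, Sh D M a) (hT : ∀ a, Tv D M a) {u : V}
    (hu : u ∈ tvSet D.B D.alt M) (x : V₀) (a : F) : u + a • D.j x ∈ tvSet D.B D.alt M := by
  have hjx : D.j x ∈ tvSet D.B D.alt M := fun c => hT c x
  by_cases hx : x = 0
  · rw [hx, map_zero, smul_zero, add_zero]; exact hu
  by_cases hux : D.B u (D.j x) = 0
  · by_cases hall : ∀ w, D.B₀ x w = 0 → D.B u (D.j w) = 0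
    · obtain ⟨c, hc⟩ := D.smul_of_perp hx hall
      rw [hc, ← add_smul]
      exact tvSet_smul D.alt hjx _
    · push Not at hall
      obtain ⟨w, hxw, huw⟩ := hall
      have hind : Ind F₀ w x := by
        apply ind_of_ne_smul hx
        intro c hc
        apply huw
        rw [hc, D.j_smul, map_smul, hux, smul_zero]
      have hg := hS (a / D.B u (D.j w)) x w hind.symm hxw
      have := tvSet_map D.alt hg (hMi hg) hu
      rw [sElt_apply D.alt (by simp [D.B_j_zero hxw])] at this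
      simp only [map_smul, smul_eq_mul, hux, mul_zero, zero_smul, add_zero, smul_smul] at this
      rwa [mul_div_cancel₀ _ huw] at this
  · exact tvSet_add D.alt hu hjx hux a

theorem tvSet_univ (hMi : M ≤ isoGrp D.B) (hS : ∀ a, Sh D M a) (hT : ∀ a, Tv D M a) (v : V) :
    v ∈ tvSet D.B D.alt M := by
  have key : ∀ v ∈ Submodule.span F (Set.range D.j), ∀ u ∈ tvSet D.B D.alt M,
      u + v ∈ tvSet D.B D.alt M := by
    intro v hv
    induction hv using Submodule.span_induction with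
    | mem y hy =>
      obtain ⟨x, rfl⟩ := hy
      intro u hu
      simpa using tvSet_add_rat hMi hS hT hu x 1
    | zero => intro u hu; simpa using hu
    | add y z _ _ ihy ihz =>
      intro u hu
      rw [← add_assoc]
      exact ihz _ (ihy u hu)
    | smul c y _ ih =>
      intro u hu
      by_cases hc : c = 0
      · simpa [hc] using hu
      · have h1 := ih (c⁻¹ • u) (tvSet_smul D.alt hu _)
        have h2 := tvSet_smul D.alt h1 c
        rwa [smul_add, smul_smul, mul_inv_cancel₀ hc, one_smul] at h2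
  have := key v (by rw [D.span]; trivial) 0 (zero_mem_tvSet D.alt)
  rwa [zero_add] at this

/-- if all scalars are coefficients of short root elements then `M` is the full group -/
theorem isoGrp_le_of_Sh [Fintype F] [FiniteDimensional F₀ V₀] [FiniteDimensional F V]
    (hM : D.HasRat M) (hMi : M ≤ isoGrp D.B)
    (hdim : 3 ≤ finrank F₀ V₀) (h : ∀ a, Sh D M a) : isoGrp D.B ≤ M :=
  isoGrp_le_of_stv_mem D.alt D.nd M
    (fun v c => tvSet_univ hMi h (Tv_all hM hMi hdim h) v c)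

end Cfsg.Agent.Lib.Helper99.SpSub
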