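import Mathlib
import Cfsg.Agent.Lib.Helper99.SpSubRing

set_option autoImplicit false
set_option linter.unusedSimpArgs false
set_option linter.unusedSectionVars false
set_option linter.unusedVariables false

/-! Overgroups of the rational symplectic group with rational coefficient field: transvections
whose centre is orthogonal to a rational vector have a rational centre. -/

namespace Cfsg.Agent.Lib.Helper99.SpSub

open Module Cfsg.Agent.Lib.Helper95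

variable {F : Type*} [Field F] {F₀ : Subfield F} {V₀ V : Type*} [AddCommGroup V₀]
  [Module F₀ V₀] [AddCommGroup V] [Module F V] {D : RS F₀ V₀ V} {M : Subgroup (V ≃ₗ[F] V)}

theorem T_rat (hM : D.HasRat M) (hMi : M ≤ isoGrp D.B) (hK : ∀ δ, Sh D M δ → δ ∈ F₀) {x : V₀}
    (hx : x ≠ 0) {a : F} (ha : stv D.B D.alt (D.j x) a ∈ M) : a ∈ F₀ :=
  hK a (Sh_of_Tv (Tv_of_one hM hMi hx ha))

theorem conj_mul {G : Type*} [Group G] (g a b : G) :
    g * (a * b) * g⁻¹ = (g * a * g⁻¹) * (g * b * g⁻¹) := by group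

variable [FiniteDimensional F₀ V₀]

theorem Q_rat (hM : D.HasRat M) (hMi : M ≤ isoGrp D.B) (hK : ∀ δ, Sh D M δ → δ ∈ F₀)
    (hdim : 7 ≤ finrank F₀ V₀) {w : V₀} (hw : w ≠ 0) {y : V} (hyw : D.B y (D.j w) = 0) {a : F}
    (hq : sElt D.B D.alt y (D.j w) * stv D.B D.alt (D.j w) a ∈ M) {x : V₀}
    (hxw : D.B₀ x w = 0) : D.B y (D.j x) ∈ F₀ := by
  by_cases hx : ∃ c : F₀, x = c • w
  · obtain ⟨c, rfl⟩ := hx
    rw [D.j_smul, map_smul, hyw, smul_zero]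
    exact F₀.zero_mem
  push Not at hx
  have hind : Ind F₀ x w := ind_of_ne_smul hw hx
  obtain ⟨t, hxt, hwt⟩ := exists_one_zero D.nd₀ hind
  obtain ⟨x₃, f₃, hef, hv⟩ := exists_hyp D.alt₀ D.nd₀ ![w, x, t] (by omega)
  have hw3 : D.B₀ w x₃ = 0 := (hv 0).1
  have hwf : D.B₀ w f₃ = 0 := (hv 0).2
  have hx3 : D.B₀ x x₃ = 0 := (hv 1).1
  have ht3 : D.B₀ t x₃ = 0 := (hv 2).1
  set δ := D.B y (D.j x) with hδ
  have hwx : D.B₀ w x = 0 := swap0 D.alt₀ hxw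
  -- conjugate by the rational transvection with centre `x`
  have ht₁ := hM.stv_one x
  have hA : sElt D.B D.alt (y + δ • D.j x) (D.j w) * stv D.B D.alt (D.j w) a ∈ M := by
    have h1 := M.mul_mem (M.mul_mem ht₁ hq) (M.inv_mem ht₁)
    rw [conj_mul, conj_sElt D.alt (hMi ht₁), conj_stv D.alt (hMi ht₁)] at h1
    have e1 : stv D.B D.alt (D.j x) 1 (D.j w) = D.j w := by
      rw [stv_apply, D.B_j_zero hwx]; simp
    have e2 : stv D.B D.alt (D.j x) 1 y = y + δ • D.j x := by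
      rw [stv_apply, one_mul]
    rwa [e1, e2] at h1
  have hq₁ : sElt D.B D.alt (δ • D.j x) (D.j w) * stv D.B D.alt (D.j w) (-δ ^ 2) ∈ M :=
    mem_of_eq_mul (q_shift D.alt hyw (D.B_j_zero hxw) a) hA hq
  -- conjugate by a rational short root element
  have hh := hM.sElt x₃ t
  have h3t : D.B (D.j x₃) (D.j t) = 0 := D.B_j_zero (swap0 D.alt₀ ht3)
  have h2 := M.mul_mem (M.mul_mem hh hq₁) (M.inv_mem hh)
  rw [conj_mul, conj_sElt D.alt (hMi hh), conj_stv D.alt (hMi hh)] at h2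
  have e1 : sElt D.B D.alt (D.j x₃) (D.j t) (D.j w) = D.j w := by
    rw [sElt_apply D.alt h3t, D.B_j_zero hw3, D.B_j_zero hwt]; simp
  have e2 : sElt D.B D.alt (D.j x₃) (D.j t) (δ • D.j x) = δ • D.j x₃ + δ • D.j x := by
    rw [sElt_apply D.alt h3t]
    simp only [map_smul, LinearMap.smul_apply, smul_eq_mul, D.B_j_zero hx3, D.B_j_one hxt]
    module
  rw [e1, e2, sElt_add D.alt (by simp [D.B_j_zero (swap0 D.alt₀ hw3)])
    (by simp [D.B_j_zero hxw]) (by simp [D.B_j_zero (swap0 D.alt₀ hx3)]), mul_assoc] at h2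
  have h3 := mem_of_eq_mul rfl h2 hq₁
  have hind3 : Ind F₀ x₃ w :=
    (ind_of_form (B := D.B₀) hw (by rw [hef]; exact one_ne_zero) hwf).symm
  exact hK δ (Sh_of_one hM hMi hind3 (swap0 D.alt₀ hw3) h3)

theorem Q_rat' (hM : D.HasRat M) (hMi : M ≤ isoGrp D.B) (hK : ∀ δ, Sh D M δ → δ ∈ F₀)
    (hdim : 7 ≤ finrank F₀ V₀) {w : V₀} (hw : w ≠ 0) {y : V} (hyw : D.B y (D.j w) = 0) {a : F}
    (hq : sElt D.B D.alt y (D.j w) * stv D.B D.alt (D.j w) a ∈ M) :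
    ∃ (y₀ : V₀) (μ : F), y = D.j y₀ + μ • D.j w := by
  obtain ⟨t, hwt⟩ := exists_one D.nd₀ hw
  have key : ∀ x, D.B (y - (D.B y (D.j t)) • D.j w) (D.j x) ∈ F₀ := by
    intro x
    have h1 : D.B₀ (x - (D.B₀ w x) • t) w = 0 := by
      apply swap0 D.alt₀
      simp [hwt]
    have h2 := Q_rat hM hMi hK hdim hw hyw hq h1
    have e : D.B (y - (D.B y (D.j t)) • D.j w) (D.j x) =
        D.B y (D.j (x - (D.B₀ w x) • t)) := by
      have e0 : D.j (x - (D.B₀ w x) • t) = D.j x - ((D.B₀ w x : F₀) : F) • D.j t := by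
        rw [map_sub, D.j_smul]
      rw [e0]
      simp only [map_sub, map_smul, LinearMap.sub_apply, LinearMap.smul_apply, smul_eq_mul, D.B_j]
      ring
    rw [e]; exact h2
  obtain ⟨y₀, hy₀⟩ := D.rat_of_forall key
  exact ⟨y₀, D.B y (D.j t), by rw [← hy₀]; abel⟩

theorem A_step (hM : D.HasRat M) (hMi : M ≤ isoGrp D.B) (hK : ∀ δ, Sh D M δ → δ ∈ F₀)
    (hdim : 7 ≤ finrank F₀ V₀) {u : V} {c : F} (hc : c ≠ 0) (hz : stv D.B D.alt u c ∈ M)
    {w : V₀} (hw : w ≠ 0) (huw : D.B u (D.j w) = 0) :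
    ∃ (l : F) (y₀ : V₀) (μ : F), l ≠ 0 ∧ l • u = D.j y₀ + μ • D.j w := by
  by_cases hall : ∀ x, D.B₀ w x = 0 → D.B u (D.j x) = 0
  · obtain ⟨c', hc'⟩ := D.smul_of_perp hw hall
    exact ⟨1, 0, c', one_ne_zero, by rw [one_smul, map_zero, zero_add, hc']⟩
  push Not at hall
  obtain ⟨w₂, hww, hβ⟩ := hall
  set β := D.B u (D.j w₂) with hβdef
  have ha := hM.sElt w w₂
  have h1 := M.mul_mem (M.mul_mem ha hz) (M.inv_mem ha)
  rw [conj_stv D.alt (hMi ha)] at h1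
  have e1 : sElt D.B D.alt (D.j w) (D.j w₂) u = u + β • D.j w := by
    rw [sElt_apply D.alt (D.B_j_zero hww), huw, zero_smul, add_zero]
  rw [e1] at h1
  have h2 : stv D.B D.alt u (-c) ∈ M := by rw [← stv_inv]; exact M.inv_mem hz
  have h3 := M.mul_mem h2 h1
  rw [stv_comm_eq D.alt huw] at h3
  obtain ⟨y₀, μ, hy⟩ := Q_rat' hM hMi hK hdim hw (y := (c * β) • u) (by simp [huw]) h3
  exact ⟨c * β, y₀, μ, mul_ne_zero hc hβ, hy⟩

/-- **Theorem A.** -/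
theorem A_main (hM : D.HasRat M) (hMi : M ≤ isoGrp D.B) (hK : ∀ δ, Sh D M δ → δ ∈ F₀)
    (hdim : 9 ≤ finrank F₀ V₀) {u : V} {c : F} (hc : c ≠ 0) (hz : stv D.B D.alt u c ∈ M)
    {w : V₀} (hw : w ≠ 0) (huw : D.B u (D.j w) = 0) : ∃ (l : F) (x : V₀), u = l • D.j x := by
  obtain ⟨l, y₀, μ, hl, hu⟩ := A_step hM hMi hK (by omega) hc hz hw huw
  have hu' : u = l⁻¹ • (D.j y₀ + μ • D.j w) := by
    rw [← hu, smul_smul, inv_mul_cancel₀ hl, one_smul]
  by_cases hμ : μ ∈ F₀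
  · refine ⟨l⁻¹, y₀ + (⟨μ, hμ⟩ : F₀) • w, ?_⟩
    rw [map_add, D.j_smul]; exact hu'
  by_cases hdep : ∃ c' : F₀, y₀ = c' • w
  · obtain ⟨c', rfl⟩ := hdep
    refine ⟨l⁻¹ * (c' + μ), w, ?_⟩
    rw [hu', D.j_smul]; module
  exfalso
  push Not at hdep
  have hind : Ind F₀ y₀ w := ind_of_ne_smul hw hdep
  have hyw : D.B₀ y₀ w = 0 := by
    have h1 : D.B (l • u) (D.j w) = 0 := by simp [huw]
    rw [hu] at h1
    simp only [map_add, map_smul, LinearMap.add_apply, LinearMap.smul_apply, D.alt (D.j w),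
      smul_zero, add_zero, D.B_j] at h1
    exact_mod_cast h1
  obtain ⟨x₁, hy1, hw1⟩ := exists_one_zero D.nd₀ hind
  obtain ⟨x₂, hw2, hy2⟩ := exists_one_zero D.nd₀ hind.symm
  obtain ⟨w', f', hef, hv⟩ := exists_hyp D.alt₀ D.nd₀ ![y₀, w, x₁, x₂] (by omega)
  have hyw' : D.B₀ y₀ w' = 0 := (hv 0).1
  have hww' : D.B₀ w w' = 0 := (hv 1).1
  have h1w' : D.B₀ x₁ w' = 0 := (hv 2).1
  have h2w' : D.B₀ x₂ w' = 0 := (hv 3).1
  have hw'0 : w' ≠ 0 := by
    rintro rfl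
    simp at hef
  have huw' : D.B u (D.j w') = 0 := by
    rw [hu']
    simp [D.B_j_zero hyw', D.B_j_zero hww']
  obtain ⟨l', y₀', μ', hl', hu2⟩ := A_step hM hMi hK (by omega) hc hz hw'0 huw'
  have hcomb : l' • (D.j y₀ + μ • D.j w) = l • (D.j y₀' + μ' • D.j w') := by
    rw [← hu, ← hu2, smul_smul, smul_smul, mul_comm]
  have c1 := congrArg (fun v => D.B v (D.j x₁)) hcomb
  have c2 := congrArg (fun v => D.B v (D.j x₂)) hcomb
  simp only [map_add, map_smul, LinearMap.add_apply, LinearMap.smul_apply, smul_eq_mul,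
    D.B_j_one hy1, D.B_j_zero hw1, D.B_j_zero (swap0 D.alt₀ h1w'), mul_zero, add_zero,
    mul_one] at c1
  simp only [map_add, map_smul, LinearMap.add_apply, LinearMap.smul_apply, smul_eq_mul,
    D.B_j_one hw2, D.B_j_zero hy2, D.B_j_zero (swap0 D.alt₀ h2w'), mul_zero, add_zero,
    mul_one, zero_add] at c2
  have hk1 : D.B (D.j y₀') (D.j x₁) ≠ 0 := by
    intro h0
    rw [h0, mul_zero] at c1
    exact hl' c1
  apply hμ
  have : μ = D.B (D.j y₀') (D.j x₂) / D.B (D.j y₀') (D.j x₁) := by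
    rw [eq_div_iff hk1]
    have : l * (μ * D.B (D.j y₀') (D.j x₁)) = l * D.B (D.j y₀') (D.j x₂) := by
      rw [← c2, c1]; ring
    exact mul_left_cancel₀ hl this
  rw [this]
  exact F₀.div_mem (D.B_j_mem _ _) (D.B_j_mem _ _)

end Cfsg.Agent.Lib.Helper99.SpSub
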