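import Mathlib

set_option autoImplicit false
set_option linter.unusedSimpArgs false
set_option linter.unusedSectionVars false
set_option linter.unusedVariables false

/-! In an extension of degree at least four without intermediate fields no element outside the
base field satisfies a cubic equation. -/

namespace Cfsg.Agent.Lib.Helper99.SpSub

open Module Polynomial IntermediateField

variable {F : Type*} [Field F] {F₀ : Subfield F}

theorem natDegree_minpoly_eq [FiniteDimensional F₀ F]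
    (hdich : ∀ K : Subfield F, F₀ ≤ K → K = F₀ ∨ K = ⊤) {τ : F} (hτ : τ ∉ F₀) :
    (minpoly F₀ τ).natDegree = finrank F₀ F := by
  have hint : IsIntegral F₀ τ := IsIntegral.of_finite F₀ τ
  rw [← adjoin.finrank hint]
  have hle : F₀ ≤ (F₀⟮τ⟯).toSubfield := by
    intro x hx
    exact (F₀⟮τ⟯).algebraMap_mem ⟨x, hx⟩
  have hmem : τ ∈ (F₀⟮τ⟯).toSubfield := mem_adjoin_simple_self F₀ τ
  rcases hdich _ hle with h | h
  · rw [h] at hmem
    exact (hτ hmem).elim
  · have htop : F₀⟮τ⟯ = ⊤ := by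
      rw [eq_top_iff]
      intro x _
      have : x ∈ (F₀⟮τ⟯).toSubfield := by rw [h]; exact Subfield.mem_top x
      exact this
    rw [htop, finrank_top']

theorem no_cubic [FiniteDimensional F₀ F]
    (hdich : ∀ K : Subfield F, F₀ ≤ K → K = F₀ ∨ K = ⊤) (h4 : 4 ≤ finrank F₀ F) {τ : F}
    (hτ : τ ∉ F₀) {c₃ c₂ c₁ c₀ : F} (h₃ : c₃ ∈ F₀) (h₂ : c₂ ∈ F₀) (h₁ : c₁ ∈ F₀) (h₀ : c₀ ∈ F₀)
    (h : c₃ * τ ^ 3 + c₂ * τ ^ 2 + c₁ * τ + c₀ = 0) : c₃ = 0 ∧ c₂ = 0 ∧ c₁ = 0 ∧ c₀ = 0 := by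
  set P : Cubic F₀ := ⟨⟨c₃, h₃⟩, ⟨c₂, h₂⟩, ⟨c₁, h₁⟩, ⟨c₀, h₀⟩⟩ with hP
  have hev : aeval τ P.toPoly = 0 := by
    simp only [Cubic.toPoly, hP, map_add, map_mul, aeval_C, map_pow, aeval_X]
    exact h
  have hz : P.toPoly = 0 := by
    by_contra hne
    have h1 := natDegree_le_of_dvd (minpoly.dvd F₀ τ hev) hne
    have h2 : P.toPoly.natDegree ≤ 3 := natDegree_cubic_le
    rw [natDegree_minpoly_eq hdich hτ] at h1
    omega
  have hP0 := (Cubic.toPoly_eq_zero_iff P).1 hz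
  have a3 : P.a = 0 := by rw [hP0]; rfl
  have a2 : P.b = 0 := by rw [hP0]; rfl
  have a1 : P.c = 0 := by rw [hP0]; rfl
  have a0 : P.d = 0 := by rw [hP0]; rfl
  exact ⟨congrArg Subtype.val a3, congrArg Subtype.val a2, congrArg Subtype.val a1,
    congrArg Subtype.val a0⟩

end Cfsg.Agent.Lib.Helper99.SpSub
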