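import Mathlib
import Cfsg.Agent.Lib.Helper99.SpSubA
import Cfsg.Agent.Lib.Helper99.SpSubPoly
import Cfsg.Agent.Lib.Helper7.SL2Key

set_option autoImplicit false
set_option linter.unusedSimpArgs false
set_option linter.unusedSectionVars false
set_option linter.unusedVariables false

/-! Overgroups of the rational symplectic group with rational coefficient field: there is no
transvection whose centre is orthogonal to no rational vector. -/

namespace Cfsg.Agent.Lib.Helper99.SpSub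

open Module Cfsg.Agent.Lib.Helper95 Cfsg.Agent.Lib.Helper46 Cfsg.Agent.Lib.Helper7 Matrix

section tri

variable {F V : Type*} [Field F] [AddCommGroup V] [Module F V]

/-- the subgroup of `SL₂(F)` induced by `M` on the pair `(y, u)` modulo the fixed vector `r` -/
def triGrp (M : Subgroup (V ≃ₗ[F] V)) (L : Submodule F V) (y u r : V) :
    Subgroup (SpecialLinearGroup (Fin 2) F) where
  carrier := {X | ∃ m ∈ M, (∀ x, m x - x ∈ L) ∧ m r = r ∧
    (∃ ρ : F, m y = X.1 0 0 • y + X.1 1 0 • u + ρ • r) ∧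
    (∃ ρ : F, m u = X.1 0 1 • y + X.1 1 1 • u + ρ • r)}
  one_mem' := ⟨1, M.one_mem, by simp, by simp, ⟨0, by simp⟩, ⟨0, by simp⟩⟩
  mul_mem' := by
    rintro X Y ⟨m, hm, mL, mr, ⟨ρ₁, my⟩, ⟨ρ₂, mu⟩⟩ ⟨m', hm', mL', mr', ⟨ρ₁', my'⟩, ⟨ρ₂', mu'⟩⟩
    refine ⟨m * m', M.mul_mem hm hm', ?_, ?_, ?_, ?_⟩
    · intro x
      have : (m * m') x - x = (m (m' x) - m' x) + (m' x - x) := by
        rw [LinearEquiv.mul_apply]; abel
      rw [this]; exact L.add_mem (mL _) (mL' _)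
    · rw [LinearEquiv.mul_apply, mr', mr]
    · refine ⟨Y.1 0 0 * ρ₁ + Y.1 1 0 * ρ₂ + ρ₁', ?_⟩
      rw [LinearEquiv.mul_apply, my', map_add, map_add, map_smul, map_smul, map_smul, my, mu, mr,
        mul_00, mul_10]
      module
    · refine ⟨Y.1 0 1 * ρ₁ + Y.1 1 1 * ρ₂ + ρ₂', ?_⟩
      rw [LinearEquiv.mul_apply, mu', map_add, map_add, map_smul, map_smul, map_smul, my, mu, mr,
        mul_01, mul_11]
      module
  inv_mem' := by
    rintro X ⟨m, hm, mL, mr, ⟨ρ₁, my⟩, ⟨ρ₂, mu⟩⟩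
    have hd := det2 X
    refine ⟨m⁻¹, M.inv_mem hm, ?_, ?_, ?_, ?_⟩
    · intro x
      show m.symm x - x ∈ L
      have := mL (m.symm x)
      rw [LinearEquiv.apply_symm_apply] at this
      have e : m.symm x - x = -(x - m.symm x) := by abel
      rw [e]; exact L.neg_mem this
    · show m.symm r = r
      rw [LinearEquiv.symm_apply_eq, mr]
    · refine ⟨-(X.1 1 1 * ρ₁ - X.1 1 0 * ρ₂), ?_⟩
      show m.symm y = _
      rw [LinearEquiv.symm_apply_eq, inv_00, inv_10, map_add, map_add, map_smul, map_smul,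
        map_smul, my, mu, mr]
      have : X.1 1 1 • (X.1 0 0 • y + X.1 1 0 • u + ρ₁ • r) +
          -X.1 1 0 • (X.1 0 1 • y + X.1 1 1 • u + ρ₂ • r) + -(X.1 1 1 * ρ₁ - X.1 1 0 * ρ₂) • r
          = (X.1 0 0 * X.1 1 1 - X.1 0 1 * X.1 1 0) • y := by module
      rw [this, hd, one_smul]
    · refine ⟨-(-X.1 0 1 * ρ₁ + X.1 0 0 * ρ₂), ?_⟩
      show m.symm u = _
      rw [LinearEquiv.symm_apply_eq, inv_01, inv_11, map_add, map_add, map_smul, map_smul,
        map_smul, my, mu, mr]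
      have : -X.1 0 1 • (X.1 0 0 • y + X.1 1 0 • u + ρ₁ • r) +
          X.1 0 0 • (X.1 0 1 • y + X.1 1 1 • u + ρ₂ • r) + -(-X.1 0 1 * ρ₁ + X.1 0 0 * ρ₂) • r
          = (X.1 0 0 * X.1 1 1 - X.1 0 1 * X.1 1 0) • u := by module
      rw [this, hd, one_smul]

end tri

variable {F : Type*} [Field F] {F₀ : Subfield F} {V₀ V : Type*} [AddCommGroup V₀]
  [Module F₀ V₀] [AddCommGroup V] [Module F V] {D : RS F₀ V₀ V} {M : Subgroup (V ≃ₗ[F] V)}

theorem four_le_card {G : Subgroup (SpecialLinearGroup (Fin 2) F)} [Finite F] {s t : F}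
    (hs : uu s ∈ G) (ht : uu t ∈ G) (hs0 : s ≠ 0) (ht0 : t ≠ 0) (hst : s ≠ t) (hst' : s + t ≠ 0) :
    4 ≤ Nat.card (addOf G) := by
  classical
  have hsub : (({0, s, t, s + t} : Finset F) : Set F) ⊆ (addOf G : Set F) := by
    intro x hx
    simp only [Finset.coe_insert, Finset.coe_singleton, Set.mem_insert_iff,
      Set.mem_singleton_iff] at hx
    rcases hx with rfl | rfl | rfl | rfl
    · exact (addOf G).zero_mem
    · exact hs
    · exact ht
    · exact (addOf G).add_mem hs ht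
  have hc : ({0, s, t, s + t} : Finset F).card = 4 := by
    rw [Finset.card_insert_of_notMem, Finset.card_insert_of_notMem, Finset.card_insert_of_notMem,
      Finset.card_singleton]
    · simp [hs0]
    · simp [hst, ht0]
    · simp [hs0.symm, ht0.symm, hst'.symm]
  have h5 := Set.ncard_le_ncard hsub (Set.toFinite _)
  rw [Set.ncard_coe_finset, hc] at h5
  have h6 : ((addOf G : AddSubgroup F) : Set F).ncard = Nat.card (addOf G) :=
    (Nat.card_coe_set_eq _).symm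
  omega

theorem finrank_le_of_generic [FiniteDimensional F₀ F] {u : V}
    (hgen : ∀ w : V₀, w ≠ 0 → D.B u (D.j w) ≠ 0) : finrank F₀ V₀ ≤ finrank F₀ F := by
  let φ : V₀ →ₗ[F₀] F :=
    { toFun := fun x => D.B u (D.j x)
      map_add' := by intro x y; simp
      map_smul' := by
        intro c x
        simp [D.j_smul, Subfield.smul_def] }
  apply LinearMap.finrank_le_finrank_of_injective (f := φ)
  rw [← LinearMap.ker_eq_bot, LinearMap.ker_eq_bot']
  intro x hx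
  by_contra h0
  exact hgen x h0 hx

/-- the configuration used in the generic case -/
structure Cfg (D : RS F₀ V₀ V) (u : V) (e₁ f₁ e₂ f₂ : V₀) (b b' τ : F) : Prop where
  ef1 : D.B₀ e₁ f₁ = 1
  ef2 : D.B₀ e₂ f₂ = 1
  ee : D.B₀ e₁ e₂ = 0
  e1f2 : D.B₀ e₁ f₂ = 0
  f1e2 : D.B₀ f₁ e₂ = 0
  f1f2 : D.B₀ f₁ f₂ = 0
  hb : D.B u (D.j e₁) = b
  hb' : D.B u (D.j e₂) = b'
  b0 : b ≠ 0
  hτ : b' = τ * b

/-- an element of `M` inducing an upper unitriangular matrix has a restricted parameter -/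
theorem param_restricted [Fintype F] [FiniteDimensional F₀ V₀] (hM : D.HasRat M)
    (hMi : M ≤ isoGrp D.B) (hK : ∀ δ, Sh D M δ → δ ∈ F₀)
    (hdich : ∀ K : Subfield F, F₀ ≤ K → K = F₀ ∨ K = ⊤) (hdim : 9 ≤ finrank F₀ V₀)
    (h4 : 4 ≤ finrank F₀ F) {u : V} {e₁ f₁ e₂ f₂ : V₀} {b b' τ : F}
    (C : Cfg D u e₁ f₁ e₂ f₂ b b' τ) (hτ : τ ∉ F₀) {a : V ≃ₗ[F] V} (haM : a ∈ M)
    (aL : ∀ x, a x - x ∈ Submodule.span F {u, D.j e₁, D.j e₂})
    (ar : a (b' • D.j e₁ - b • D.j e₂) = b' • D.j e₁ - b • D.j e₂) {ρ ρ' s : F}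
    (ay : a (D.j e₁) = D.j e₁ + ρ • (b' • D.j e₁ - b • D.j e₂))
    (au : a u = s • D.j e₁ + u + ρ' • (b' • D.j e₁ - b • D.j e₂)) :
    ∃ k₀ ∈ F₀, ∃ k₁ ∈ F₀, ∃ k₂ ∈ F₀, s = b * (k₀ + k₁ * τ + k₂ * τ ^ 2) := by
  have hai := hMi haM
  have E11 := D.B_j_one C.ef1
  have E22 := D.B_j_one C.ef2
  have E12 := D.B_j_zero C.ee
  have E21 := D.B_j_zero (swap0 D.alt₀ C.ee)
  have E1f2 := D.B_j_zero C.e1f2
  have Ef2e1 := D.B_j_zero (swap0 D.alt₀ C.e1f2)
  have Ef1e2 := D.B_j_zero C.f1e2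
  have E2f1 := D.B_j_zero (swap0 D.alt₀ C.f1e2)
  have Ef1e1 : D.B (D.j f₁) (D.j e₁) = -1 := by rw [alt_swap D.alt, E11]
  have Ef2e2 : D.B (D.j f₂) (D.j e₂) = -1 := by rw [alt_swap D.alt, E22]
  have he₁0 : e₁ ≠ 0 := by
    rintro rfl
    have := C.ef1
    simp at this
  have he₂0 : e₂ ≠ 0 := by
    rintro rfl
    have := C.ef2
    simp at this
  have hb0 := C.b0
  have hb := C.hb
  have hb' := C.hb'
  have hbτ := C.hτ
  -- step 1 : `ρ = 0`
  have hρ : ρ = 0 := by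
    have hs1 : stv D.B D.alt (a (D.j e₁)) 1 ∈ M := by
      rw [← conj_stv D.alt hai]
      exact M.mul_mem (M.mul_mem haM (hM.stv_one e₁)) (M.inv_mem haM)
    have hperp : D.B (a (D.j e₁)) (D.j e₁) = 0 := by
      rw [ay]
      simp [D.alt (D.j e₁), E21]
    obtain ⟨l, x, hx⟩ := A_main hM hMi hK hdim one_ne_zero hs1 he₁0 hperp
    have hne : a (D.j e₁) ≠ 0 := by
      intro h0
      exact D.j_ne he₁0 (a.injective (by rw [h0, map_zero]))
    have hl : l ≠ 0 := by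
      rintro rfl
      rw [zero_smul] at hx
      exact hne hx
    have hx0 : x ≠ 0 := by
      rintro rfl
      rw [map_zero, smul_zero] at hx
      exact hne hx
    rw [hx, stv_smul] at hs1
    have hl2 : l ^ 2 ∈ F₀ := by
      have := T_rat hM hMi hK hx0 hs1
      rwa [mul_one] at this
    have p1 : 1 + ρ * b' = l * D.B (D.j x) (D.j f₁) := by
      have h1 : D.B (a (D.j e₁)) (D.j f₁) = 1 + ρ * b' := by
        rw [ay]
        simp [E11, E2f1]
      rw [← h1, hx]; simp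
    have p2 : -(ρ * b) = l * D.B (D.j x) (D.j f₂) := by
      have h1 : D.B (a (D.j e₁)) (D.j f₂) = -(ρ * b) := by
        rw [ay]
        simp [E1f2, E22]
      rw [← h1, hx]; simp
    set k₁ := D.B (D.j x) (D.j f₁) with hk₁
    set k₂ := D.B (D.j x) (D.j f₂) with hk₂
    have hk₁m : k₁ ∈ F₀ := D.B_j_mem _ _
    have hk₂m : k₂ ∈ F₀ := D.B_j_mem _ _
    have hone : l * (k₁ + k₂ * τ) = 1 := by
      rw [hbτ] at p1
      linear_combination (-1 : F) * p1 - τ * p2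
    have hrel : 0 * τ ^ 3 + (l ^ 2 * k₂ ^ 2) * τ ^ 2 + (2 * l ^ 2 * k₁ * k₂) * τ +
        (l ^ 2 * k₁ ^ 2 - 1) = 0 := by
      linear_combination (l * (k₁ + k₂ * τ) + 1) * hone
    have h2m : (2 : F) ∈ F₀ := by
      have := F₀.add_mem F₀.one_mem F₀.one_mem
      rwa [one_add_one_eq_two] at this
    obtain ⟨-, hz, -, -⟩ := no_cubic hdich h4 hτ F₀.zero_mem
      (F₀.mul_mem hl2 (F₀.pow_mem hk₂m 2))
      (F₀.mul_mem (F₀.mul_mem (F₀.mul_mem h2m hl2) hk₁m) hk₂m)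
      (F₀.sub_mem (F₀.mul_mem hl2 (F₀.pow_mem hk₁m 2)) F₀.one_mem) hrel
    have hk20 : k₂ = 0 := by
      rcases mul_eq_zero.1 hz with h | h
      · exact (hl (pow_eq_zero_iff two_ne_zero |>.1 h)).elim
      · exact pow_eq_zero_iff two_ne_zero |>.1 h
    rw [hk20, mul_zero, neg_eq_zero] at p2
    exact (mul_eq_zero.1 p2).resolve_right hb0
  rw [hρ, zero_smul, add_zero] at ay
  have ay' : a (D.j e₂) = D.j e₂ := by
    rw [map_sub, map_smul, map_smul, ay] at ar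
    have h1 : b • a (D.j e₂) = b • D.j e₂ := by
      have := sub_right_injective ar
      exact this
    exact smul_right_injective V hb0 h1
  -- step 2 : the images of `f₁`, `f₂`
  have key : ∀ f : V₀, (∃ w, w ≠ 0 ∧ a (D.j w) = D.j w ∧ D.B₀ f w = 0) →
      (∃ w', a (D.j w') = D.j w' ∧ D.B₀ f w' ≠ 0) →
      ∃ η ∈ F₀, ∃ η' ∈ F₀, a (D.j f) = D.j f + η • D.j e₁ + η' • D.j e₂ := by
    rintro f ⟨w, hw0, haw, hfw⟩ ⟨w', haw', hfw'⟩
    have hs1 : stv D.B D.alt (a (D.j f)) 1 ∈ M := by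
      rw [← conj_stv D.alt hai]
      exact M.mul_mem (M.mul_mem haM (hM.stv_one f)) (M.inv_mem haM)
    have hperp : D.B (a (D.j f)) (D.j w) = 0 := by
      rw [← haw, hai, D.B_j_zero hfw]
    obtain ⟨l, x, hx⟩ := A_main hM hMi hK hdim one_ne_zero hs1 hw0 hperp
    have h1 : l * D.B (D.j x) (D.j w') = D.B (D.j f) (D.j w') := by
      have : D.B (a (D.j f)) (D.j w') = D.B (D.j f) (D.j w') := by
        conv_lhs => rw [← haw']
        exact hai _ _
      rw [← this, hx]; simp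
    have hne : D.B (D.j f) (D.j w') ≠ 0 := by
      rw [D.B_j]
      exact_mod_cast hfw'
    have hxw : D.B (D.j x) (D.j w') ≠ 0 := by
      intro h0
      rw [h0, mul_zero] at h1
      exact hne h1.symm
    have hl : l ∈ F₀ := by
      have : l = D.B (D.j f) (D.j w') / D.B (D.j x) (D.j w') := by
        rw [eq_div_iff hxw, h1]
      rw [this]
      exact F₀.div_mem (D.B_j_mem _ _) (D.B_j_mem _ _)
    have hz : a (D.j f) = D.j ((⟨l, hl⟩ : F₀) • x) := by rw [D.j_smul, hx]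
    obtain ⟨ξ, η, η', hd⟩ := Submodule.mem_span_triple.1 (aL (D.j f))
    have c1 := congrArg (fun v => D.B v (D.j e₁)) hd
    simp only [map_add, map_sub, map_smul, LinearMap.add_apply, LinearMap.sub_apply,
      LinearMap.smul_apply, smul_eq_mul, hb, D.alt (D.j e₁), E21, mul_zero, add_zero] at c1
    have c1' : D.B (a (D.j f)) (D.j e₁) = D.B (D.j f) (D.j e₁) := by
      conv_lhs => rw [← ay]
      exact hai _ _
    rw [c1', sub_self] at c1
    have hξ : ξ = 0 := (mul_eq_zero.1 c1).resolve_right hb0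
    rw [hξ, zero_smul, zero_add] at hd
    have c2 := congrArg (fun v => D.B v (D.j f₁)) hd
    have c3 := congrArg (fun v => D.B v (D.j f₂)) hd
    simp only [map_add, map_sub, map_smul, LinearMap.add_apply, LinearMap.sub_apply,
      LinearMap.smul_apply, smul_eq_mul, E11, E2f1, mul_zero, add_zero, mul_one] at c2
    simp only [map_add, map_sub, map_smul, LinearMap.add_apply, LinearMap.sub_apply,
      LinearMap.smul_apply, smul_eq_mul, E22, E1f2, mul_zero, zero_add, mul_one] at c3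
    refine ⟨η, ?_, η', ?_, ?_⟩
    · rw [c2, hz]
      exact F₀.sub_mem (D.B_j_mem _ _) (D.B_j_mem _ _)
    · rw [c3, hz]
      exact F₀.sub_mem (D.B_j_mem _ _) (D.B_j_mem _ _)
    · rw [add_assoc, hd]; abel
  obtain ⟨η, hη, η', hη', af1⟩ := key f₁ ⟨e₂, he₂0, ay', C.f1e2⟩
    ⟨e₁, ay, by rw [alt_swap D.alt₀, C.ef1]; simp⟩
  obtain ⟨θ, hθ, θ', hθ', af2⟩ := key f₂ ⟨e₁, he₁0, ay, swap0 D.alt₀ C.e1f2⟩
    ⟨e₂, ay', by rw [alt_swap D.alt₀, C.ef2]; simp⟩
  -- step 3 : the isometry condition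
  have I1 := hai u (D.j f₁)
  have I2 := hai u (D.j f₂)
  rw [au, af1] at I1
  rw [au, af2] at I2
  simp only [map_add, map_sub, map_smul, LinearMap.add_apply, LinearMap.sub_apply,
    LinearMap.smul_apply, smul_eq_mul, hb, hb', D.alt (D.j e₁), D.alt (D.j e₂), E11, E22, E12, E21,
    E1f2, E2f1, mul_zero, add_zero, mul_one, zero_add, sub_zero, zero_sub] at I1 I2
  refine ⟨-η, F₀.neg_mem hη, -η' - θ, F₀.sub_mem (F₀.neg_mem hη') hθ, -θ', F₀.neg_mem hθ', ?_⟩
  rw [hbτ] at I1 I2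
  have hρ' : ρ' = θ + θ' * τ := by
    have : b * (θ + θ' * τ - ρ') = 0 := by linear_combination I2
    have := (mul_eq_zero.1 this).resolve_left hb0
    linear_combination -this
  rw [hρ'] at I1
  linear_combination I1

/-- there is no transvection in `M` whose centre is orthogonal to no rational vector -/
theorem generic_false [Fintype F] [FiniteDimensional F₀ V₀] (hM : D.HasRat M)
    (hMi : M ≤ isoGrp D.B) (hK : ∀ δ, Sh D M δ → δ ∈ F₀)
    (hdich : ∀ K : Subfield F, F₀ ≤ K → K = F₀ ∨ K = ⊤) (hdim : 9 ≤ finrank F₀ V₀)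
    {u : V} {c : F} (hc : c ≠ 0) (hz : stv D.B D.alt u c ∈ M)
    (hgen : ∀ w : V₀, w ≠ 0 → D.B u (D.j w) ≠ 0) : False := by
  obtain ⟨p, hp⟩ := CharP.exists F
  haveI : Fact p.Prime := ⟨CharP.char_is_prime F p⟩
  have h4 : 4 ≤ finrank F₀ F := le_trans (by omega) (finrank_le_of_generic hgen)
  obtain ⟨e₁, f₁, hef1, -⟩ := exists_hyp D.alt₀ D.nd₀ ![] (by omega)
  obtain ⟨e₂, f₂, hef2, hv⟩ := exists_hyp D.alt₀ D.nd₀ ![e₁, f₁] (by omega)
  have he₁0 : e₁ ≠ 0 := by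
    rintro rfl
    simp at hef1
  have he₂0 : e₂ ≠ 0 := by
    rintro rfl
    simp at hef2
  set b := D.B u (D.j e₁) with hb
  set b' := D.B u (D.j e₂) with hb'
  have hb0 : b ≠ 0 := hgen e₁ he₁0
  have hb'0 : b' ≠ 0 := hgen e₂ he₂0
  set τ := b' / b with hτdef
  have hbτ : b' = τ * b := by rw [hτdef]; field_simp
  have C : Cfg D u e₁ f₁ e₂ f₂ b b' τ :=
    ⟨hef1, hef2, (hv 0).1, (hv 0).2, (hv 1).1, (hv 1).2, rfl, rfl, hb0, hbτ⟩
  have hτ : τ ∉ F₀ := by
    intro hmem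
    have h1 : D.B u (D.j (e₂ - (⟨τ, hmem⟩ : F₀) • e₁)) = 0 := by
      rw [map_sub, D.j_smul, map_sub, map_smul, ← hb, ← hb', hbτ]
      simp
    have h2 : e₂ - (⟨τ, hmem⟩ : F₀) • e₁ = 0 := by
      by_contra h0
      exact hgen _ h0 h1
    have h3 : D.B₀ (e₂ - (⟨τ, hmem⟩ : F₀) • e₁) f₂ = 1 := by
      simp [hef2, C.e1f2]
    rw [h2] at h3
    simp at h3
  have hτ2 : ∀ k ∈ F₀, τ ^ 2 ≠ k := by
    intro k hk h0
    have hrel : 0 * τ ^ 3 + 1 * τ ^ 2 + 0 * τ + (-k) = 0 := by rw [h0]; ring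
    obtain ⟨-, h1, -, -⟩ := no_cubic hdich h4 hτ F₀.zero_mem F₀.one_mem F₀.zero_mem
      (F₀.neg_mem hk) hrel
    exact one_ne_zero h1
  have E12 := D.B_j_zero C.ee
  have E21 := D.B_j_zero (swap0 D.alt₀ C.ee)
  have hyu : D.B (D.j e₁) u = -b := by rw [alt_swap D.alt]
  have hyu' : D.B (D.j e₂) u = -b' := by rw [alt_swap D.alt]
  set L : Submodule F V := Submodule.span F {u, D.j e₁, D.j e₂} with hL
  have huL : u ∈ L := Submodule.subset_span (by simp)
  have hyL : D.j e₁ ∈ L := Submodule.subset_span (by simp)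
  have hyL' : D.j e₂ ∈ L := Submodule.subset_span (by simp)
  set r := b' • D.j e₁ - b • D.j e₂ with hr
  set G := triGrp M L (D.j e₁) u r with hG
  have hl : ll (-(c * b)) ∈ G := by
    refine ⟨_, hz, ?_, ?_, ⟨0, ?_⟩, ⟨0, ?_⟩⟩
    · intro x
      rw [stv_apply, add_sub_cancel_left]
      exact L.smul_mem _ huL
    · rw [stv_apply, hr]
      simp only [map_sub, map_smul, LinearMap.sub_apply, LinearMap.smul_apply, smul_eq_mul, hyu,
        hyu']
      have : c * (b' * -b - b * -b') = 0 := by ring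
      rw [this, zero_smul, add_zero]
    · rw [stv_apply, hyu]
      simp only [ll, mk2_00, mk2_10]
      module
    · rw [stv_apply, D.alt u]
      simp only [ll, mk2_01, mk2_11]
      module
  have hu1 : ∀ k : F₀, uu ((k : F) * b) ∈ G := by
    intro k
    refine ⟨_, hM e₁ k, ?_, ?_, ⟨0, ?_⟩, ⟨0, ?_⟩⟩
    · intro x
      rw [stv_apply, add_sub_cancel_left]
      exact L.smul_mem _ hyL
    · rw [stv_apply, hr]
      simp [D.alt (D.j e₁), E21]
    · rw [stv_apply, D.alt (D.j e₁)]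
      simp only [uu, mk2_00, mk2_10]
      module
    · rw [stv_apply, ← hb]
      simp only [uu, mk2_01, mk2_11]
      module
  have hu2 : uu (b * τ ^ 2) ∈ G := by
    refine ⟨_, hM.stv_one e₂, ?_, ?_, ⟨0, ?_⟩, ⟨-τ, ?_⟩⟩
    · intro x
      rw [stv_apply, add_sub_cancel_left]
      exact L.smul_mem _ hyL'
    · rw [stv_apply, hr]
      simp [D.alt (D.j e₂), E12]
    · rw [stv_apply, E12]
      simp only [uu, mk2_00, mk2_10]
      module
    · rw [stv_apply, ← hb', hr, hbτ]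
      simp only [uu, mk2_01, mk2_11]
      module
  have hu1' : uu b ∈ G := by simpa using hu1 1
  have hτ0 : τ ≠ 0 := fun h0 => hτ (h0 ▸ F₀.zero_mem)
  have h4c : 4 ≤ Nat.card (addOf G) := by
    apply four_le_card hu1' hu2 hb0 (mul_ne_zero hb0 (pow_ne_zero 2 hτ0))
    · intro h0
      apply hτ2 1 F₀.one_mem
      have : b * (τ ^ 2 - 1) = 0 := by linear_combination -h0
      have := (mul_eq_zero.1 this).resolve_left hb0
      linear_combination this
    · intro h0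
      apply hτ2 (-1) (F₀.neg_mem F₀.one_mem)
      have : b * (τ ^ 2 + 1) = 0 := by linear_combination h0
      have := (mul_eq_zero.1 this).resolve_left hb0
      linear_combination this
  obtain ⟨K, c₀, hc₀, hKiff⟩ := key_subfield p G hb0 (neg_ne_zero.2 (mul_ne_zero hc hb0)) hu1' hl h4c
  have hx1 : b / c₀ ∈ K := by
    rw [← hKiff]
    have : c₀ * (b / c₀) = b := by field_simp
    rw [this]; exact hu1'
  have hx10 : b / c₀ ≠ 0 := div_ne_zero hb0 hc₀
  have hF₀K : F₀ ≤ K := by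
    intro k hk
    have h1 : k * (b / c₀) ∈ K := by
      rw [← hKiff]
      have : c₀ * (k * (b / c₀)) = k * b := by field_simp
      rw [this]; exact hu1 ⟨k, hk⟩
    have := K.div_mem h1 hx1
    rwa [mul_div_cancel_right₀ _ hx10] at this
  have hτK : τ ^ 2 ∈ K := by
    have h1 : τ ^ 2 * (b / c₀) ∈ K := by
      rw [← hKiff]
      have : c₀ * (τ ^ 2 * (b / c₀)) = b * τ ^ 2 := by field_simp
      rw [this]; exact hu2
    have := K.div_mem h1 hx1
    rwa [mul_div_cancel_right₀ _ hx10] at this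
  rcases hdich K hF₀K with rfl | rfl
  · exact hτ2 _ hτK rfl
  · have h3 : uu (b * τ ^ 3) ∈ G := by
      have : c₀ * (b * τ ^ 3 / c₀) = b * τ ^ 3 := by field_simp
      rw [← this]
      exact (hKiff _).2 (Subfield.mem_top _)
    obtain ⟨a, haM, aL, ar, ⟨ρ, ay⟩, ⟨ρ', au⟩⟩ := h3
    simp only [uu, mk2_00, mk2_01, mk2_10, mk2_11, one_smul, zero_smul, add_zero] at ay au
    obtain ⟨k₀, hk₀, k₁, hk₁, k₂, hk₂, hs⟩ :=
      param_restricted hM hMi hK hdich hdim h4 C hτ haM aL ar ay au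
    have hrel : 1 * τ ^ 3 + (-k₂) * τ ^ 2 + (-k₁) * τ + (-k₀) = 0 := by
      have : b * (τ ^ 3 - (k₀ + k₁ * τ + k₂ * τ ^ 2)) = 0 := by linear_combination hs
      have := (mul_eq_zero.1 this).resolve_left hb0
      linear_combination this
    obtain ⟨h1, -, -, -⟩ := no_cubic hdich h4 hτ F₀.one_mem (F₀.neg_mem hk₂) (F₀.neg_mem hk₁)
      (F₀.neg_mem hk₀) hrel
    exact one_ne_zero h1

end Cfsg.Agent.Lib.Helper99.SpSub
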