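import Mathlib
import Cfsg.Agent.Lib.Helper99.SpSubB

set_option autoImplicit false
set_option linter.unusedSimpArgs false
set_option linter.unusedSectionVars false
set_option linter.unusedVariables false

/-! Overgroups of the rational symplectic group in the symplectic group of an extension without
intermediate fields. -/

namespace Cfsg.Agent.Lib.Helper99.SpSub

open Module Cfsg.Agent.Lib.Helper95

variable {F : Type*} [Field F] {F₀ : Subfield F} {V₀ V : Type*} [AddCommGroup V₀]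
  [Module F₀ V₀] [AddCommGroup V] [Module F V] {D : RS F₀ V₀ V} {M : Subgroup (V ≃ₗ[F] V)}

/-- `g` is a scalar multiple of a rational map -/
def IsScal (D : RS F₀ V₀ V) (g : V ≃ₗ[F] V) : Prop :=
  ∃ c : F, c ≠ 0 ∧ ∀ x, ∃ x', g (D.j x) = c • D.j x'

theorem centre_rat [Fintype F] [FiniteDimensional F₀ V₀] (hM : D.HasRat M)
    (hMi : M ≤ isoGrp D.B) (hK : ∀ δ, Sh D M δ → δ ∈ F₀)
    (hdich : ∀ K : Subfield F, F₀ ≤ K → K = F₀ ∨ K = ⊤) (hdim : 9 ≤ finrank F₀ V₀)
    {u : V} {c : F} (hc : c ≠ 0) (hz : stv D.B D.alt u c ∈ M) :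
    ∃ (l : F) (x : V₀), u = l • D.j x := by
  by_cases hgen : ∀ w : V₀, w ≠ 0 → D.B u (D.j w) ≠ 0
  · exact (generic_false hM hMi hK hdich hdim hc hz hgen).elim
  · push Not at hgen
    obtain ⟨w, hw, huw⟩ := hgen
    exact A_main hM hMi hK hdim hc hz hw huw

theorem isScal_of_points [FiniteDimensional F₀ V₀] (hdim : 1 ≤ finrank F₀ V₀) {g : V ≃ₗ[F] V}
    (h : ∀ x, ∃ (l : F) (x' : V₀), g (D.j x) = l • D.j x') : IsScal D g := by
  obtain ⟨x₁, y₁, hef, -⟩ := exists_hyp D.alt₀ D.nd₀ ![] (by omega)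
  have hx₁ : x₁ ≠ 0 := by
    rintro rfl
    simp at hef
  have hne : ∀ {x : V₀} {l : F} {x' : V₀}, x ≠ 0 → g (D.j x) = l • D.j x' → l ≠ 0 ∧ x' ≠ 0 := by
    intro x l x' hx hg
    have h0 : g (D.j x) ≠ 0 := by
      intro h0
      exact D.j_ne hx (g.injective (by rw [h0, map_zero]))
    constructor
    · rintro rfl
      rw [zero_smul] at hg
      exact h0 hg
    · rintro rfl
      rw [map_zero, smul_zero] at hg
      exact h0 hg
  obtain ⟨l₁, x₁', hg₁⟩ := h x₁
  obtain ⟨hl₁, hx₁'⟩ := hne hx₁ hg₁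
  refine ⟨l₁, hl₁, fun x => ?_⟩
  by_cases hdep : ∃ k : F₀, x = k • x₁
  · obtain ⟨k, rfl⟩ := hdep
    refine ⟨k • x₁', ?_⟩
    rw [D.j_smul, map_smul, hg₁, D.j_smul, smul_comm]
  push Not at hdep
  have hind : Ind F₀ x x₁ := ind_of_ne_smul hx₁ hdep
  obtain ⟨l, x', hg⟩ := h x
  obtain ⟨hl, hx'⟩ := hne hind.left_ne hg
  obtain ⟨l₂, x₂, hg₂⟩ := h (x + x₁)
  have hind' : Ind F₀ x' x₁' := by
    apply ind_of_ne_smul hx₁'
    intro k hk
    obtain ⟨t, ht⟩ := exists_one D.nd₀ hx₁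
    have h1 : D.j x = (l * k / l₁) • D.j x₁ := by
      apply g.injective
      rw [map_smul, hg, hg₁, hk, D.j_smul, smul_smul, smul_smul, div_mul_cancel₀ _ hl₁]
    have h2 : l * k / l₁ ∈ F₀ := by
      have h3 := congrArg (fun v => D.B v (D.j t)) h1
      simp only [map_smul, LinearMap.smul_apply, smul_eq_mul, D.B_j_one ht, mul_one] at h3
      rw [← h3]
      exact D.B_j_mem _ _
    apply hdep ⟨_, h2⟩
    apply D.j_injective
    rw [D.j_smul]
    exact h1
  obtain ⟨t, ht1, ht2⟩ := exists_one_zero D.nd₀ hind'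
  obtain ⟨s, hs1, hs2⟩ := exists_one_zero D.nd₀ hind'.symm
  rw [map_add, map_add, hg, hg₁] at hg₂
  have c1 := congrArg (fun v => D.B v (D.j t)) hg₂
  have c2 := congrArg (fun v => D.B v (D.j s)) hg₂
  simp only [map_add, map_smul, LinearMap.add_apply, LinearMap.smul_apply, smul_eq_mul,
    D.B_j_one ht1, D.B_j_zero ht2, mul_one, mul_zero, add_zero] at c1
  simp only [map_add, map_smul, LinearMap.add_apply, LinearMap.smul_apply, smul_eq_mul,
    D.B_j_one hs1, D.B_j_zero hs2, mul_one, mul_zero, zero_add] at c2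
  have hk2 : D.B (D.j x₂) (D.j s) ≠ 0 := by
    intro h0
    rw [h0, mul_zero] at c2
    exact hl₁ c2
  have hl₂ : l₂ ≠ 0 := by
    rintro rfl
    rw [zero_mul] at c2
    exact hl₁ c2
  have hq : l / l₁ ∈ F₀ := by
    have : l / l₁ = D.B (D.j x₂) (D.j t) / D.B (D.j x₂) (D.j s) := by
      rw [c1, c2, mul_div_mul_left _ _ hl₂]
    rw [this]
    exact F₀.div_mem (D.B_j_mem _ _) (D.B_j_mem _ _)
  refine ⟨(⟨_, hq⟩ : F₀) • x', ?_⟩
  rw [D.j_smul, hg, smul_smul, mul_div_cancel₀ _ hl₁]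

/-- **Main dichotomy.** -/
theorem main_dichotomy [Fintype F] [FiniteDimensional F₀ V₀] [FiniteDimensional F V]
    (hM : D.HasRat M) (hMi : M ≤ isoGrp D.B)
    (hdich : ∀ K : Subfield F, F₀ ≤ K → K = F₀ ∨ K = ⊤) (hdim : 9 ≤ finrank F₀ V₀) :
    isoGrp D.B ≤ M ∨ ∀ g ∈ M, IsScal D g := by
  by_cases hK : ∀ δ, Sh D M δ → δ ∈ F₀
  · right
    intro g hg
    apply isScal_of_points (by omega)
    intro x
    have hs : stv D.B D.alt (g (D.j x)) 1 ∈ M := by
      rw [← conj_stv D.alt (hMi hg)]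
      exact M.mul_mem (M.mul_mem hg (hM.stv_one x)) (M.inv_mem hg)
    exact centre_rat hM hMi hK hdich hdim one_ne_zero hs
  · left
    apply isoGrp_le_of_Sh hM hMi (by omega)
    have hle : F₀ ≤ ShField hM hMi (by omega) := fun c hc => Sh_rat hM hc
    rcases hdich _ hle with h | h
    · exfalso
      apply hK
      intro c hc
      have : c ∈ ShField hM hMi (by omega) := hc
      rwa [h] at this
    · intro c
      have : c ∈ ShField hM hMi (by omega) := by rw [h]; exact Subfield.mem_top c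
      exact this

/-- rational transvections are rational maps -/
theorem isScal_stv (x : V₀) (k : F₀) : IsScal D (stv D.B D.alt (D.j x) (k : F)) := by
  refine ⟨1, one_ne_zero, fun x' => ⟨x' + (k * D.B₀ x' x) • x, ?_⟩⟩
  rw [stv_apply, one_smul, map_add, D.j_smul, D.B_j]
  simp

/-- a transvection with rational centre and non-rational coefficient is not rational -/
theorem not_isScal_stv [FiniteDimensional F₀ V₀] (hdim : 5 ≤ finrank F₀ V₀) {a : F}
    (ha : a ∉ F₀) : ∃ g ∈ isoGrp D.B, ¬ IsScal D g := by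
  obtain ⟨e, f, hef, -⟩ := exists_hyp D.alt₀ D.nd₀ ![] (by omega)
  obtain ⟨e₂, f₂, hef2, hv⟩ := exists_hyp D.alt₀ D.nd₀ ![e, f] (by omega)
  refine ⟨stv D.B D.alt (D.j e) a, stv_mem_isoGrp D.alt _ _, ?_⟩
  rintro ⟨c, hc, h⟩
  obtain ⟨x, hx⟩ := h e₂
  obtain ⟨x', hx'⟩ := h f
  have hee : D.B₀ e e₂ = 0 := (hv 0).1
  rw [stv_apply, D.B_j_zero (swap0 D.alt₀ hee), mul_zero, zero_smul, add_zero] at hx
  have hfe : D.B (D.j f) (D.j e) = -1 := by rw [alt_swap D.alt, D.B_j_one hef]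
  rw [stv_apply, hfe] at hx'
  have c1 := congrArg (fun v => D.B v (D.j f₂)) hx
  have c2 := congrArg (fun v => D.B v (D.j f)) hx'
  simp only [map_smul, LinearMap.smul_apply, smul_eq_mul, D.B_j_one hef2] at c1
  simp only [map_add, map_smul, LinearMap.add_apply, LinearMap.smul_apply, smul_eq_mul,
    D.B_j_one hef, D.alt (D.j f), zero_add, mul_one] at c2
  have hk : D.B (D.j x) (D.j f₂) ≠ 0 := by
    intro h0
    rw [h0, mul_zero] at c1
    exact one_ne_zero c1
  have hcm : c ∈ F₀ := by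
    have : c = 1 / D.B (D.j x) (D.j f₂) := by
      rw [eq_div_iff hk, ← c1]
    rw [this]
    exact F₀.div_mem F₀.one_mem (D.B_j_mem _ _)
  apply ha
  have : a = -(c * D.B (D.j x') (D.j f)) := by rw [← c2]; ring
  rw [this]
  exact F₀.neg_mem (F₀.mul_mem hcm (D.B_j_mem _ _))

end Cfsg.Agent.Lib.Helper99.SpSub
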