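import Mathlib
import Cfsg.Prelude.Def_GeometricClasses
import Cfsg.Agent.Lib.Helper99.SpSubMain
import Cfsg.Agent.Lib.Helper97.SubfieldGlue
import Cfsg.Agent.Lib.Helper7.SubF.Main
import Cfsg.Agent.Lib.Helper95.Glue2

set_option autoImplicit false
set_option linter.unusedSimpArgs false
set_option linter.unusedSectionVars false
set_option linter.unusedVariables false

/-! Glue: the subfield subgroups of the symplectic groups are maximal. -/

namespace Cfsg.Agent.Lib.Helper99.SpSub

open Module Matrix Cfsg.Agent.Lib.Helper95 Cfsg.Agent.Lib.Helper97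

variable {F : Type*} [Field F] {ι : Type} [Fintype ι] [DecidableEq ι] (F₀ : Subfield F)
  (P : GL ι F)

/-- the rational vectors of the structure given by the columns of `P` -/
def jMap : (ι → F₀) →+ (ι → F) where
  toFun x := (P : Matrix ι ι F) *ᵥ (fun i => (x i : F))
  map_zero' := by
    have : (fun i => (((0 : ι → F₀) i : F₀) : F)) = 0 := by ext i; simp
    rw [this, Matrix.mulVec_zero]
  map_add' := by
    intro x y
    have : (fun i => (((x + y) i : F₀) : F)) = (fun i => (x i : F)) + (fun i => (y i : F)) := by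
      ext i; simp
    rw [this, Matrix.mulVec_add]

theorem jMap_apply (x : ι → F₀) : jMap F₀ P x = (P : Matrix ι ι F) *ᵥ (fun i => (x i : F)) := rfl

theorem jMap_smul (c : F₀) (x : ι → F₀) : jMap F₀ P (c • x) = (c : F) • jMap F₀ P x := by
  rw [jMap_apply, jMap_apply, ← Matrix.mulVec_smul]
  congr 1

theorem jMap_inj {x : ι → F₀} (h : jMap F₀ P x = 0) : x = 0 := by
  rw [jMap_apply] at h
  have h1 := inv_mulVec_mulVec P (fun i => (x i : F))
  rw [h, Matrix.mulVec_zero] at h1
  ext i
  have := congrFun h1 i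
  simpa using this.symm

theorem span_jMap : Submodule.span F (Set.range (jMap F₀ P)) = ⊤ := by
  rw [eq_top_iff]
  intro v _
  set w := ((P⁻¹ : GL ι F) : Matrix ι ι F) *ᵥ v with hw
  have h1 : v = (P : Matrix ι ι F) *ᵥ w := (mulVec_inv_mulVec P v).symm
  have h2 : w = ∑ i, w i • (Pi.single i (1 : F) : ι → F) := by
    ext k
    simp [Finset.sum_apply, Pi.single_apply]
  rw [h1, h2, ← Matrix.mulVecLin_apply, map_sum]
  apply Submodule.sum_mem
  intro i _
  rw [map_smul]
  apply Submodule.smul_mem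
  apply Submodule.subset_span
  refine ⟨Pi.single i 1, ?_⟩
  rw [jMap_apply, Matrix.mulVecLin_apply]
  congr 1
  ext k
  by_cases hk : k = i
  · subst hk; simp
  · simp [hk]

theorem mem_ratVec_iff {v : ι → F} : v ∈ ratVec F₀ P ↔ ∃ x, v = jMap F₀ P x := by
  constructor
  · rintro ⟨u, hu, rfl⟩
    exact ⟨fun i => ⟨u i, hu i⟩, rfl⟩
  · rintro ⟨x, rfl⟩
    exact ⟨fun i => (x i : F), fun i => (x i).2, rfl⟩

variable {F₀ P}

/-- the rational symplectic space attached to a compatible form -/
def mkRS (Bf : LinearMap.BilinForm F (ι → F)) (halt : Bf.IsAlt) (hnd : Bf.Nondegenerate)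
    (hrat : ∀ x y, Bf (jMap F₀ P x) (jMap F₀ P y) ∈ F₀) : RS F₀ (ι → F₀) (ι → F) where
  B₀ := LinearMap.mk₂ F₀ (fun x y => (⟨Bf (jMap F₀ P x) (jMap F₀ P y), hrat x y⟩ : F₀))
    (by intro x x' y; apply Subtype.ext; simp)
    (by intro c x y; apply Subtype.ext; simp [jMap_smul])
    (by intro x y y'; apply Subtype.ext; simp)
    (by intro c x y; apply Subtype.ext; simp [jMap_smul])
  B := Bf
  j := jMap F₀ P
  j_smul := jMap_smul F₀ P
  B_j := by intro x y; rfl
  alt₀ := by
    intro x
    apply Subtype.ext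
    exact halt _
  alt := halt
  nd₀ := by
    have key : ∀ x : ι → F₀, (∀ y, Bf (jMap F₀ P x) (jMap F₀ P y) = 0) → x = 0 := by
      intro x h
      apply jMap_inj F₀ P
      apply hnd.1
      have : Bf (jMap F₀ P x) = 0 := by
        apply LinearMap.ext_on (span_jMap F₀ P)
        rintro _ ⟨y, rfl⟩
        simpa using h y
      intro y
      rw [this]; rfl
    constructor
    · intro x h
      apply key
      intro y
      exact congrArg Subtype.val (h y)
    · intro y h
      apply key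
      intro x
      rw [alt_swap halt]
      have := congrArg Subtype.val (h x)
      simp only [LinearMap.mk₂_apply] at this
      rw [this]
      simp
  nd := hnd
  span := span_jMap F₀ P

theorem isoGrp_smul (Bf : LinearMap.BilinForm F (ι → F)) {ζ : F} (hζ : ζ ≠ 0) :
    isoGrp (ζ • Bf) = isoGrp Bf := by
  ext g
  simp only [mem_isoGrp, LinearMap.smul_apply, smul_eq_mul]
  constructor
  · intro h x y
    exact mul_left_cancel₀ hζ (h x y)
  · intro h x y
    rw [h]

theorem smul_isAlt {Bf : LinearMap.BilinForm F (ι → F)} (h : Bf.IsAlt) (ζ : F) :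
    (ζ • Bf).IsAlt := by
  intro x
  simp [h x]

theorem smul_nondeg {Bf : LinearMap.BilinForm F (ι → F)} (h : Bf.Nondegenerate) {ζ : F}
    (hζ : ζ ≠ 0) : (ζ • Bf).Nondegenerate := by
  constructor
  · intro x hx
    apply h.1
    intro y
    have := hx y
    simp only [LinearMap.smul_apply, smul_eq_mul] at this
    exact (mul_eq_zero.1 this).resolve_left hζ
  · intro y hy
    apply h.2
    intro x
    have := hy x
    simp only [LinearMap.smul_apply, smul_eq_mul] at this
    exact (mul_eq_zero.1 this).resolve_left hζ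

theorem mem_toLinGrp_iff_isScal (D : RS F₀ (ι → F₀) (ι → F)) (hj : D.j = jMap F₀ P)
    (e : (ι → F) ≃ₗ[F] (ι → F)) :
    e ∈ toLinGrp (Cfsg.Geo.subfieldSubgroup F₀ P) ↔ IsScal D e := by
  constructor
  · intro h
    obtain ⟨c, hc, h1⟩ := exists_of_mem_toLinGrp_subfield h
    refine ⟨c, hc, fun x => ?_⟩
    obtain ⟨v', hv', hv⟩ := h1 (D.j x) ((mem_ratVec_iff F₀ P).2 ⟨x, by rw [hj]⟩)
    obtain ⟨x', rfl⟩ := (mem_ratVec_iff F₀ P).1 hv'
    exact ⟨x', by rw [hv, hj]⟩
  · rintro ⟨c, hc, h1⟩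
    apply mem_toLinGrp_subfield_of e c hc
    intro v hv
    obtain ⟨x, rfl⟩ := (mem_ratVec_iff F₀ P).1 hv
    obtain ⟨x', hx'⟩ := h1 x
    refine ⟨jMap F₀ P x', (mem_ratVec_iff F₀ P).2 ⟨x', rfl⟩, ?_⟩
    rw [← hj]; exact hx'

/-- the subfield subgroups of `Sp_{2m}(F)` are maximal -/
theorem symplectic_subfield_maximal [Fintype F] (m : ℕ) (hm : 5 ≤ m) (F₀ : Subfield F) (r : ℕ)
    (hr : r.Prime) (hcard : Fintype.card F = Nat.card F₀ ^ r)
    (P : Matrix.GeneralLinearGroup (Fin m ⊕ Fin m) F) (ζ : F) (hζ : ζ ≠ 0)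
    (hP : Cfsg.Geo.IsFormRationalStructure (Cfsg.sympForm m F) F₀ ζ P) :
    Cfsg.Geo.IsMaximalIn (Cfsg.spGL m F) (Cfsg.Geo.subfieldSubgroup F₀ P ⊓ Cfsg.spGL m F) := by
  have hdich := Cfsg.Agent.Lib.Helper7.SubF.subfield_dich F₀ hr hcard
  set D : RS F₀ (Fin m ⊕ Fin m → F₀) (Fin m ⊕ Fin m → F) :=
    mkRS (F₀ := F₀) (P := P) (ζ • sympB m F) (smul_isAlt (sympB_isAlt m) ζ)
      (smul_nondeg (sympB_nondegenerate m) hζ) (by
        intro x y
        rw [LinearMap.smul_apply, LinearMap.smul_apply, smul_eq_mul, sympB_apply]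
        exact hP _ _ (fun i => (x i).2) (fun i => (y i).2)) with hD
  have hDB : D.B = ζ • sympB m F := rfl
  have hDj : D.j = jMap F₀ P := rfl
  have hiso : isoGrp D.B = isoGrp (sympB m F) := by rw [hDB, isoGrp_smul _ hζ]
  have hdim : finrank F₀ (Fin m ⊕ Fin m → F₀) = 2 * m := by
    simp; ring
  have hiff := mem_toLinGrp_iff_isScal D hDj
  refine isMaximalIn_transfer (S' := toLinGrp (Cfsg.Geo.subfieldSubgroup F₀ P)) (mem_spGL_iff m)
    (fun g => glEquiv_mem_toLinGrp.symm) ?_ ?_
  · obtain ⟨lam, hlam⟩ : ∃ lam : F, lam ∉ F₀ := by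
      by_contra hcon
      push Not at hcon
      have htop : F₀ = ⊤ := eq_top_iff.2 (fun x _ => hcon x)
      have h1 : Nat.card F₀ = Fintype.card F := by
        rw [htop, ← Nat.card_eq_fintype_card]
        exact Nat.card_congr Subfield.topEquiv.toEquiv
      rw [h1] at hcard
      have h2 : 1 < Fintype.card F := Fintype.one_lt_card
      have h4 : Fintype.card F ^ 1 = Fintype.card F ^ r := by rw [pow_one]; exact hcard
      have := Nat.pow_right_injective h2 h4
      exact hr.one_lt.ne this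
    obtain ⟨g, hg, hgs⟩ := not_isScal_stv (D := D) (by omega) hlam
    exact ⟨g, by rw [← hiso]; exact hg, fun h => hgs ((hiff g).1 h)⟩
  · intro M' h1 h2 g hg hgS
    have hM : D.HasRat M' := by
      intro x k
      apply h1
      refine Subgroup.mem_inf.2 ⟨?_, (hiff _).2 (isScal_stv x k)⟩
      rw [← hiso]
      exact stv_mem_isoGrp D.alt _ _
    have hMi : M' ≤ isoGrp D.B := by rw [hiso]; exact h2
    rcases main_dichotomy hM hMi hdich (by omega) with h | h
    · rw [← hiso]; exact h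
    · exact (hgS ((hiff g).2 (h g hg))).elim

end Cfsg.Agent.Lib.Helper99.SpSub
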