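import Mathlib

set_option autoImplicit false

namespace Cfsg.Agent.Lib.Helper99

lemma padicValNat_two_pow_mul_odd (a m : ℕ) (hm : Odd m) : padicValNat 2 (2 ^ a * m) = a := by
  have hm0 : m ≠ 0 := by
    rintro rfl
    simp at hm
  rw [padicValNat.mul (by positivity) hm0, padicValNat.prime_pow,
    padicValNat.eq_zero_of_not_dvd (by rw [← even_iff_two_dvd, Nat.not_even_iff_odd]; exact hm), add_zero]

variable {F : Type*} [Field F] [Fintype F]

theorem padicValNat_lt_of_pow_eq_neg_one (h2 : (2 : F) ≠ 0) {l : F} {n : ℕ} (hl : l ^ n = -1) :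
    padicValNat 2 n < padicValNat 2 (Fintype.card F - 1) := by
  have hne : (1 : F) ≠ -1 := by
    intro h
    apply h2
    have : (1 : F) + 1 = 0 := by nth_rewrite 1 [h]; simp
    rw [← this]; norm_num
  have hn0 : n ≠ 0 := by
    rintro rfl
    exact hne (by simpa using hl)
  have hl0 : l ≠ 0 := by
    rintro rfl
    rw [zero_pow hn0] at hl
    have : (1 : F) = 0 := by
      have := congrArg Neg.neg hl
      simpa using this.symm
    exact one_ne_zero this
  have hq0 : Fintype.card F - 1 ≠ 0 := by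
    have := Fintype.one_lt_card (α := F)
    omega
  obtain ⟨a, n', hn', hn⟩ := Nat.exists_eq_two_pow_mul_odd hn0
  obtain ⟨e, m, hm, hq⟩ := Nat.exists_eq_two_pow_mul_odd hq0
  rw [hn, hq, padicValNat_two_pow_mul_odd _ _ hn', padicValNat_two_pow_mul_odd _ _ hm]
  by_contra hcon
  push Not at hcon
  have h1 : l ^ (n * m) = -1 := by rw [pow_mul, hl, hm.neg_one_pow]
  have h3 : n * m = (Fintype.card F - 1) * (2 ^ (a - e) * n') := by
    rw [hn, hq]
    have : 2 ^ a = 2 ^ e * 2 ^ (a - e) := by rw [← pow_add]; congr 1; omega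
    rw [this]; ring
  rw [h3, pow_mul, FiniteField.pow_card_sub_one_eq_one l hl0, one_pow] at h1
  exact hne h1

theorem exists_pow_eq_neg_one {n : ℕ} (hn0 : n ≠ 0)
    (h : padicValNat 2 n < padicValNat 2 (Fintype.card F - 1)) :
    ∃ l : F, l ^ n = -1 ∧ (2 : F) ≠ 0 := by
  classical
  have hq0 : Fintype.card F - 1 ≠ 0 := by
    have := Fintype.one_lt_card (α := F)
    omega
  obtain ⟨a, n', hn', hn⟩ := Nat.exists_eq_two_pow_mul_odd hn0
  obtain ⟨e, m, hm, hq⟩ := Nat.exists_eq_two_pow_mul_odd hq0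
  rw [hn, hq, padicValNat_two_pow_mul_odd _ _ hn', padicValNat_two_pow_mul_odd _ _ hm] at h
  obtain ⟨ω, hω⟩ := IsCyclic.exists_generator (α := Fˣ)
  have hord : orderOf ω = 2 ^ e * m := by
    rw [orderOf_eq_card_of_forall_mem_zpowers hω, Nat.card_eq_fintype_card, Fintype.card_units, hq]
  have hm0 : 0 < m := hm.pos
  set g : Fˣ := ω ^ (2 ^ (e - 1) * m) with hg
  have hg1 : g ≠ 1 := by
    apply pow_ne_one_of_lt_orderOf (by positivity)
    rw [hord]
    have : 2 ^ e = 2 * 2 ^ (e - 1) := by rw [← pow_succ']; congr 1; omega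
    rw [this]
    have : 0 < 2 ^ (e - 1) * m := by positivity
    nlinarith
  have hg2 : g * g = 1 := by
    rw [hg, ← pow_add, ← two_mul, ← mul_assoc, ← pow_succ', show e - 1 + 1 = e by omega, ← hord,
      pow_orderOf_eq_one]
  have hg3 : (g : F) = -1 := by
    have h4 : (g : F) * (g : F) = 1 := by rw [← Units.val_mul, hg2, Units.val_one]
    rcases mul_self_eq_one_iff.1 h4 with h5 | h5
    · exact absurd (Units.ext h5) hg1
    · exact h5
  refine ⟨((ω ^ (2 ^ (e - a - 1) * m) : Fˣ) : F), ?_, ?_⟩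
  · rw [← Units.val_pow_eq_pow_val, ← pow_mul, hn]
    have : 2 ^ (e - a - 1) * m * (2 ^ a * n') = (2 ^ (e - 1) * m) * n' := by
      have : 2 ^ (e - 1) = 2 ^ (e - a - 1) * 2 ^ a := by rw [← pow_add]; congr 1; omega
      rw [this]; ring
    rw [this, pow_mul, ← hg, Units.val_pow_eq_pow_val, hg3, hn'.neg_one_pow]
  · intro h2
    apply hg1
    apply Units.ext
    rw [hg3, Units.val_one]
    have : (1 : F) + 1 = 0 := by rw [← h2]; norm_num
    exact (eq_neg_of_add_eq_zero_left this).symm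

end Cfsg.Agent.Lib.Helper99
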