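import Cfsg.Agent.Lib.Helper99.PolarCount
import Cfsg.Agent.Lib.Helper99.SympIndex

set_option autoImplicit false

namespace Cfsg.Agent.Lib.Helper99

open Module Submodule Cfsg.Agent.Lib.Helper50.Symp

variable {F V : Type*} [Field F] [AddCommGroup V] [Module F V]

/-- Arithmetic of the number of polar pairs. -/
lemma polar_count_formula {q d N : ℕ} (hq : 2 ≤ q)
    (h : ∏ i ∈ Finset.range d, ((q ^ (2 * (i + 1)) - 1) * q ^ (2 * i + 1))
      = N * ∏ i : Fin d, (q ^ d - q ^ (i : ℕ))) :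
    ∏ i ∈ Finset.range d, ((q ^ (i + 1) + 1) * q ^ (2 * i + 1)) = N * q ^ (∑ i ∈ Finset.range d, i) := by
  rw [prod_GL_eq q d] at h
  set E := ∏ k ∈ Finset.range d, (q ^ (k + 1) - 1) with hE
  have hEpos : 0 < E := by
    apply Finset.prod_pos
    intro k _
    have : 1 < q ^ (k + 1) := Nat.one_lt_pow (by omega) (by omega)
    omega
  have h1 : ∏ i ∈ Finset.range d, ((q ^ (2 * (i + 1)) - 1) * q ^ (2 * i + 1))
      = E * ∏ i ∈ Finset.range d, ((q ^ (i + 1) + 1) * q ^ (2 * i + 1)) := by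
    rw [hE, ← Finset.prod_mul_distrib]
    apply Finset.prod_congr rfl
    intro i _
    have h2 : q ^ (2 * (i + 1)) - 1 = (q ^ (i + 1) - 1) * (q ^ (i + 1) + 1) := by
      have : 1 ≤ q ^ (i + 1) := Nat.one_le_pow _ _ (by omega)
      obtain ⟨t, ht⟩ : ∃ t, q ^ (i + 1) = t + 1 := ⟨q ^ (i + 1) - 1, by omega⟩
      rw [mul_comm 2, pow_mul, ht]
      have : (t + 1) ^ 2 = t * (t + 1 + 1) + 1 := by ring
      rw [this]
      simp
    rw [h2]
    ring
  rw [h1] at h
  apply Nat.eq_of_mul_eq_mul_left hEpos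
  rw [h]; ring

/-- The number of polar pairs. -/
theorem card_pairs_formula [Fintype F] [Finite V] {B : LinearMap.BilinForm F V} (hB : B.IsAlt)
    (hnd : NondegOn B ⊤) {d : ℕ} (hd : finrank F V = 2 * d) :
    ∏ i ∈ Finset.range d, ((Fintype.card F ^ (i + 1) + 1) * Fintype.card F ^ (2 * i + 1))
      = Nat.card {P : Submodule F V × Submodule F V // IsCompl P.1 P.2 ∧ IsoOn B P.1 ∧ IsoOn B P.2}
        * Fintype.card F ^ (∑ i ∈ Finset.range d, i) := by
  have h1 := card_frames_eq_card_pairs_mul hB hnd hd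
  have hcard : Nat.card (⊤ : Submodule F V) = Nat.card F ^ (2 * d) := by
    rw [Nat.card_congr (Submodule.topEquiv (R := F) (M := V)).toEquiv, Module.natCard_eq_pow_finrank (K := F), hd]
  rw [card_frames hB d ⊤ hnd hcard, Nat.card_eq_fintype_card] at h1
  exact polar_count_formula Fintype.one_lt_card h1

/-- A prime dividing the number of polar pairs divides some `q ^ i + 1`. -/
theorem prime_dvd_of_dvd_card_pairs [Fintype F] [Finite V] {B : LinearMap.BilinForm F V} (hB : B.IsAlt)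
    (hnd : NondegOn B ⊤) {d : ℕ} (hd : finrank F V = 2 * d) {r : ℕ} (hr : r.Prime)
    (hrN : r ∣ Nat.card {P : Submodule F V × Submodule F V //
      IsCompl P.1 P.2 ∧ IsoOn B P.1 ∧ IsoOn B P.2}) :
    r ∣ Fintype.card F ∨ ∃ i, 1 ≤ i ∧ i ≤ d ∧ r ∣ Fintype.card F ^ i + 1 := by
  have h2 := card_pairs_formula hB hnd hd
  have h3 : r ∣ ∏ i ∈ Finset.range d, ((Fintype.card F ^ (i + 1) + 1) * Fintype.card F ^ (2 * i + 1)) := by
    rw [h2]; exact Dvd.dvd.mul_right hrN _
  obtain ⟨i, hi, h4⟩ := (Prime.dvd_finsetProd_iff hr.prime _).1 h3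
  rw [Finset.mem_range] at hi
  rcases hr.dvd_mul.1 h4 with h5 | h5
  · exact Or.inr ⟨i + 1, by omega, by omega, h5⟩
  · exact Or.inl (hr.dvd_of_dvd_pow h5)

/-- The number of ordered polar pairs is even in odd characteristic. -/
theorem two_dvd_card_pairs [Fintype F] [Finite V] {B : LinearMap.BilinForm F V} (hB : B.IsAlt)
    (hnd : NondegOn B ⊤) {d : ℕ} (hd : finrank F V = 2 * d) (hd1 : 1 ≤ d) (hodd : Odd (Fintype.card F)) :
    2 ∣ Nat.card {P : Submodule F V × Submodule F V // IsCompl P.1 P.2 ∧ IsoOn B P.1 ∧ IsoOn B P.2} := by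
  have h2 := card_pairs_formula hB hnd hd
  have h3 : 2 ∣ ∏ i ∈ Finset.range d, ((Fintype.card F ^ (i + 1) + 1) * Fintype.card F ^ (2 * i + 1)) := by
    apply Dvd.dvd.trans _ (Finset.dvd_prod_of_mem _ (Finset.mem_range.2 (show 0 < d by omega)))
    apply Dvd.dvd.mul_right
    obtain ⟨t, ht⟩ := hodd
    rw [ht]
    exact ⟨t + 1, by ring⟩
  rw [h2] at h3
  apply Nat.Coprime.dvd_of_dvd_mul_right _ h3
  apply Nat.Coprime.pow_right
  exact (Nat.coprime_two_left).2 hodd

end Cfsg.Agent.Lib.Helper99
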