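import Cfsg.Agent.Lib.Helper99.SympIndex

set_option autoImplicit false
open scoped MatrixGroups

namespace Cfsg.Agent.Lib.Helper99

open Module Submodule

variable {F : Type*} [Field F]

/-- A matrix acting as an isometry of the standard alternating form is symplectic. -/
lemma mem_symplecticGroup_of_iso {d : ℕ} (M : Matrix (Fin d ⊕ Fin d) (Fin d ⊕ Fin d) F)
    (h : ∀ u v, sympB d (Matrix.toLin' M u) (Matrix.toLin' M v) = sympB d u v) :
    M ∈ Matrix.symplecticGroup (Fin d) F := by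
  rw [SymplecticGroup.mem_iff']
  apply Matrix.toBilin'.injective
  rw [← Matrix.toBilin'_comp]
  apply LinearMap.ext
  intro u
  apply LinearMap.ext
  intro v
  exact h u v

/-- The orthogonal sum of two standard alternating forms. -/
noncomputable def sympSum (i k : ℕ) :
    LinearMap.BilinForm F ((Fin i ⊕ Fin i → F) × (Fin k ⊕ Fin k → F)) :=
  (sympB i).comp (LinearMap.fst F _ _) (LinearMap.fst F _ _)
    + (sympB k).comp (LinearMap.snd F _ _) (LinearMap.snd F _ _)

lemma sympSum_apply (i k : ℕ) (u v : (Fin i ⊕ Fin i → F) × (Fin k ⊕ Fin k → F)) :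
    sympSum i k u v = sympB i u.1 v.1 + sympB k u.2 v.2 := rfl

lemma sympSum_isAlt (i k : ℕ) : (sympSum (F := F) i k).IsAlt := by
  intro v
  rw [sympSum_apply, sympB_isAlt, sympB_isAlt, add_zero]

lemma sympSum_nondeg (i k : ℕ) : NondegOn (sympSum (F := F) i k) ⊤ := by
  rintro ⟨a, b⟩ _ hv
  by_cases ha : a = 0
  · have hb : b ≠ 0 := by
      intro hb
      exact hv (by rw [ha, hb]; rfl)
    obtain ⟨y, _, hy⟩ := sympB_nondeg k b trivial hb
    refine ⟨(0, y), trivial, ?_⟩
    rw [sympSum_apply]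
    simpa using hy
  · obtain ⟨y, _, hy⟩ := sympB_nondeg i a trivial ha
    refine ⟨(y, 0), trivial, ?_⟩
    rw [sympSum_apply]
    simpa using hy

/-- A symplectic element of prime order `r` supported on a non-degenerate subspace of dimension `2 i`. -/
theorem exists_symplectic_order_r [Fintype F] {r : ℕ} [Fact r.Prime] (i k : ℕ) (hi : 1 ≤ i)
    (hr : r ∣ Fintype.card F ^ i + 1) :
    ∃ x : Matrix.symplecticGroup (Fin (i + k)) F,
      (Matrix.toLin' (x : Matrix (Fin (i + k) ⊕ Fin (i + k)) (Fin (i + k) ⊕ Fin (i + k)) F)) ^ r = 1 ∧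
      Matrix.toLin' (x : Matrix (Fin (i + k) ⊕ Fin (i + k)) (Fin (i + k) ⊕ Fin (i + k)) F) ≠ 1 ∧
      2 * k ≤ finrank F (LinearMap.ker
        (Matrix.toLin' (x : Matrix (Fin (i + k) ⊕ Fin (i + k)) (Fin (i + k) ⊕ Fin (i + k)) F) - 1)) := by
  classical
  have hrp : r.Prime := Fact.out
  have hq1 := Fintype.one_lt_card (α := F)
  have hcard : r ∣ Nat.card (Matrix.symplecticGroup (Fin i) F) := by
    rw [Cfsg.Agent.S0245.result (F := F) rfl i]
    apply Dvd.dvd.mul_left
    apply Dvd.dvd.trans _ (Finset.dvd_prod_of_mem _ (Finset.mem_range.2 (show i - 1 < i by omega)))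
    rw [show 2 * (i - 1 + 1) = i * 2 by omega, pow_mul]
    obtain ⟨t, ht⟩ : ∃ t, Fintype.card F ^ i = t + 1 :=
      ⟨Fintype.card F ^ i - 1, by have : 1 ≤ Fintype.card F ^ i := Nat.one_le_pow _ _ (by omega); omega⟩
    rw [ht] at hr ⊢
    have : (t + 1) ^ 2 - 1 = t * (t + 1 + 1) := by
      have : (t + 1) ^ 2 = t * (t + 1 + 1) + 1 := by ring
      rw [this]; simp
    rw [this]
    exact Dvd.dvd.mul_left hr _
  obtain ⟨A, hA⟩ := exists_prime_orderOf_dvd_card' r hcard
  have hfin : finrank F ((Fin i ⊕ Fin i → F) × (Fin k ⊕ Fin k → F)) = 2 * (i + k) := by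
    rw [Module.finrank_prod]
    simp
    ring
  obtain ⟨Φ, hΦ⟩ := exists_symplectic_coords (sympSum_isAlt (F := F) i k) (sympSum_nondeg i k) hfin
  set A' := Matrix.toLin' (A : Matrix (Fin i ⊕ Fin i) (Fin i ⊕ Fin i) F) with hA'
  let T : (Fin (i + k) ⊕ Fin (i + k) → F) →ₗ[F] (Fin (i + k) ⊕ Fin (i + k) → F) :=
    Φ.symm.toLinearMap ∘ₗ (LinearMap.prodMap A' (LinearMap.id : (Fin k ⊕ Fin k → F) →ₗ[F] _)) ∘ₗ
      Φ.toLinearMap
  have hTapp : ∀ v, T v = Φ.symm (A' (Φ v).1, (Φ v).2) := fun v => rfl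
  have hTpow : ∀ n : ℕ, ∀ v, (T ^ n) v = Φ.symm ((A' ^ n) (Φ v).1, (Φ v).2) := by
    intro n
    induction n with
    | zero => intro v; simp
    | succ n ih =>
      intro v
      rw [pow_succ', pow_succ', Module.End.mul_apply, ih, hTapp, LinearEquiv.apply_symm_apply]
      rfl
  have hA'r : A' ^ r = 1 := by
    have h1 : A' = Matrix.toLinAlgEquiv' (A : Matrix (Fin i ⊕ Fin i) (Fin i ⊕ Fin i) F) := rfl
    have h2 : A ^ r = 1 := by rw [← hA]; exact pow_orderOf_eq_one A
    have h3 : (A : Matrix (Fin i ⊕ Fin i) (Fin i ⊕ Fin i) F) ^ r = 1 := by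
      have := congrArg Subtype.val h2
      simpa using this
    rw [h1, ← map_pow, h3, map_one]
  have hTiso : ∀ u v, sympB (i + k) (T u) (T v) = sympB (i + k) u v := by
    intro u v
    rw [← hΦ, ← hΦ, hTapp, hTapp, LinearEquiv.apply_symm_apply, LinearEquiv.apply_symm_apply,
      sympSum_apply, sympSum_apply]
    simp only
    rw [hA', sympB_iso]
  have hlin : Matrix.toLin' (LinearMap.toMatrix' T) = T := Matrix.toLin'_toMatrix' T
  refine ⟨⟨LinearMap.toMatrix' T, mem_symplecticGroup_of_iso _ (by rw [hlin]; exact hTiso)⟩, ?_, ?_, ?_⟩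
  · show (Matrix.toLin' (LinearMap.toMatrix' T)) ^ r = 1
    rw [hlin]
    apply LinearMap.ext
    intro v
    rw [hTpow, hA'r]
    simp
  · show Matrix.toLin' (LinearMap.toMatrix' T) ≠ 1
    rw [hlin]
    intro h
    have h1 : A' = 1 := by
      apply LinearMap.ext
      intro a
      have h2 := LinearMap.congr_fun h (Φ.symm (a, 0))
      rw [hTapp, LinearEquiv.apply_symm_apply, Module.End.one_apply] at h2
      have h3 := Φ.symm.injective h2
      exact congrArg Prod.fst h3
    have h2 : A = 1 := by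
      apply Subtype.ext
      apply Matrix.toLin'.injective
      rw [← hA', h1]
      simp
      rfl
    rw [h2, orderOf_one] at hA
    exact hrp.one_lt.ne hA
  · show 2 * k ≤ finrank F (LinearMap.ker (Matrix.toLin' (LinearMap.toMatrix' T) - 1))
    rw [hlin]
    let ι : (Fin k ⊕ Fin k → F) →ₗ[F] (Fin (i + k) ⊕ Fin (i + k) → F) :=
      Φ.symm.toLinearMap ∘ₗ LinearMap.inr F _ _
    have hι : Function.Injective ι := Φ.symm.injective.comp LinearMap.inr_injective
    have hle : LinearMap.range ι ≤ LinearMap.ker (T - 1) := by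
      rintro _ ⟨b, rfl⟩
      rw [LinearMap.mem_ker, LinearMap.sub_apply, Module.End.one_apply, sub_eq_zero, hTapp]
      show Φ.symm (A' (Φ (Φ.symm (0, b))).1, (Φ (Φ.symm (0, b))).2) = Φ.symm (0, b)
      rw [LinearEquiv.apply_symm_apply]
      simp
    have := Submodule.finrank_mono hle
    rw [LinearMap.finrank_range_of_inj hι] at this
    simpa [two_mul] using this

end Cfsg.Agent.Lib.Helper99
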