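import Cfsg.Prelude.Def_GeometricClasses
import Mathlib

set_option autoImplicit false
open scoped MatrixGroups

namespace Cfsg.Agent.Lib.Helper99

open Module Submodule

variable {F : Type*} [Field F] {ι : Type} [Fintype ι] [DecidableEq ι]

/-- A non-zero element of a field subalgebra kills no non-zero vector. -/
lemma fieldSubalgebra_eq_zero_of_mulVec {r : ℕ} {K : Subalgebra F (Matrix ι ι F)}
    (hK : Cfsg.Geo.IsFieldSubalgebra r K) {k : Matrix ι ι F} (hk : k ∈ K) {v : ι → F} (hv : v ≠ 0)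
    (hkv : k.mulVec v = 0) : k = 0 := by
  by_contra hk0
  obtain ⟨y, hy, hky⟩ := hK.inv k hk hk0
  apply hv
  have h1 : y * k = 1 := by rw [← hK.comm k hk y hy]; exact hky
  have h2 : (y * k).mulVec v = 0 := by rw [← Matrix.mulVec_mulVec, hkv, Matrix.mulVec_zero]
  rw [h1, Matrix.one_mulVec] at h2
  exact h2

/-- A field subalgebra of degree two is spanned by `1` and any non-scalar element; one exists. -/
theorem exists_generator {K : Subalgebra F (Matrix ι ι F)} (hK : Cfsg.Geo.IsFieldSubalgebra 2 K) :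
    ∃ J ∈ K, (∀ c : F, J ≠ c • (1 : Matrix ι ι F)) := by
  by_contra hcon
  push Not at hcon
  have hle : Subalgebra.toSubmodule K ≤ span F {(1 : Matrix ι ι F)} := by
    intro k hk
    obtain ⟨c, hc⟩ := hcon k hk
    rw [mem_span_singleton]
    exact ⟨c, hc.symm⟩
  have h1 := Submodule.finrank_mono hle
  have h2 : finrank F (Subalgebra.toSubmodule K) = 2 := hK.finrank_eq
  have h3 := finrank_span_le_card (R := F) ({(1 : Matrix ι ι F)} : Set (Matrix ι ι F))
  simp at h3
  omega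

theorem span_generator {K : Subalgebra F (Matrix ι ι F)} (hK : Cfsg.Geo.IsFieldSubalgebra 2 K)
    {J : Matrix ι ι F} (hJ : J ∈ K) (hns : ∀ c : F, J ≠ c • (1 : Matrix ι ι F)) :
    ∀ k, k ∈ K ↔ ∃ α β : F, k = α • (1 : Matrix ι ι F) + β • J := by
  have h10 : (1 : Matrix ι ι F) ≠ 0 := by
    intro h
    apply hns 0
    rw [zero_smul]
    calc J = J * 1 := (mul_one J).symm
      _ = 0 := by rw [h, mul_zero]
  have hli : LinearIndependent F ![(1 : Matrix ι ι F), J] := by
    rw [LinearIndependent.pair_iff]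
    intro s t hst
    by_cases ht : t = 0
    · subst ht
      rw [zero_smul, add_zero] at hst
      exact ⟨(smul_eq_zero.1 hst).resolve_right h10, rfl⟩
    · exfalso
      apply hns (-(t⁻¹ * s))
      have : t • J = -(s • (1 : Matrix ι ι F)) := eq_neg_of_add_eq_zero_right hst
      calc J = t⁻¹ • (t • J) := by rw [smul_smul, inv_mul_cancel₀ ht, one_smul]
        _ = -(t⁻¹ * s) • (1 : Matrix ι ι F) := by rw [this, smul_neg, smul_smul, neg_smul]
  have hle : span F (Set.range ![(1 : Matrix ι ι F), J]) ≤ Subalgebra.toSubmodule K := by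
    rw [span_le]
    rintro _ ⟨i, rfl⟩
    fin_cases i
    · exact K.one_mem
    · exact hJ
  have hfr : finrank F (span F (Set.range ![(1 : Matrix ι ι F), J])) = finrank F (Subalgebra.toSubmodule K) := by
    rw [finrank_span_eq_card hli]
    exact hK.finrank_eq.symm
  have heq := Submodule.eq_of_le_of_finrank_eq hle hfr
  intro k
  have : k ∈ K ↔ k ∈ span F (Set.range ![(1 : Matrix ι ι F), J]) := by
    rw [heq]; rfl
  rw [this, Matrix.range_cons, Matrix.range_cons, Matrix.range_empty, Set.union_empty,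
    Set.singleton_union, mem_span_pair]
  constructor
  · rintro ⟨a, b, h⟩; exact ⟨a, b, h.symm⟩
  · rintro ⟨a, b, h⟩; exact ⟨a, b, h.symm⟩

/-- In odd characteristic a field subalgebra of degree two is generated by a square root of a non-square. -/
theorem exists_sqrt_generator (h2 : (2 : F) ≠ 0) {K : Subalgebra F (Matrix ι ι F)}
    (hK : Cfsg.Geo.IsFieldSubalgebra 2 K) :
    ∃ J ∈ K, ∃ ζ : F, J * J = ζ • (1 : Matrix ι ι F) ∧ (∀ c : F, c ^ 2 ≠ ζ) ∧
      (∀ c : F, J ≠ c • (1 : Matrix ι ι F)) := by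
  obtain ⟨J, hJ, hns⟩ := exists_generator hK
  obtain ⟨a, b, hab⟩ := (span_generator hK hJ hns (J * J)).1 (K.mul_mem hJ hJ)
  have hJ₀ : (2 : F) • J - b • (1 : Matrix ι ι F) ∈ K :=
    K.sub_mem (K.smul_mem hJ _) (K.smul_mem K.one_mem _)
  have hns₀ : ∀ c : F, (2 : F) • J - b • (1 : Matrix ι ι F) ≠ c • (1 : Matrix ι ι F) := by
    intro c h
    apply hns (2⁻¹ * (c + b))
    have h3 : (2 : F) • J = (c + b) • (1 : Matrix ι ι F) := by
      rw [add_smul, ← h, sub_add_cancel]
    calc J = (2 : F)⁻¹ • ((2 : F) • J) := by rw [smul_smul, inv_mul_cancel₀ h2, one_smul]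
      _ = (2⁻¹ * (c + b)) • (1 : Matrix ι ι F) := by rw [h3, smul_smul]
  have hsq : ((2 : F) • J - b • (1 : Matrix ι ι F)) * ((2 : F) • J - b • (1 : Matrix ι ι F))
      = (4 * a + b ^ 2) • (1 : Matrix ι ι F) := by
    simp only [sub_mul, mul_sub, hab, smul_mul_assoc, mul_smul_comm, one_mul, mul_one]
    module
  refine ⟨_, hJ₀, 4 * a + b ^ 2, hsq, ?_, hns₀⟩
  intro c hc
  set J₀ := (2 : F) • J - b • (1 : Matrix ι ι F) with hJ₀def
  have h3 : (J₀ - c • (1 : Matrix ι ι F)) * (J₀ + c • (1 : Matrix ι ι F)) = 0 := by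
    simp only [sub_mul, mul_add, hsq, smul_mul_assoc, mul_smul_comm, one_mul, mul_one]
    rw [← hc]
    module
  have h4 : J₀ - c • (1 : Matrix ι ι F) ≠ 0 := fun h => hns₀ c (sub_eq_zero.1 h)
  obtain ⟨y, hy, hy1⟩ := hK.inv _ (K.sub_mem hJ₀ (K.smul_mem K.one_mem c)) h4
  have h5 : y * (J₀ - c • (1 : Matrix ι ι F)) = 1 := by
    rw [← hK.comm _ (K.sub_mem hJ₀ (K.smul_mem K.one_mem c)) y hy]; exact hy1
  have h6 : J₀ + c • (1 : Matrix ι ι F) = 0 := by
    calc J₀ + c • (1 : Matrix ι ι F) = (y * (J₀ - c • (1 : Matrix ι ι F))) * (J₀ + c • (1 : Matrix ι ι F)) := by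
          rw [h5, one_mul]
      _ = 0 := by rw [mul_assoc, h3, mul_zero]
  apply hns₀ (-c)
  rw [neg_smul]
  exact eq_neg_of_add_eq_zero_left h6

/-- Membership in the normaliser from the action on a generator. -/
theorem mem_subalgebraNormalizer_of_generator {K : Subalgebra F (Matrix ι ι F)} {J J' : Matrix ι ι F}
    (hJ' : J' ∈ K) (hspan : ∀ k, k ∈ K ↔ ∃ α β : F, k = α • (1 : Matrix ι ι F) + β • J)
    (g : GL ι F) (h1 : (g : Matrix ι ι F) * J = J' * (g : Matrix ι ι F))
    (h2 : (g : Matrix ι ι F) * J' = J * (g : Matrix ι ι F)) :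
    g ∈ Cfsg.Geo.subalgebraNormalizer K := by
  have hgi : (g : Matrix ι ι F) * ((g⁻¹ : GL ι F) : Matrix ι ι F) = 1 := by
    rw [← Units.val_mul, mul_inv_cancel, Units.val_one]
  have hig : ((g⁻¹ : GL ι F) : Matrix ι ι F) * (g : Matrix ι ι F) = 1 := by
    rw [← Units.val_mul, inv_mul_cancel, Units.val_one]
  intro k
  constructor
  · intro hk
    obtain ⟨α, β, rfl⟩ := (hspan k).1 hk
    have : (g : Matrix ι ι F) * (α • (1 : Matrix ι ι F) + β • J) * ((g⁻¹ : GL ι F) : Matrix ι ι F)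
        = α • (1 : Matrix ι ι F) + β • J' := by
      rw [mul_add, add_mul, mul_smul_comm, mul_smul_comm, mul_one, h1, smul_mul_assoc, smul_mul_assoc, hgi,
        mul_assoc, hgi, mul_one]
    rw [this]
    exact K.add_mem (K.smul_mem K.one_mem _) (K.smul_mem hJ' _)
  · intro hk
    obtain ⟨α, β, hαβ⟩ := (hspan _).1 hk
    have h3 : (g : Matrix ι ι F) * k = (g : Matrix ι ι F) * (α • (1 : Matrix ι ι F) + β • J') := by
      have : (g : Matrix ι ι F) * k = ((g : Matrix ι ι F) * k * ((g⁻¹ : GL ι F) : Matrix ι ι F)) * (g : Matrix ι ι F) := by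
        rw [mul_assoc, hig, mul_one]
      rw [this, hαβ, add_mul, mul_add, smul_mul_assoc, smul_mul_assoc, one_mul, mul_smul_comm, mul_smul_comm,
        mul_one, h2]
    have h4 : k = α • (1 : Matrix ι ι F) + β • J' := by
      have := congrArg (fun m => ((g⁻¹ : GL ι F) : Matrix ι ι F) * m) h3
      simpa only [← mul_assoc, hig, one_mul] using this
    rw [h4]
    exact K.add_mem (K.smul_mem K.one_mem _) (K.smul_mem hJ' _)

/-- A scalar plus a rank one map normalises no field subalgebra of degree two in dimension at least 3. -/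
theorem false_of_normalizes_rank_one {K : Subalgebra F (Matrix ι ι F)}
    (hK : Cfsg.Geo.IsFieldSubalgebra 2 K) (hcard : 3 ≤ Fintype.card ι) (g : GL ι F)
    (hg : g ∈ Cfsg.Geo.subalgebraNormalizer K) (l : F) (hl : l ≠ 0) (φ : (ι → F) →ₗ[F] F) (u : ι → F)
    (hu : u ≠ 0) (hφ : φ ≠ 0) (hgv : ∀ v, (g : Matrix ι ι F).mulVec v = l • v + φ v • u) : False := by
  obtain ⟨J, hJ, hns⟩ := exists_generator hK
  have hig : ((g⁻¹ : GL ι F) : Matrix ι ι F) * (g : Matrix ι ι F) = 1 := by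
    rw [← Units.val_mul, inv_mul_cancel, Units.val_one]
  set J' := (g : Matrix ι ι F) * J * ((g⁻¹ : GL ι F) : Matrix ι ι F) with hJ'
  have hJ'K : J' ∈ K := (hg J).1 hJ
  have hgJ : (g : Matrix ι ι F) * J = J' * (g : Matrix ι ι F) := by
    rw [hJ', mul_assoc, hig, mul_one]
  have hker : LinearMap.ker (LinearMap.prod φ (φ ∘ₗ Matrix.toLin' J)) ≠ ⊥ := by
    apply LinearMap.ker_ne_bot_of_finrank_lt
    rw [Module.finrank_prod, Module.finrank_self, Module.finrank_pi]
    omega
  obtain ⟨w, hw, hw0⟩ := Submodule.exists_mem_ne_zero_of_ne_bot hker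
  rw [LinearMap.mem_ker, LinearMap.prod_apply, Prod.mk_eq_zero] at hw
  obtain ⟨hw1, hw2⟩ := hw
  replace hw1 : φ w = 0 := hw1
  replace hw2 : φ (J.mulVec w) = 0 := hw2
  have hJJ' : J - J' = 0 := by
    apply fieldSubalgebra_eq_zero_of_mulVec hK (K.sub_mem hJ hJ'K) hw0
    have h1 := congrArg (fun m : Matrix ι ι F => m.mulVec w) hgJ
    simp only [← Matrix.mulVec_mulVec] at h1
    rw [hgv, hgv, hw1, hw2, zero_smul, add_zero, add_zero, Matrix.mulVec_smul] at h1
    have h2 : l • (J.mulVec w - J'.mulVec w) = 0 := by rw [smul_sub, h1, sub_self]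
    rw [Matrix.sub_mulVec]
    exact (smul_eq_zero.1 h2).resolve_left hl
  have hJeq : J' = J := (sub_eq_zero.1 hJJ').symm
  rw [hJeq] at hgJ
  obtain ⟨v, hv⟩ : ∃ v, φ v ≠ 0 := by
    by_contra hcon
    push Not at hcon
    exact hφ (LinearMap.ext hcon)
  have h1 := congrArg (fun m : Matrix ι ι F => m.mulVec v) hgJ
  simp only [← Matrix.mulVec_mulVec] at h1
  rw [hgv, hgv, Matrix.mulVec_add, Matrix.mulVec_smul, Matrix.mulVec_smul] at h1
  have h2 : φ (J.mulVec v) • u = φ v • J.mulVec u := add_left_cancel h1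
  have h3 : J - ((φ v)⁻¹ * φ (J.mulVec v)) • (1 : Matrix ι ι F) = 0 := by
    apply fieldSubalgebra_eq_zero_of_mulVec hK (K.sub_mem hJ (K.smul_mem K.one_mem _)) hu
    rw [Matrix.sub_mulVec, Matrix.smul_mulVec, Matrix.one_mulVec, mul_smul, h2, smul_smul,
      inv_mul_cancel₀ hv, one_smul, sub_self]
  exact hns _ (sub_eq_zero.1 h3)

end Cfsg.Agent.Lib.Helper99
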