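import Cfsg.Agent.Lib.Helper99.TwoByTwo

set_option autoImplicit false

namespace Cfsg.Agent.Lib.Helper99

open Matrix

variable {F : Type*} [Field F]

local notation "M2" => Matrix (Fin 2) (Fin 2) F

lemma smul_eq_smul_one_of_nonscalar {X : M2} (hX : ∀ z : F, X ≠ z • (1 : M2)) {a b : F}
    (h : a • X = b • (1 : M2)) : a = 0 ∧ b = 0 := by
  have ha : a = 0 := by
    by_contra ha
    apply hX (a⁻¹ * b)
    rw [mul_smul, ← h, smul_smul, inv_mul_cancel₀ ha, one_smul]
  refine ⟨ha, ?_⟩
  rw [ha, zero_smul] at h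
  have := congrFun (congrFun h 0) 0
  simpa using this.symm

/-- From the relations of the quaternion group to the quaternion relations for matrices. -/
lemma quat_relations {i j : M2} (hdi : i.det ≠ 0) (hdj : j.det ≠ 0)
    (h4 : i * i * (i * i) = 1) (hsq : i * i = j * j) (hne : i * i ≠ 1) (hiji : i * j * i = j) :
    i * i = -1 ∧ j * j = -1 ∧ j * i = -(i * j) := by
  have hδ : i.det * i.det = 1 := by
    have := congrArg Matrix.det hiji
    rw [Matrix.det_mul, Matrix.det_mul] at this
    have h5 : (i.det * i.det - 1) * j.det = 0 := by linear_combination this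
    have := (mul_eq_zero.1 h5).resolve_right hdj
    linear_combination this
  have hins : ∀ z : F, i ≠ z • (1 : M2) := by
    intro z hz
    have h5 : (z * z) • j = j := by
      conv_rhs => rw [← hiji, hz]
      simp [smul_smul]
    have h6 : z * z = 1 := by
      by_contra h7
      have h8 : (z * z - 1) • j = 0 := by rw [sub_smul, h5, one_smul, sub_self]
      have h9 : j = 0 := (smul_eq_zero.1 h8).resolve_left (sub_ne_zero.2 h7)
      rw [h9] at hdj
      simp at hdj
    apply hne
    rw [hz]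
    simp [smul_smul, h6]
  have hch := ch2 i
  set t := i.trace
  set δ := i.det
  have h5 : (t ^ 3 - 2 * t * δ) • i = (1 - δ ^ 2 + t ^ 2 * δ) • (1 : M2) := by
    have h6 : i * i * (i * i) = (t ^ 3 - 2 * t * δ) • i + (δ ^ 2 - t ^ 2 * δ) • (1 : M2) := by
      have h7 : (t • i - δ • (1 : M2)) * (t • i - δ • (1 : M2)) =
          (t * t) • (i * i) - (2 * t * δ) • i + (δ * δ) • (1 : M2) := by
        simp only [Matrix.sub_mul, Matrix.mul_sub, Matrix.smul_mul, Matrix.mul_smul, Matrix.one_mul,
          Matrix.mul_one, smul_sub, smul_smul]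
        module
      rw [hch, h7, hch]
      module
    rw [h4] at h6
    have h8 : (t ^ 3 - 2 * t * δ) • i = (1 : M2) - (δ ^ 2 - t ^ 2 * δ) • (1 : M2) :=
      eq_sub_of_add_eq h6.symm
    rw [h8]
    module
  obtain ⟨_, h6⟩ := smul_eq_smul_one_of_nonscalar hins h5
  have ht : t = 0 := by
    have h7 : t ^ 2 * δ = 0 := by linear_combination h6 + hδ
    have := (mul_eq_zero.1 h7).resolve_right hdi
    exact pow_eq_zero_iff (two_ne_zero) |>.1 this
  rw [ht, zero_smul, zero_sub] at hch
  have hδ1 : δ = 1 := by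
    have h7 : (δ - 1) * (δ + 1) = 0 := by linear_combination hδ
    rcases mul_eq_zero.1 h7 with h | h
    · linear_combination h
    · exfalso
      apply hne
      rw [hch, show δ = -1 by linear_combination h]
      simp
  have hii : i * i = -1 := by rw [hch, hδ1, one_smul]
  refine ⟨hii, by rw [← hsq, hii], ?_⟩
  have h7 : i * j * i * i = j * i := by rw [hiji]
  rw [Matrix.mul_assoc, hii] at h7
  rw [← h7]
  simp

lemma quat_nonscalar_of_anticomm {i j : M2} (hi : i * i = -1) (h2 : (2 : F) ≠ 0)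
    (hij : j * i = -(i * j)) (hj0 : j ≠ 0) :
    ∀ z : F, i ≠ z • (1 : M2) := by
  intro z hz
  rw [hz] at hij hi
  simp only [Matrix.mul_smul, Matrix.mul_one, Matrix.smul_mul, Matrix.one_mul] at hij hi
  have h3 : (2 * z) • j = 0 := by
    rw [mul_smul, two_smul]
    nth_rewrite 1 [hij]
    simp
  have hz0 : z = 0 := by
    rcases smul_eq_zero.1 h3 with h | h
    · exact (mul_eq_zero.1 h).resolve_left h2
    · exact absurd h hj0
  rw [hz0] at hi
  simp only [zero_smul, smul_zero] at hi
  have := congrFun (congrFun hi 0) 0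
  simp at this

lemma ne_zero_of_sq {j : M2} (hj : j * j = -1) : j ≠ 0 := by
  rintro rfl
  have := congrFun (congrFun hj 0) 0
  simp at this

lemma trace_det_of_sq {i : M2} (hi : i * i = -1) (hins : ∀ z : F, i ≠ z • (1 : M2)) :
    i.trace = 0 ∧ i.det = 1 := by
  have hch := ch2 i
  rw [hi] at hch
  have h3 : i.trace • i = (i.det - 1) • (1 : M2) := by
    have : i.trace • i = (-1 : M2) + i.det • (1 : M2) := by rw [hch]; abel
    rw [this]; module
  obtain ⟨a, b⟩ := smul_eq_smul_one_of_nonscalar hins h3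
  exact ⟨a, by linear_combination b⟩

/-- A matrix commuting with `i` and `j` is scalar. -/
lemma scalar_of_commute {i j : M2} (hi : i * i = -1) (hj : j * j = -1) (hij : j * i = -(i * j))
    (h2 : (2 : F) ≠ 0) {Y : M2} (h1 : Y * i = i * Y) (h1' : Y * j = j * Y) :
    ∃ c : F, Y = c • (1 : M2) := by
  have hi0 := ne_zero_of_sq hi
  have hj0 := ne_zero_of_sq hj
  have hins := quat_nonscalar_of_anticomm hi h2 hij hj0
  have hij' : i * j = -(j * i) := by rw [hij, neg_neg]
  have hjns := quat_nonscalar_of_anticomm hj h2 hij' hi0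
  obtain ⟨hti, _⟩ := trace_det_of_sq hi hins
  obtain ⟨htj, _⟩ := trace_det_of_sq hj hjns
  set Y₀ : M2 := Y - (Y.trace / 2) • (1 : M2) with hY₀
  have htY : Y₀.trace = 0 := by
    rw [hY₀, Matrix.trace_sub, Matrix.trace_smul, Matrix.trace_one]
    simp
    field_simp
    ring
  have c1 : Y₀ * i = i * Y₀ := by
    rw [hY₀]; simp [Matrix.sub_mul, Matrix.mul_sub, h1]
  have c2 : Y₀ * j = j * Y₀ := by
    rw [hY₀]; simp [Matrix.sub_mul, Matrix.mul_sub, h1']
  have p1 := ch2_polar Y₀ i htY hti
  have p2 := ch2_polar Y₀ j htY htj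
  rw [← c1] at p1
  rw [← c2] at p2
  -- 2 Y₀ i = τ, so 2 Y₀ = - τ i
  have q1 : (2 : F) • Y₀ = (-(Y₀ * i).trace) • i := by
    have : (Y₀ * i + Y₀ * i) * i = ((Y₀ * i).trace • (1 : M2)) * i := by rw [p1]
    rw [Matrix.add_mul, Matrix.mul_assoc, hi] at this
    simp only [Matrix.mul_neg, Matrix.mul_one, Matrix.smul_mul, Matrix.one_mul] at this
    rw [two_smul, neg_smul, ← this]
    abel
  have q2 : (2 : F) • Y₀ = (-(Y₀ * j).trace) • j := by
    have : (Y₀ * j + Y₀ * j) * j = ((Y₀ * j).trace • (1 : M2)) * j := by rw [p2]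
    rw [Matrix.add_mul, Matrix.mul_assoc, hj] at this
    simp only [Matrix.mul_neg, Matrix.mul_one, Matrix.smul_mul, Matrix.one_mul] at this
    rw [two_smul, neg_smul, ← this]
    abel
  -- Y₀ commutes with j, so τ i commutes with j, forcing τ = 0
  have hτ : (Y₀ * i).trace = 0 := by
    by_contra hτ
    have e1 : ((2 : F) • Y₀) * j = j * ((2 : F) • Y₀) := by
      simp [c2]
    rw [q1] at e1
    simp only [Matrix.smul_mul, Matrix.mul_smul] at e1
    have e2 : i * j = j * i := by
      have := congrArg (fun Z => (-(Y₀ * i).trace)⁻¹ • Z) e1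
      simpa [smul_smul, inv_mul_cancel₀ hτ] using this
    rw [hij] at e2
    have e3 : (2 : F) • (i * j) = 0 := by
      rw [two_smul]
      nth_rewrite 1 [e2]
      simp
    have e4 : i * j = 0 := (smul_eq_zero.1 e3).resolve_left h2
    have e5 : i * (i * j) = 0 := by rw [e4, Matrix.mul_zero]
    rw [← Matrix.mul_assoc, hi] at e5
    simp at e5
    exact hj0 e5
  rw [hτ, neg_zero, zero_smul] at q1
  have hY0 : Y₀ = 0 := (smul_eq_zero.1 q1).resolve_left h2
  refine ⟨Y.trace / 2, ?_⟩
  rw [hY₀, sub_eq_zero] at hY0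
  exact hY0


/-- The Hurwitz unit `(-1 + i + j + ij)/2`. -/
lemma exists_hurwitz {i j : M2} (hi : i * i = -1) (hj : j * j = -1) (hij : j * i = -(i * j))
    (h2 : (2 : F) ≠ 0) :
    ∃ w : M2, w * i = (i * j) * w ∧ w * j = i * w ∧ w.trace = -1 ∧ w.det = 1 ∧
      ∀ z : F, w ≠ z • (1 : M2) := by
  obtain ⟨k, hk⟩ : ∃ k, i * j = k := ⟨_, rfl⟩
  rw [hk] at hij ⊢
  have ik : i * k = -j := by rw [← hk, ← Matrix.mul_assoc, hi]; simp
  have ki : k * i = j := by rw [← hk, Matrix.mul_assoc, hij, Matrix.mul_neg, ik, neg_neg]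
  have kj : k * j = -i := by rw [← hk, Matrix.mul_assoc, hj]; simp
  have jk : j * k = i := by rw [← hk, ← Matrix.mul_assoc, hij, Matrix.neg_mul, kj, neg_neg]
  have kk : k * k = -1 := by
    nth_rewrite 1 [← hk]
    rw [Matrix.mul_assoc, jk, hi]
  have hi0 := ne_zero_of_sq hi
  have hj0 := ne_zero_of_sq hj
  have hins := quat_nonscalar_of_anticomm hi h2 (by rw [hij, hk]) hj0
  have hjns := quat_nonscalar_of_anticomm (i := j) (j := i) hj h2 (by rw [hij, hk, neg_neg]) hi0
  have hkns := quat_nonscalar_of_anticomm (i := k) (j := i) kk h2 (by rw [ik, ki]) hi0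
  obtain ⟨hti, _⟩ := trace_det_of_sq hi hins
  obtain ⟨htj, _⟩ := trace_det_of_sq hj hjns
  obtain ⟨htk, _⟩ := trace_det_of_sq kk hkns
  set w : M2 := (1 / 2 : F) • (-1 + i + j + k) with hw
  have w1 : w * i = k * w := by
    rw [hw]
    simp only [Matrix.smul_mul, Matrix.mul_smul, Matrix.add_mul, Matrix.mul_add, Matrix.neg_mul,
      Matrix.mul_neg, Matrix.one_mul, Matrix.mul_one, hi, hij, ki, kj, kk]
    congr 1
    abel
  have w2 : w * j = i * w := by
    rw [hw]
    simp only [Matrix.smul_mul, Matrix.mul_smul, Matrix.add_mul, Matrix.mul_add, Matrix.neg_mul,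
      Matrix.mul_neg, Matrix.one_mul, Matrix.mul_one, hi, hj, hk, ik, kj]
    congr 1
    abel
  have w3 : w * w = -w - 1 := by
    have h4 : (-1 + i + j + k) * (-1 + i + j + k) = (-2 : F) • (1 : M2) + (-2 : F) • (i + j + k) := by
      simp only [Matrix.add_mul, Matrix.mul_add, Matrix.neg_mul,
        Matrix.mul_neg, Matrix.one_mul, Matrix.mul_one, hi, hj, hk, ik, kj, hij, ki, jk, kk]
      module
    rw [hw]
    simp only [Matrix.smul_mul, Matrix.mul_smul, h4]
    have e1 : (1 / 2 : F) * (1 / 2) * (-2) = -(1 / 2) := by field_simp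
    have e2 : (1 : M2) = (1 / 2 : F) • (1 : M2) + (1 / 2 : F) • (1 : M2) := by
      have : (1 / 2 : F) + 1 / 2 = 1 := by field_simp; norm_num
      rw [← add_smul, this, one_smul]
    rw [smul_smul, smul_add, smul_smul, smul_smul, e1]
    conv_rhs => arg 2; rw [e2]
    module
  have wt : w.trace = -1 := by
    rw [hw, Matrix.trace_smul, Matrix.trace_add, Matrix.trace_add, Matrix.trace_add, hti, htj, htk,
      Matrix.trace_neg, Matrix.trace_one]
    simp
    field_simp
  have wd : w.det = 1 := by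
    have hch := ch2 w
    rw [w3, wt] at hch
    have h5 : w.det • (1 : M2) = (1 : F) • (1 : M2) := by
      have : w.det • (1 : M2) = (-1 : F) • w - (-w - 1) := by rw [hch]; abel
      rw [this]; module
    have := congrFun (congrFun h5 0) 0
    simpa using this
  refine ⟨w, w1, w2, wt, wd, ?_⟩
  intro z hz
  rw [hz] at w2
  simp only [Matrix.smul_mul, Matrix.mul_smul, Matrix.one_mul, Matrix.mul_one] at w2
  have hz0 : z ≠ 0 := by
    rintro rfl
    rw [hz] at wd
    simp at wd
  have h6 : j = i := by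
    have := congrArg (fun Z => z⁻¹ • Z) w2
    simpa [smul_smul, inv_mul_cancel₀ hz0] using this
  rw [h6, hi] at hij
  rw [h6, hi] at hk
  rw [← hk] at hij
  have := congrFun (congrFun hij 0) 0
  simp at this
  apply h2
  linear_combination -this

end Cfsg.Agent.Lib.Helper99
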