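import Mathlib
import Cfsg.Agent.Lib.Helper97.Siegel

set_option autoImplicit false
set_option linter.unusedSimpArgs false
set_option linter.unusedSectionVars false
set_option linter.unusedVariables false

/-! Unitary transvections, short root elements and Siegel elements as endomorphisms; membership of
an endomorphism in a subgroup of `GL(V)`. -/

namespace Cfsg.Agent.Lib.Helper99.SuSub

open Module Cfsg.Agent.Lib.Helper95 Cfsg.Agent.Lib.Helper97

variable {F V : Type*} [Field F] [AddCommGroup V] [Module F V]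

/-- the endomorphism `T` is (the underlying map of) an element of `M` -/
def InM (M : Subgroup (V ≃ₗ[F] V)) (T : Module.End F V) : Prop := ∃ t ∈ M, ∀ x, t x = T x

variable {M : Subgroup (V ≃ₗ[F] V)}

theorem InM.one : InM M (1 : Module.End F V) := ⟨1, M.one_mem, fun x => rfl⟩

theorem InM.mul {A B : Module.End F V} (hA : InM M A) (hB : InM M B) : InM M (A * B) := by
  obtain ⟨a, ha, ea⟩ := hA
  obtain ⟨b, hb, eb⟩ := hB
  exact ⟨a * b, M.mul_mem ha hb, fun x => by
    rw [LinearEquiv.mul_apply, eb, ea, Module.End.mul_apply]⟩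

theorem InM.of_mul_left {A C D : Module.End F V} (h : A = C * D) (hA : InM M A) (hD : InM M D) :
    InM M C := by
  obtain ⟨a, ha, ea⟩ := hA
  obtain ⟨d, hd, ed⟩ := hD
  refine ⟨a * d⁻¹, M.mul_mem ha (M.inv_mem hd), fun x => ?_⟩
  rw [LinearEquiv.mul_apply, ea, h, Module.End.mul_apply, ← ed]
  congr 1
  show d (d.symm x) = x
  simp

theorem InM.of_mul_right {A C D : Module.End F V} (h : A = C * D) (hA : InM M A) (hC : InM M C) :
    InM M D := by
  obtain ⟨a, ha, ea⟩ := hA
  obtain ⟨c, hc, ec⟩ := hC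
  refine ⟨c⁻¹ * a, M.mul_mem (M.inv_mem hc) ha, fun x => ?_⟩
  rw [LinearEquiv.mul_apply]
  show c.symm (a x) = D x
  rw [LinearEquiv.symm_apply_eq, ea, h, Module.End.mul_apply, ec]

theorem InM.conj {g : V ≃ₗ[F] V} (hg : g ∈ M) {T T' : Module.End F V} (hT : InM M T)
    (hc : ∀ x, g (T x) = T' (g x)) : InM M T' := by
  obtain ⟨t, ht, et⟩ := hT
  refine ⟨g * t * g⁻¹, M.mul_mem (M.mul_mem hg ht) (M.inv_mem hg), fun x => ?_⟩
  rw [LinearEquiv.mul_apply, LinearEquiv.mul_apply, et, hc]
  congr 1
  show g (g.symm x) = x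
  simp

theorem InM.mono {M' : Subgroup (V ≃ₗ[F] V)} (hle : M ≤ M') {T : Module.End F V} (hT : InM M T) :
    InM M' T := by
  obtain ⟨t, ht, et⟩ := hT
  exact ⟨t, hle ht, et⟩

variable {σ : F ≃+* F} {f : V → V → F} (h : UF σ f)

/-- `x ↦ x + a f(x, v) v` -/
def tvE (v : V) (a : F) : Module.End F V := 1 + a • (h.hat v).smulRight v

/-- `x ↦ x + l f(x, w) z - σ(l) f(x, z) w` -/
def sE (l : F) (w z : V) : Module.End F V :=
  1 + l • (h.hat w).smulRight z + (-σ l) • (h.hat z).smulRight w

/-- `x ↦ x + f(x, w) y - f(x, y) w + a f(x, w) w` -/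
def qE (w y : V) (a : F) : Module.End F V :=
  1 + (h.hat w).smulRight y + (-1 : F) • (h.hat y).smulRight w + a • (h.hat w).smulRight w

theorem tvE_apply (v : V) (a : F) (x : V) : tvE h v a x = x + (a * f x v) • v := by
  simp [tvE, smul_smul]

theorem sE_apply (l : F) (w z x : V) :
    sE h l w z x = x + (l * f x w) • z + (-(σ l * f x z)) • w := by
  simp [sE, smul_smul]

theorem qE_apply (w y : V) (a : F) (x : V) :
    qE h w y a x = x + f x w • y + (-(f x y)) • w + (a * f x w) • w := by
  simp [qE, smul_smul]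

theorem tvE_conj {g : V ≃ₗ[F] V} (hg : g ∈ UGrp f) (v : V) (a : F) (x : V) :
    g (tvE h v a x) = tvE h (g v) a (g x) := by
  rw [tvE_apply, tvE_apply, hg, map_add, map_smul]

theorem sE_conj {g : V ≃ₗ[F] V} (hg : g ∈ UGrp f) (l : F) (w z x : V) :
    g (sE h l w z x) = sE h l (g w) (g z) (g x) := by
  rw [sE_apply, sE_apply, hg, hg, map_add, map_add, map_smul, map_smul]

theorem qE_conj {g : V ≃ₗ[F] V} (hg : g ∈ UGrp f) (w y : V) (a : F) (x : V) :
    g (qE h w y a x) = qE h (g w) (g y) a (g x) := by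
  rw [qE_apply, qE_apply, hg, hg, map_add, map_add, map_add, map_smul, map_smul, map_smul]

theorem tvE_zero_left (a : F) : tvE h 0 a = 1 := by
  ext x; rw [tvE_apply]; simp

theorem tvE_zero_right (v : V) : tvE h v 0 = 1 := by
  ext x; rw [tvE_apply]; simp

theorem tvE_smul (v : V) (c a : F) : tvE h (c • v) a = tvE h v (a * (c * σ c)) := by
  ext x
  rw [tvE_apply, tvE_apply, h.smul_right, smul_smul]
  module

theorem tvE_mul {v : V} (hv : f v v = 0) (a b : F) : tvE h v a * tvE h v b = tvE h v (a + b) := by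
  ext x
  simp only [Module.End.mul_apply, tvE_apply, h.add_left, h.smul_left, hv]
  module

theorem sE_eq_tv {w z : V} (hw : f w w = 0) (hz : f z z = 0) (hwz : f w z = 0) {a : F}
    (ha : σ a = -a) (μ : F) :
    tvE h (w + μ • z) a * tvE h w (-a) * tvE h z (-(a * (μ * σ μ))) = sE h (a * μ) w z := by
  have hzw : f z w = 0 := by rw [h.herm, hwz, map_zero]
  ext x
  simp only [Module.End.mul_apply, tvE_apply, sE_apply, h.add_left, h.add_right, h.smul_left,
    h.smul_right, hw, hz, hwz, hzw, map_mul, ha]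
  module

theorem sE_add {w z : V} (hw : f w w = 0) (hz : f z z = 0) (hwz : f w z = 0) (a b : F) :
    sE h (a + b) w z = sE h a w z * sE h b w z := by
  have hzw : f z w = 0 := by rw [h.herm, hwz, map_zero]
  ext x
  simp only [Module.End.mul_apply, sE_apply, h.add_left, h.smul_left, hw, hz, hwz, hzw, map_add]
  module

theorem sE_zero (w z : V) : sE h 0 w z = 1 := by
  ext x; rw [sE_apply]; simp

theorem sE_add_left {e w z : V} (hz : f z z = 0) (hez : f e z = 0) (hwz : f w z = 0)
    (hew : f e w = 0) (hw : f w w = 0) (he : f e e = 0) (b μ : F) :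
    sE h b (e + μ • w) z = sE h b e z * sE h (b * σ μ) w z := by
  have hze : f z e = 0 := by rw [h.herm, hez, map_zero]
  have hzw : f z w = 0 := by rw [h.herm, hwz, map_zero]
  have hwe : f w e = 0 := by rw [h.herm, hew, map_zero]
  ext x
  simp only [Module.End.mul_apply, sE_apply, h.add_left, h.add_right, h.smul_left, h.smul_right,
    hz, hez, hwz, hew, hw, he, hze, hzw, hwe, map_mul, h.involutive]
  module

theorem tvE_add_smul {e w : V} (he : f e e = 0) (hw : f w w = 0) (hew : f e w = 0) {c : F}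
    (hc : σ c = -c) (μ : F) :
    tvE h (e + μ • w) c = tvE h e c * tvE h w (c * (μ * σ μ)) * sE h (c * σ μ) w e := by
  have hwe : f w e = 0 := by rw [h.herm, hew, map_zero]
  ext x
  simp only [Module.End.mul_apply, tvE_apply, sE_apply, h.add_left, h.add_right, h.smul_left,
    h.smul_right, he, hw, hew, hwe, map_mul, h.involutive, hc]
  module

theorem tvE_comm_eq {u w : V} (hu : f u u = 0) (hw : f w w = 0) (huw : f u w = 0) {c : F}
    (hc : σ c = -c) (β : F) :
    tvE h u (-c) * tvE h (u + β • w) c = qE h w ((c * σ β) • u) (c * (β * σ β)) := by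
  have hwu : f w u = 0 := by rw [h.herm, huw, map_zero]
  ext x
  simp only [Module.End.mul_apply, tvE_apply, qE_apply, h.add_left, h.add_right, h.smul_left,
    h.smul_right, hu, hw, huw, hwu, map_mul, h.involutive, hc]
  module

theorem qE_mul {w y y' : V} (hw : f w w = 0) (hy : f y w = 0) (hy' : f y' w = 0) (a a' : F) :
    qE h w y a * qE h w y' a' = qE h w (y + y') (a + a' + -(f y' y)) := by
  have hwy : f w y = 0 := by rw [h.herm, hy, map_zero]
  have hwy' : f w y' = 0 := by rw [h.herm, hy', map_zero]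
  ext x
  simp only [Module.End.mul_apply, qE_apply, h.add_left, h.add_right, h.smul_left,
    h.smul_right, hw, hy, hy', hwy, hwy']
  module

theorem sE_eq_qE (l : F) (x₀ w : V) : sE h l x₀ w = qE h w ((-σ l) • x₀) 0 := by
  ext x
  simp only [sE_apply, qE_apply, h.smul_right, map_neg, h.involutive]
  module

theorem tvE_eq_qE (w : V) (a : F) : tvE h w a = qE h w 0 a := by
  ext x
  simp only [tvE_apply, qE_apply, h.zero_right]
  module

end Cfsg.Agent.Lib.Helper99.SuSub
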