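import Mathlib
import Cfsg.Agent.Lib.Helper99.SpSubV0
import Cfsg.Agent.Lib.Helper97.Siegel

set_option autoImplicit false
set_option linter.unusedSimpArgs false
set_option linter.unusedSectionVars false
set_option linter.unusedVariables false

/-! Elementary geometry of a non-degenerate hermitian space over a finite field. -/

namespace Cfsg.Agent.Lib.Helper99.SuSub

open Module Cfsg.Agent.Lib.Helper95 Cfsg.Agent.Lib.Helper97 Cfsg.Agent.Lib.Helper99.SpSub

variable {K V : Type*} [Field K] [AddCommGroup V] [Module K V]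
variable {σ : K ≃+* K} {f : V → V → K} (h : UF σ f)
include h

theorem perp_comm {x y : V} (hxy : f x y = 0) : f y x = 0 := by
  rw [h.herm, hxy, map_zero]

theorem u_exists_one {x : V} (hx : x ≠ 0) : ∃ t, f x t = 1 := by
  obtain ⟨y, hy⟩ := h.hform.nondeg' hx
  refine ⟨σ (f x y)⁻¹ • y, ?_⟩
  rw [h.smul_right, h.involutive, inv_mul_cancel₀ hy]

theorem u_exists_one_zero {x y : V} (hind : Ind K x y) : ∃ t, f x t = 1 ∧ f y t = 0 := by
  have key : ∃ t, f x t ≠ 0 ∧ f y t = 0 := by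
    by_contra hcon
    push Not at hcon
    obtain ⟨t₀, ht₀⟩ := u_exists_one h hind.right_ne
    have h0 : x + (-(f x t₀)) • y = 0 := by
      by_contra hne
      obtain ⟨t, ht⟩ := h.hform.nondeg' hne
      apply ht
      have h1 : f y (t + (-σ (f y t)) • t₀) = 0 := by
        rw [h.add_right, h.smul_right, map_neg, h.involutive, ht₀]; ring
      have h2 : f x (t + (-σ (f y t)) • t₀) = 0 := by
        by_contra h3
        exact hcon _ h3 h1
      rw [h.add_right, h.smul_right, map_neg, h.involutive] at h2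
      rw [h.add_left, h.smul_left]
      linear_combination h2
    apply hind.ne_smul (f x t₀)
    have e : x = (x + (-(f x t₀)) • y) + (f x t₀) • y := by module
    rw [h0, zero_add] at e
    exact e
  obtain ⟨t, ht1, ht2⟩ := key
  refine ⟨σ (f x t)⁻¹ • t, ?_, ?_⟩
  · rw [h.smul_right, h.involutive, inv_mul_cancel₀ ht1]
  · rw [h.smul_right, ht2, mul_zero]

theorem u_exists_dual_iso {x w : V} (hind : Ind K x w) (hx : f x x = 0) (hwx : f w x = 0) :
    ∃ t, f t t = 0 ∧ f x t = 1 ∧ f w t = 0 := by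
  obtain ⟨t₀, h1, h2⟩ := u_exists_one_zero h hind
  obtain ⟨m, hm⟩ := h.hform.exists_iso_adjust hx (z := t₀) (by rw [h1]; exact one_ne_zero)
  refine ⟨t₀ + m • x, hm, ?_, ?_⟩
  · rw [h.add_right, h.smul_right, hx, h1]; ring
  · rw [h.add_right, h.smul_right, hwx, h2]; ring

theorem u_ind_of_form {x y t : V} (hx : x ≠ 0) (h1 : f y t ≠ 0) (h2 : f x t = 0) : Ind K x y := by
  intro a b hab
  have h3 : f (a • x + b • y) t = 0 := by rw [hab, h.zero_left]
  rw [h.add_left, h.smul_left, h.smul_left, h2, mul_zero, zero_add] at h3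
  have hb : b = 0 := (mul_eq_zero.1 h3).resolve_right h1
  subst hb
  rw [zero_smul, add_zero] at hab
  exact ⟨(smul_eq_zero.1 hab).resolve_right hx, rfl⟩

section fin

variable [Finite K] [FiniteDimensional K V]

theorem u_exists_hyp {d : ℕ} (v : Fin d → V) (hd : 2 * (d + 1) < finrank K V) :
    ∃ e e', f e e = 0 ∧ f e' e' = 0 ∧ f e e' = 1 ∧ ∀ i, f (v i) e = 0 ∧ f (v i) e' = 0 := by
  obtain ⟨u₁, hu₁, hu₁0⟩ := h.hform.exists_perp_aniso v (by omega)
  obtain ⟨u₂, hu₂, hu₂0⟩ := h.hform.exists_perp_aniso (Fin.cons u₁ v : Fin (d + 1) → V) hd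
  have h21 : f u₂ u₁ = 0 := by simpa using hu₂ 0
  have h2v : ∀ i, f u₂ (v i) = 0 := fun i => by simpa using hu₂ i.succ
  have h12 : f u₁ u₂ = 0 := perp_comm h h21
  obtain ⟨l, hl⟩ := exists_norm σ h.ne_refl h.involutive (- f u₁ u₁ / f u₂ u₂)
    (by rw [map_div₀, map_neg, h.self_fixed, h.self_fixed])
  obtain ⟨e, he⟩ : ∃ e, e = u₁ + l • u₂ := ⟨_, rfl⟩
  have hee : f e e = 0 := by
    rw [he, h.add_left, h.add_right, h.add_right, h.smul_left, h.smul_left, h.smul_right,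
      h.smul_right, h21, h12]
    have : l * (σ l * f u₂ u₂) = - f u₁ u₁ := by
      rw [← mul_assoc, hl]; field_simp
    rw [this]; ring
  have heu : f e u₁ = f u₁ u₁ := by
    rw [he, h.add_left, h.smul_left, h21]; ring
  obtain ⟨t, ht⟩ := h.hform.exists_iso_adjust hee (z := u₁) (by rw [heu]; exact hu₁0)
  have hee' : f e (u₁ + t • e) = f u₁ u₁ := by
    rw [h.add_right, h.smul_right, hee, heu]; ring
  have hev : ∀ i, f e (v i) = 0 := by
    intro i
    rw [he, h.add_left, h.smul_left, hu₁ i, h2v i]; ring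
  refine ⟨e, (f u₁ u₁)⁻¹ • (u₁ + t • e), hee, ?_, ?_, fun i => ⟨perp_comm h (hev i), ?_⟩⟩
  · rw [h.smul_left, h.smul_right, ht]; ring
  · rw [h.smul_right, hee', map_inv₀, h.self_fixed, inv_mul_cancel₀ hu₁0]
  · apply perp_comm h
    rw [h.smul_left, h.add_left, h.smul_left, hu₁ i, hev i]; ring

/-- every vector orthogonal to the `a i` is a sum of two isotropic vectors orthogonal to them -/
theorem u_iso_decomp {k : ℕ} (a : Fin k → V) (hk : 2 * (k + 1) < finrank K V) (y : V)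
    (hy : ∀ i, f y (a i) = 0) :
    ∃ e₁ e₂, f e₁ e₁ = 0 ∧ f e₂ e₂ = 0 ∧ (∀ i, f e₁ (a i) = 0) ∧ (∀ i, f e₂ (a i) = 0) ∧
      y = e₁ + e₂ :=
  h.hform.exists_iso_decomp (fun c hc => exists_norm σ h.ne_refl h.involutive c hc) a hk y hy

omit [Finite K] [FiniteDimensional K V] in
/-- one transvection moving `a` to `z` and fixing `p` -/
theorem one_tv {p a z : V} {s : K} (ha : f a a = 0) (hz : f z z = 0) (hs : f a z = s)
    (hs1 : σ s = -s) (hs0 : s ≠ 0) (hpa : f p a = 0) (hpz : f p z = 0) :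
    ∃ t ∈ TGrp σ f, t a = z ∧ t p = p := by
  have hza : f z a = -s := by rw [h.herm, hs, hs1]
  have e : z - a = z + (-1 : K) • a := by module
  have hv : f (z - a) (z - a) = 0 := by
    rw [e, h.add_left, h.add_right, h.add_right, h.smul_left, h.smul_left, h.smul_right,
      h.smul_right, map_neg, map_one, hs, hza, ha, hz]
    ring
  have hinv : σ s⁻¹ = -s⁻¹ := by rw [map_inv₀, hs1, inv_neg]
  obtain ⟨t, ht⟩ := exists_sim h (z := z - a) (l := s⁻¹) (by rw [hinv, hv]; ring)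
  refine ⟨t, Subgroup.subset_closure ⟨z - a, s⁻¹, hv, hinv, ht⟩, ?_, ?_⟩
  · have e1 : f a (z - a) = s := by
      rw [e, h.add_right, h.smul_right, map_neg, map_one, hs, ha]; ring
    rw [ht, e1, inv_mul_cancel₀ hs0]
    module
  · have e1 : f p (z - a) = 0 := by
      rw [e, h.add_right, h.smul_right, hpa, hpz]; ring
    rw [ht, e1]; simp

theorem trans_step (hn : 9 ≤ finrank K V) {p a c a' c' : V} (ha : f a a = 0) (hc : f c c = 0)
    (hpa : f p a = 0) (hpc : f p c = 0) (haa' : f a a' = 1) (hpa' : f p a' = 0)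
    (hcc' : f c c' = 1) (hpc' : f p c' = 0) (hac' : f a c' = 0) :
    ∃ g ∈ TGrp σ f, g p = p ∧ g a = c := by
  obtain ⟨s, hs0, hs⟩ := exists_skew σ h.ne_refl h.involutive
  obtain ⟨z₀, hz₀⟩ : ∃ z₀, z₀ = (-s) • a' + σ (s - s * f c a') • c' := ⟨_, rfl⟩
  have haz₀ : f a z₀ = s := by
    rw [hz₀, h.add_right, h.smul_right, h.smul_right, haa', hac', map_neg, hs]; ring
  have hcz₀ : f c z₀ = s := by
    rw [hz₀, h.add_right, h.smul_right, h.smul_right, hcc', h.involutive, map_neg, hs]; ring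
  have hpz₀ : f p z₀ = 0 := by
    rw [hz₀, h.add_right, h.smul_right, h.smul_right, hpa', hpc']; ring
  obtain ⟨u₀, hu₀, hu₀0⟩ := h.hform.exists_perp_aniso ![p, a, c, z₀] (by omega)
  have hu1 : f u₀ p = 0 := hu₀ 0
  have hu2 : f u₀ a = 0 := hu₀ 1
  have hu3 : f u₀ c = 0 := hu₀ 2
  have hu4 : f u₀ z₀ = 0 := hu₀ 3
  obtain ⟨d, hd⟩ := exists_norm σ h.ne_refl h.involutive (- f z₀ z₀ / f u₀ u₀)
    (by rw [map_div₀, map_neg, h.self_fixed, h.self_fixed])
  obtain ⟨z, hz⟩ : ∃ z, z = z₀ + d • u₀ := ⟨_, rfl⟩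
  have hzz : f z z = 0 := by
    rw [hz, h.add_left, h.add_right, h.add_right, h.smul_left, h.smul_left, h.smul_right,
      h.smul_right, hu4, perp_comm h hu4]
    have : d * (σ d * f u₀ u₀) = - f z₀ z₀ := by
      rw [← mul_assoc, hd]; field_simp
    rw [this]; ring
  have haz : f a z = s := by
    rw [hz, h.add_right, h.smul_right, perp_comm h hu2, haz₀]; ring
  have hcz : f c z = s := by
    rw [hz, h.add_right, h.smul_right, perp_comm h hu3, hcz₀]; ring
  have hpz : f p z = 0 := by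
    rw [hz, h.add_right, h.smul_right, perp_comm h hu1, hpz₀]; ring
  obtain ⟨t₁, ht₁, e1, e1'⟩ := one_tv h ha hzz haz hs hs0 hpa hpz
  obtain ⟨t₂, ht₂, e2, e2'⟩ := one_tv h hc hzz hcz hs hs0 hpc hpz
  refine ⟨t₂⁻¹ * t₁, Subgroup.mul_mem _ (Subgroup.inv_mem _ ht₂) ht₁, ?_, ?_⟩
  · rw [LinearEquiv.mul_apply, e1']
    show t₂.symm p = p
    rw [LinearEquiv.symm_apply_eq, e2']
  · rw [LinearEquiv.mul_apply, e1]
    show t₂.symm z = c
    rw [LinearEquiv.symm_apply_eq, e2]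

theorem trans_fix (hn : 9 ≤ finrank K V) {p a b : V} (ha : f a a = 0) (hb : f b b = 0)
    (hpa : f p a = 0) (hpb : f p b = 0) (ha' : ∃ a', f a a' = 1 ∧ f p a' = 0)
    (hb' : ∃ b', f b b' = 1 ∧ f p b' = 0) : ∃ g ∈ TGrp σ f, g p = p ∧ g a = b := by
  obtain ⟨a', h1, h2⟩ := ha'
  obtain ⟨b', h3, h4⟩ := hb'
  obtain ⟨c, c', hcc, -, hcc', hv⟩ := u_exists_hyp h ![p, a, b] (by omega)
  have hpc : f p c = 0 := (hv 0).1
  have hpc' : f p c' = 0 := (hv 0).2
  have hac' : f a c' = 0 := (hv 1).2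
  have hbc' : f b c' = 0 := (hv 2).2
  obtain ⟨g₁, hg₁, e1, e1'⟩ := trans_step h hn ha hcc hpa hpc h1 h2 hcc' hpc' hac'
  obtain ⟨g₂, hg₂, e2, e2'⟩ := trans_step h hn hb hcc hpb hpc h3 h4 hcc' hpc' hbc'
  refine ⟨g₂⁻¹ * g₁, Subgroup.mul_mem _ (Subgroup.inv_mem _ hg₂) hg₁, ?_, ?_⟩
  · rw [LinearEquiv.mul_apply, e1]
    show g₂.symm p = p
    rw [LinearEquiv.symm_apply_eq, e2]
  · rw [LinearEquiv.mul_apply, e1']
    show g₂.symm c = b
    rw [LinearEquiv.symm_apply_eq, e2']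

/-- transitivity on non-zero isotropic vectors -/
theorem u_trans_one (hn : 9 ≤ finrank K V) {x x' : V} (hx : x ≠ 0) (hx' : x' ≠ 0)
    (hxx : f x x = 0) (hxx' : f x' x' = 0) : ∃ g ∈ TGrp σ f, g x = x' := by
  obtain ⟨t, ht⟩ := u_exists_one h hx
  obtain ⟨t', ht'⟩ := u_exists_one h hx'
  obtain ⟨g, hg, -, e⟩ := trans_fix h hn (p := 0) hxx hxx' (h.zero_left _) (h.zero_left _)
    ⟨t, ht, h.zero_left _⟩ ⟨t', ht', h.zero_left _⟩
  exact ⟨g, hg, e⟩

/-- transitivity on independent totally isotropic pairs -/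
theorem u_trans_two (hn : 9 ≤ finrank K V) {x y x' y' : V} (hind : Ind K x y) (hxx : f x x = 0)
    (hyy : f y y = 0) (hxy : f x y = 0) (hind' : Ind K x' y') (hxx' : f x' x' = 0)
    (hyy' : f y' y' = 0) (hxy' : f x' y' = 0) : ∃ g ∈ TGrp σ f, g x = x' ∧ g y = y' := by
  obtain ⟨g₁, hg₁, e₁⟩ := u_trans_one h hn hind.left_ne hind'.left_ne hxx hxx'
  have hiso := TGrp_le_UGrp h hg₁
  set y₁ := g₁ y with hy₁
  have h1 : f x' y₁ = 0 := by rw [← e₁, hy₁, hiso, hxy]
  have h2 : f y₁ y₁ = 0 := by rw [hy₁, hiso, hyy]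
  have hind₁ : Ind K x' y₁ := by
    intro s t hst
    apply hind s t
    apply g₁.injective
    rw [map_add, map_smul, map_smul, e₁, map_zero]
    exact hst
  obtain ⟨t₁, a1, a2⟩ := u_exists_one_zero h hind₁.symm
  obtain ⟨t₂, b1, b2⟩ := u_exists_one_zero h hind'.symm
  obtain ⟨g₂, hg₂, e2, e2'⟩ := trans_fix h hn (p := x') h2 hyy' h1 hxy' ⟨t₁, a1, a2⟩ ⟨t₂, b1, b2⟩
  refine ⟨g₂ * g₁, Subgroup.mul_mem _ hg₂ hg₁, ?_, ?_⟩
  · rw [LinearEquiv.mul_apply, e₁, e2]
  · rw [LinearEquiv.mul_apply, ← hy₁, e2']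

end fin

end Cfsg.Agent.Lib.Helper99.SuSub
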