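import Mathlib
import Cfsg.Agent.Lib.Helper99.SuSubV0
import Cfsg.Agent.Lib.Helper99.SuSubCalc

set_option autoImplicit false
set_option linter.unusedSimpArgs false
set_option linter.unusedSectionVars false
set_option linter.unusedVariables false

/-! A hermitian space over `F` together with a form of it over a subfield `F₀`. -/

namespace Cfsg.Agent.Lib.Helper99.SuSub

open Module Cfsg.Agent.Lib.Helper95 Cfsg.Agent.Lib.Helper97 Cfsg.Agent.Lib.Helper99.SpSub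

/-- a hermitian `F`-space `V` with a rational structure `j : V₀ → V` over the subfield `F₀` -/
structure URS {F : Type*} [Field F] (F₀ : Subfield F) (V₀ V : Type*) [AddCommGroup V₀]
    [Module F₀ V₀] [AddCommGroup V] [Module F V] where
  σ : F ≃+* F
  σ₀ : F₀ ≃+* F₀
  σ_coe : ∀ c : F₀, σ (c : F) = (σ₀ c : F)
  f : V → V → F
  f₀ : V₀ → V₀ → F₀
  uf : UF σ f
  uf₀ : UF σ₀ f₀
  j : V₀ →+ V
  j_smul : ∀ (c : F₀) (x : V₀), j (c • x) = (c : F) • j x
  f_j : ∀ x y, f (j x) (j y) = (f₀ x y : F)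
  span : Submodule.span F (Set.range j) = ⊤

variable {F : Type*} [Field F] {F₀ : Subfield F} {V₀ V : Type*} [AddCommGroup V₀]
  [Module F₀ V₀] [AddCommGroup V] [Module F V] (D : URS F₀ V₀ V)

namespace URS

theorem f_j_zero {x y : V₀} (h : D.f₀ x y = 0) : D.f (D.j x) (D.j y) = 0 := by
  rw [D.f_j, h]; rfl

theorem f_j_one {x y : V₀} (h : D.f₀ x y = 1) : D.f (D.j x) (D.j y) = 1 := by
  rw [D.f_j, h]; rfl

theorem f_j_mem (x y : V₀) : D.f (D.j x) (D.j y) ∈ F₀ := by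
  rw [D.f_j]; exact (D.f₀ x y).2

theorem σ_mem {c : F} (hc : c ∈ F₀) : D.σ c ∈ F₀ := by
  have := D.σ_coe ⟨c, hc⟩
  simp only at this
  rw [this]
  exact (D.σ₀ ⟨c, hc⟩).2

theorem σ_mem_iff {c : F} : D.σ c ∈ F₀ ↔ c ∈ F₀ := by
  constructor
  · intro h
    have := D.σ_mem h
    rwa [D.uf.involutive] at this
  · exact D.σ_mem

theorem skew_coe {a : F₀} (ha : D.σ₀ a = -a) : D.σ (a : F) = -(a : F) := by
  rw [D.σ_coe, ha]; simp

theorem skew_of_coe {a : F₀} (ha : D.σ (a : F) = -(a : F)) : D.σ₀ a = -a := by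
  apply Subtype.ext
  rw [← D.σ_coe, ha]; simp

theorem zero_of_perp' {v : V} (h : ∀ x, D.f (D.j x) v = 0) : v = 0 := by
  apply D.uf.hat_eq_zero
  apply LinearMap.ext_on D.span
  rintro _ ⟨x, rfl⟩
  simpa using h x

theorem zero_of_perp {v : V} (h : ∀ x, D.f v (D.j x) = 0) : v = 0 :=
  D.zero_of_perp' (fun x => perp_comm D.uf (h x))

theorem j_inj {x : V₀} (h : D.j x = 0) : x = 0 := by
  by_contra hx
  obtain ⟨t, ht⟩ := u_exists_one D.uf₀ hx
  have := D.f_j_one ht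
  rw [h, D.uf.zero_left] at this
  exact zero_ne_one this

theorem j_ne {x : V₀} (h : x ≠ 0) : D.j x ≠ 0 := fun h0 => h (D.j_inj h0)

theorem j_injective : Function.Injective D.j := by
  intro x y hxy
  have : D.j (x - y) = 0 := by rw [map_sub, hxy, sub_self]
  exact sub_eq_zero.1 (D.j_inj this)

/-- a vector with rational products with all rational vectors is rational -/
theorem rat_of_forall [Finite F₀] [FiniteDimensional F₀ V₀] {v : V}
    (h : ∀ x, D.f (D.j x) v ∈ F₀) : ∃ v₀, v = D.j v₀ := by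
  let φ : V₀ →ₗ[F₀] F₀ :=
    { toFun := fun x => ⟨D.f (D.j x) v, h x⟩
      map_add' := by
        intro x y
        apply Subtype.ext
        simp [D.uf.add_left]
      map_smul' := by
        intro c x
        apply Subtype.ext
        simp [D.j_smul, D.uf.smul_left] }
  obtain ⟨w, hw⟩ := D.uf₀.exists_hat_eq φ
  refine ⟨w, ?_⟩
  have h0 : v + (-1 : F) • D.j w = 0 := by
    apply D.zero_of_perp'
    intro x
    rw [D.uf.add_right, D.uf.smul_right, D.f_j, map_neg, map_one]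
    have : D.f₀ x w = φ x := by rw [← hw]; rfl
    rw [this]
    simp [φ]
  have : v = (v + (-1 : F) • D.j w) + D.j w := by module
  rw [h0, zero_add] at this
  exact this

/-- `M` contains the rational transvections -/
def HasRat (M : Subgroup (V ≃ₗ[F] V)) : Prop :=
  ∀ x : V₀, D.f₀ x x = 0 → ∀ a : F₀, D.σ₀ a = -a → InM M (tvE D.uf (D.j x) (a : F))

variable {D} {M : Subgroup (V ≃ₗ[F] V)}

theorem HasRat.sE (hM : D.HasRat M) {w z : V₀} (hw : D.f₀ w w = 0) (hz : D.f₀ z z = 0)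
    (hwz : D.f₀ w z = 0) (k : F₀) : InM M (sE D.uf (k : F) (D.j w) (D.j z)) := by
  obtain ⟨ε, hε0, hε⟩ := exists_skew D.σ₀ D.uf₀.ne_refl D.uf₀.involutive
  have hε0' : (ε : F) ≠ 0 := by exact_mod_cast hε0
  have h1 := sE_eq_tv D.uf (D.f_j_zero hw) (D.f_j_zero hz) (D.f_j_zero hwz) (D.skew_coe hε)
    (((k / ε : F₀)) : F)
  have e1 : (ε : F) * ((k / ε : F₀) : F) = k := by
    push_cast
    field_simp
  rw [e1] at h1
  rw [← h1]
  have hiso : D.f₀ (w + (k / ε) • z) (w + (k / ε) • z) = 0 := by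
    rw [D.uf₀.add_left, D.uf₀.add_right, D.uf₀.add_right, D.uf₀.smul_left, D.uf₀.smul_left,
      D.uf₀.smul_right, D.uf₀.smul_right, hw, hz, hwz, perp_comm D.uf₀ hwz]
    ring
  refine InM.mul (InM.mul ?_ ?_) ?_
  · have := hM _ hiso ε hε
    rwa [map_add, D.j_smul] at this
  · have := hM _ hw (-ε) (by rw [map_neg, hε])
    simpa using this
  · have := hM _ hz (-(ε * ((k / ε) * D.σ₀ (k / ε)))) (by
      rw [map_neg, map_mul, map_mul, D.uf₀.involutive, hε]; ring)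
    simpa [D.σ_coe] using this

theorem HasRat.lift (hM : D.HasRat M) {g₀ : V₀ ≃ₗ[F₀] V₀} (hg : g₀ ∈ TGrp D.σ₀ D.f₀) :
    ∃ g ∈ M, ∀ x, g (D.j x) = D.j (g₀ x) := by
  unfold TGrp at hg
  induction hg using Subgroup.closure_induction with
  | mem t ht =>
    obtain ⟨v, a, hv, ha, hf⟩ := ht
    obtain ⟨g, hg, e⟩ := hM v hv a ha
    refine ⟨g, hg, fun x => ?_⟩
    rw [e, tvE_apply, hf, map_add, D.j_smul, D.f_j]
    simp
  | one => exact ⟨1, M.one_mem, fun x => by simp⟩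
  | mul a b _ _ iha ihb =>
    obtain ⟨g, hg, h1⟩ := iha
    obtain ⟨g', hg', h2⟩ := ihb
    exact ⟨g * g', M.mul_mem hg hg', fun x => by
      rw [LinearEquiv.mul_apply, LinearEquiv.mul_apply, h2, h1]⟩
  | inv a _ iha =>
    obtain ⟨g, hg, h1⟩ := iha
    refine ⟨g⁻¹, M.inv_mem hg, fun x => ?_⟩
    show g.symm _ = _
    rw [LinearEquiv.symm_apply_eq, h1]
    congr 1
    show x = a (a.symm x)
    simp

variable [Finite F₀] [FiniteDimensional F₀ V₀]

theorem HasRat.trans_one (hM : D.HasRat M) (hn : 9 ≤ finrank F₀ V₀) {x x' : V₀} (hx : x ≠ 0)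
    (hx' : x' ≠ 0) (hxx : D.f₀ x x = 0) (hxx' : D.f₀ x' x' = 0) :
    ∃ g ∈ M, g (D.j x) = D.j x' := by
  obtain ⟨g₀, hg₀, e⟩ := u_trans_one D.uf₀ hn hx hx' hxx hxx'
  obtain ⟨g, hg, h1⟩ := hM.lift hg₀
  exact ⟨g, hg, by rw [h1, e]⟩

theorem HasRat.trans_two (hM : D.HasRat M) (hn : 9 ≤ finrank F₀ V₀) {x y x' y' : V₀}
    (hind : Ind F₀ x y) (hxx : D.f₀ x x = 0) (hyy : D.f₀ y y = 0) (hxy : D.f₀ x y = 0)
    (hind' : Ind F₀ x' y') (hxx' : D.f₀ x' x' = 0) (hyy' : D.f₀ y' y' = 0)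
    (hxy' : D.f₀ x' y' = 0) : ∃ g ∈ M, g (D.j x) = D.j x' ∧ g (D.j y) = D.j y' := by
  obtain ⟨g₀, hg₀, e1, e2⟩ := u_trans_two D.uf₀ hn hind hxx hyy hxy hind' hxx' hyy' hxy'
  obtain ⟨g, hg, h1⟩ := hM.lift hg₀
  exact ⟨g, hg, by rw [h1, e1], by rw [h1, e2]⟩

variable (D)

/-- an additive property of rational vectors orthogonal to `w` follows from the isotropic case -/
theorem forall_of_iso (hn : 5 ≤ finrank F₀ V₀) (w : V₀) {P : V₀ → Prop}
    (hadd : ∀ x y, P x → P y → P (x + y))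
    (hiso : ∀ x, D.f₀ x x = 0 → D.f₀ x w = 0 → P x) (x : V₀) (hx : D.f₀ x w = 0) : P x := by
  obtain ⟨e₁, e₂, h1, h2, h3, h4, rfl⟩ := u_iso_decomp D.uf₀ ![w] (by omega) x (fun i => by
    fin_cases i; exact hx)
  exact hadd _ _ (hiso e₁ h1 (h3 0)) (hiso e₂ h2 (h4 0))

/-- a vector orthogonal to all rational isotropic vectors of `w^⊥` is a multiple of `w` -/
theorem smul_of_perp (hn : 5 ≤ finrank F₀ V₀) {w : V₀} (hw : w ≠ 0) {u : V}
    (h : ∀ x, D.f₀ x x = 0 → D.f₀ x w = 0 → D.f (D.j x) u = 0) : ∃ c : F, u = c • D.j w := by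
  have h' : ∀ x, D.f₀ x w = 0 → D.f (D.j x) u = 0 := by
    intro x hx
    refine D.forall_of_iso hn w (P := fun x => D.f (D.j x) u = 0) ?_ h x hx
    intro x y hx hy
    rw [map_add, D.uf.add_left, hx, hy, add_zero]
  obtain ⟨t, ht⟩ := u_exists_one D.uf₀ hw
  have htw : D.f₀ t w = 1 := by rw [D.uf₀.herm, ht, map_one]
  refine ⟨D.σ (D.f (D.j t) u), ?_⟩
  have h0 : u + (-D.σ (D.f (D.j t) u)) • D.j w = 0 := by
    apply D.zero_of_perp'
    intro x
    have h1 : D.f₀ (x + (-(D.f₀ x w)) • t) w = 0 := by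
      rw [D.uf₀.add_left, D.uf₀.smul_left, htw]; ring
    have h2 := h' _ h1
    rw [map_add, D.j_smul, D.uf.add_left, D.uf.smul_left] at h2
    rw [D.uf.add_right, D.uf.smul_right, map_neg, D.uf.involutive, D.f_j]
    push_cast at h2
    linear_combination h2
  have : u = (u + (-D.σ (D.f (D.j t) u)) • D.j w) + D.σ (D.f (D.j t) u) • D.j w := by module
  rw [h0, zero_add] at this
  exact this

end URS

end Cfsg.Agent.Lib.Helper99.SuSub
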