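import Mathlib
import Cfsg.Agent.Lib.Helper99.SuSubRS

set_option autoImplicit false
set_option linter.unusedSimpArgs false
set_option linter.unusedSectionVars false
set_option linter.unusedVariables false

/-! Overgroups of the rational special unitary group: the coefficient field of the short root
elements. -/

namespace Cfsg.Agent.Lib.Helper99.SuSub

open Module Cfsg.Agent.Lib.Helper95 Cfsg.Agent.Lib.Helper97 Cfsg.Agent.Lib.Helper99.SpSub

variable {F : Type*} [Field F] {F₀ : Subfield F} {V₀ V : Type*} [AddCommGroup V₀]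
  [Module F₀ V₀] [AddCommGroup V] [Module F V] {D : URS F₀ V₀ V} {M : Subgroup (V ≃ₗ[F] V)}

/-- an independent totally isotropic pair of rational vectors -/
structure TIP (D : URS F₀ V₀ V) (x y : V₀) : Prop where
  xx : D.f₀ x x = 0
  yy : D.f₀ y y = 0
  xy : D.f₀ x y = 0
  ind : Ind F₀ x y

theorem TIP.symm {x y : V₀} (h : TIP D x y) : TIP D y x :=
  ⟨h.yy, h.xx, perp_comm D.uf₀ h.xy, h.ind.symm⟩

theorem TIP.of_form {x y t : V₀} (hx : x ≠ 0) (hxx : D.f₀ x x = 0) (hyy : D.f₀ y y = 0)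
    (hxy : D.f₀ x y = 0) (h1 : D.f₀ y t ≠ 0) (h2 : D.f₀ x t = 0) : TIP D x y :=
  ⟨hxx, hyy, hxy, u_ind_of_form D.uf₀ hx h1 h2⟩

/-- `δ` is a coefficient of short root elements of `M` -/
def Sh (D : URS F₀ V₀ V) (M : Subgroup (V ≃ₗ[F] V)) (δ : F) : Prop :=
  ∀ x y : V₀, TIP D x y → InM M (sE D.uf δ (D.j x) (D.j y))

/-- `a` is a coefficient of rational transvections of `M` -/
def Tv (D : URS F₀ V₀ V) (M : Subgroup (V ≃ₗ[F] V)) (a : F) : Prop :=
  ∀ x : V₀, D.f₀ x x = 0 → InM M (tvE D.uf (D.j x) a)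

theorem Sh_rat (hM : D.HasRat M) {c : F} (hc : c ∈ F₀) : Sh D M c := by
  intro x y h
  exact hM.sE h.xx h.yy h.xy ⟨c, hc⟩

theorem Sh_add {a b : F} (ha : Sh D M a) (hb : Sh D M b) : Sh D M (a + b) := by
  intro x y h
  rw [sE_add D.uf (D.f_j_zero h.xx) (D.f_j_zero h.yy) (D.f_j_zero h.xy)]
  exact (ha x y h).mul (hb x y h)

theorem sE_neg_mem {x y : V₀} (h : TIP D x y) {a : F}
    (ha : InM M (sE D.uf (-a) (D.j x) (D.j y))) : InM M (sE D.uf a (D.j x) (D.j y)) := by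
  have h1 := sE_add D.uf (D.f_j_zero h.xx) (D.f_j_zero h.yy) (D.f_j_zero h.xy) a (-a)
  rw [add_neg_cancel, sE_zero] at h1
  exact InM.of_mul_left h1 InM.one ha

theorem Sh_neg {a : F} (ha : Sh D M a) : Sh D M (-a) := by
  intro x y h
  apply sE_neg_mem h
  rw [neg_neg]
  exact ha x y h

theorem Tv_neg {a : F} (ha : Tv D M a) : Tv D M (-a) := by
  intro x hx
  have h1 := tvE_mul D.uf (D.f_j_zero hx) (-a) a
  rw [neg_add_cancel, tvE_zero_right] at h1
  exact InM.of_mul_left h1.symm InM.one (ha x hx)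

theorem Tv_add {a b : F} (ha : Tv D M a) (hb : Tv D M b) : Tv D M (a + b) := by
  intro x hx
  rw [← tvE_mul D.uf (D.f_j_zero hx)]
  exact (ha x hx).mul (hb x hx)

theorem Sh_of_Tv {a : F} (hs : D.σ a = -a) (ha : Tv D M a) : Sh D M a := by
  intro x y h
  have h1 := sE_eq_tv D.uf (D.f_j_zero h.xx) (D.f_j_zero h.yy) (D.f_j_zero h.xy) hs 1
  rw [mul_one, one_smul, map_one, mul_one, mul_one, ← map_add] at h1
  rw [← h1]
  have hiso : D.f₀ (x + y) (x + y) = 0 := by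
    rw [D.uf₀.add_left, D.uf₀.add_right, D.uf₀.add_right, h.xx, h.yy, h.xy,
      perp_comm D.uf₀ h.xy]
    ring
  exact ((ha _ hiso).mul (Tv_neg ha _ h.xx)).mul (Tv_neg ha _ h.yy)

variable [Finite F₀] [FiniteDimensional F₀ V₀]

theorem Sh_of_one (hM : D.HasRat M) (hMi : M ≤ UGrp D.f) (hn : 9 ≤ finrank F₀ V₀) {x y : V₀}
    (h : TIP D x y) {δ : F} (hδ : InM M (sE D.uf δ (D.j x) (D.j y))) : Sh D M δ := by
  intro x' y' h'
  obtain ⟨g, hg, e1, e2⟩ := hM.trans_two hn h.ind h.xx h.yy h.xy h'.ind h'.xx h'.yy h'.xy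
  rw [← e1, ← e2]
  exact hδ.conj hg (sE_conj D.uf (hMi hg) _ _ _)

theorem Tv_of_one (hM : D.HasRat M) (hMi : M ≤ UGrp D.f) (hn : 9 ≤ finrank F₀ V₀) {x : V₀}
    (hx : x ≠ 0) (hxx : D.f₀ x x = 0) {a : F} (ha : InM M (tvE D.uf (D.j x) a)) : Tv D M a := by
  intro x' hxx'
  by_cases hx' : x' = 0
  · rw [hx', map_zero, tvE_zero_left]; exact InM.one
  · obtain ⟨g, hg, e⟩ := hM.trans_one hn hx hx' hxx hxx'
    rw [← e]
    exact ha.conj hg (tvE_conj D.uf (hMi hg) _ _)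

theorem Sh_mul (hM : D.HasRat M) (hMi : M ≤ UGrp D.f) (hn : 9 ≤ finrank F₀ V₀) {a b : F}
    (ha : Sh D M a) (hb : Sh D M b) : Sh D M (a * b) := by
  intro w z h
  obtain ⟨e, e', hee, hee', hef, hv⟩ := u_exists_hyp D.uf₀ ![w, z] (by omega)
  have hwe : D.f₀ w e = 0 := (hv 0).1
  have hwe' : D.f₀ w e' = 0 := (hv 0).2
  have hze : D.f₀ z e = 0 := (hv 1).1
  have hze' : D.f₀ z e' = 0 := (hv 1).2
  have hfe : D.f₀ e' e ≠ 0 := by
    rw [D.uf₀.herm, hef, map_one]; exact one_ne_zero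
  obtain ⟨g, hg, eg⟩ := ha w e' (TIP.of_form h.ind.left_ne h.xx hee' hwe' hfe hwe)
  have hs := hb e z (TIP.of_form h.ind.right_ne h.yy hee hze
    (by rw [hef]; exact one_ne_zero) hze').symm
  have hc := hs.conj hg (sE_conj D.uf (hMi hg) _ _ _)
  have e1 : g (D.j e) = D.j e + (-D.σ a) • D.j w := by
    rw [eg, sE_apply, D.f_j_zero (perp_comm D.uf₀ hwe), D.f_j_one hef]
    module
  have e2 : g (D.j z) = D.j z := by
    rw [eg, sE_apply, D.f_j_zero (perp_comm D.uf₀ h.xy), D.f_j_zero hze']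
    module
  rw [e1, e2, sE_add_left D.uf (D.f_j_zero h.yy) (D.f_j_zero (perp_comm D.uf₀ hze))
    (D.f_j_zero h.xy) (D.f_j_zero (perp_comm D.uf₀ hwe)) (D.f_j_zero h.xx) (D.f_j_zero hee)] at hc
  have h2 := InM.of_mul_right rfl hc hs
  apply sE_neg_mem h
  have e3 : b * D.σ (-D.σ a) = -(a * b) := by
    rw [map_neg, D.uf.involutive]; ring
  rwa [e3] at h2

theorem Sh_pow (hM : D.HasRat M) (hMi : M ≤ UGrp D.f) (hn : 9 ≤ finrank F₀ V₀) {a : F}
    (ha : Sh D M a) (n : ℕ) : Sh D M (a ^ n) := by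
  induction n with
  | zero => simpa using Sh_rat hM F₀.one_mem
  | succ k ih => rw [pow_succ]; exact Sh_mul hM hMi hn ih ha

/-- the coefficient field -/
def ShField [Fintype F] (hM : D.HasRat M) (hMi : M ≤ UGrp D.f) (hn : 9 ≤ finrank F₀ V₀) :
    Subfield F where
  carrier := {δ | Sh D M δ}
  mul_mem' := Sh_mul hM hMi hn
  one_mem' := Sh_rat hM F₀.one_mem
  add_mem' := Sh_add
  zero_mem' := Sh_rat hM F₀.zero_mem
  neg_mem' := Sh_neg
  inv_mem' := by
    intro c hc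
    by_cases h0 : c = 0
    · rw [h0, _root_.inv_zero]; exact Sh_rat hM F₀.zero_mem
    · have h1 : c ^ (Fintype.card F - 1) = 1 := FiniteField.pow_card_sub_one_eq_one c h0
      have h2 : 2 ≤ Fintype.card F := Fintype.one_lt_card
      have h4 : c⁻¹ = c ^ (Fintype.card F - 2) := by
        apply inv_eq_of_mul_eq_one_left
        rw [← pow_succ]
        have : Fintype.card F - 2 + 1 = Fintype.card F - 1 := by omega
        rw [this, h1]
      rw [h4]
      exact Sh_pow hM hMi hn hc _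

theorem Tv_norm (hM : D.HasRat M) (hMi : M ≤ UGrp D.f) (hn : 9 ≤ finrank F₀ V₀) {a : F}
    (ha : Sh D M a) {c : F₀} (hc : D.σ₀ c = -c) : Tv D M ((c : F) * (a * D.σ a)) := by
  intro w hww
  by_cases hw : w = 0
  · rw [hw, map_zero, tvE_zero_left]; exact InM.one
  obtain ⟨e, e', hee, hee', hef, hv⟩ := u_exists_hyp D.uf₀ ![w] (by omega)
  have hwe : D.f₀ w e = 0 := (hv 0).1
  have hwe' : D.f₀ w e' = 0 := (hv 0).2
  have hfe : D.f₀ e' e ≠ 0 := by
    rw [D.uf₀.herm, hef, map_one]; exact one_ne_zero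
  obtain ⟨g, hg, eg⟩ := ha w e' (TIP.of_form hw hww hee' hwe' hfe hwe)
  have ht := hM e hee c hc
  have hcj := ht.conj hg (tvE_conj D.uf (hMi hg) _ _)
  have e1 : g (D.j e) = D.j e + (-D.σ a) • D.j w := by
    rw [eg, sE_apply, D.f_j_zero (perp_comm D.uf₀ hwe), D.f_j_one hef]
    module
  rw [e1, tvE_add_smul D.uf (D.f_j_zero hee) (D.f_j_zero hww)
    (D.f_j_zero (perp_comm D.uf₀ hwe)) (D.skew_coe hc)] at hcj
  have hTIP : TIP D w e := TIP.of_form hw hww hee hwe (by rw [hef]; exact one_ne_zero) hwe'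
  have hs : InM M (sE D.uf ((c : F) * D.σ (-D.σ a)) (D.j w) (D.j e)) := by
    have e3 : (c : F) * D.σ (-D.σ a) = -((c : F) * a) := by
      rw [map_neg, D.uf.involutive]; ring
    rw [e3]
    exact Sh_neg (Sh_mul hM hMi hn (Sh_rat hM c.2) ha) w e hTIP
  have h1 := InM.of_mul_left rfl hcj hs
  have h2 := InM.of_mul_right rfl h1 ht
  have e4 : (c : F) * (-D.σ a * D.σ (-D.σ a)) = (c : F) * (a * D.σ a) := by
    rw [map_neg, D.uf.involutive]; ring
  rwa [e4] at h2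

theorem Tv_all [Finite F] (hM : D.HasRat M) (hMi : M ≤ UGrp D.f) (hn : 9 ≤ finrank F₀ V₀)
    (h : ∀ a, Sh D M a) {s : F} (hs : D.σ s = -s) : Tv D M s := by
  obtain ⟨ε, hε0, hε⟩ := exists_skew D.σ₀ D.uf₀.ne_refl D.uf₀.involutive
  have hε0' : (ε : F) ≠ 0 := by exact_mod_cast hε0
  obtain ⟨l, hl⟩ := exists_norm D.σ D.uf.ne_refl D.uf.involutive (s / ε) (by
    rw [map_div₀, hs, D.skew_coe hε]; field_simp)
  have := Tv_norm hM hMi hn (h l) hε
  rw [hl] at this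
  have e : (ε : F) * (s / ε) = s := by field_simp
  rwa [e] at this

end Cfsg.Agent.Lib.Helper99.SuSub
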