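import Mathlib
import Cfsg.Agent.Lib.Helper99.SuSubRing

set_option autoImplicit false
set_option linter.unusedSimpArgs false
set_option linter.unusedSectionVars false
set_option linter.unusedVariables false

/-! Overgroups of the rational special unitary group with rational coefficient field:
transvections whose centre is orthogonal to a rational isotropic vector have a rational centre. -/

namespace Cfsg.Agent.Lib.Helper99.SuSub

open Module Cfsg.Agent.Lib.Helper95 Cfsg.Agent.Lib.Helper97 Cfsg.Agent.Lib.Helper99.SpSub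

variable {F : Type*} [Field F] {F₀ : Subfield F} {V₀ V : Type*} [AddCommGroup V₀]
  [Module F₀ V₀] [AddCommGroup V] [Module F V] {D : URS F₀ V₀ V} {M : Subgroup (V ≃ₗ[F] V)}

variable [Finite F₀] [FiniteDimensional F₀ V₀]

theorem Q_rat (hM : D.HasRat M) (hMi : M ≤ UGrp D.f) (hK : ∀ δ, Sh D M δ → δ ∈ F₀)
    (hn : 9 ≤ finrank F₀ V₀) {w : V₀} (hw : w ≠ 0) (hww : D.f₀ w w = 0) {y : V}
    (hyw : D.f y (D.j w) = 0) {a : F} (hq : InM M (qE D.uf (D.j w) y a)) {x : V₀}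
    (hxx : D.f₀ x x = 0) (hxw : D.f₀ x w = 0) : D.f (D.j x) y ∈ F₀ := by
  by_cases hx : ∃ c : F₀, x = c • w
  · obtain ⟨c, rfl⟩ := hx
    rw [D.j_smul, D.uf.smul_left, perp_comm D.uf hyw, mul_zero]
    exact F₀.zero_mem
  push Not at hx
  have hind : Ind F₀ x w := ind_of_ne_smul hw hx
  have hwx : D.f₀ w x = 0 := perp_comm D.uf₀ hxw
  obtain ⟨t, htt, hxt, hwt⟩ := u_exists_dual_iso D.uf₀ hind hxx hwx
  obtain ⟨x₃, x₃', h33, -, hef, hv⟩ := u_exists_hyp D.uf₀ ![w, x, t] (by omega)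
  have hw3 : D.f₀ w x₃ = 0 := (hv 0).1
  have hw3' : D.f₀ w x₃' = 0 := (hv 0).2
  have hx3 : D.f₀ x x₃ = 0 := (hv 1).1
  have ht3 : D.f₀ t x₃ = 0 := (hv 2).1
  obtain ⟨ε, hε0, hε⟩ := exists_skew D.σ₀ D.uf₀.ne_refl D.uf₀.involutive
  have hε0' : (ε : F) ≠ 0 := by exact_mod_cast hε0
  obtain ⟨δ, hδ⟩ : ∃ δ, δ = (ε : F) * D.f y (D.j x) := ⟨_, rfl⟩
  have W0 := D.f_j_zero hww
  -- conjugate by the rational transvection with centre `x`
  obtain ⟨g₁, hg₁, eg₁⟩ := hM x hxx ε hε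
  have hA := hq.conj hg₁ (qE_conj D.uf (hMi hg₁) _ _ _)
  have e1 : g₁ (D.j w) = D.j w := by
    rw [eg₁, tvE_apply, D.f_j_zero hwx]; simp
  have e2 : g₁ y = δ • D.j x + y := by
    rw [eg₁, tvE_apply, ← hδ, add_comm]
  rw [e1, e2] at hA
  have hq₁ : InM M (qE D.uf (D.j w) (δ • D.j x) (D.f y (δ • D.j x))) := by
    have hm := qE_mul D.uf W0 (y := δ • D.j x) (y' := y)
      (by rw [D.uf.smul_left, D.f_j_zero hxw, mul_zero]) hyw (D.f y (δ • D.j x)) a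
    have e3 : D.f y (δ • D.j x) + a + -(D.f y (δ • D.j x)) = a := by ring
    rw [e3] at hm
    exact InM.of_mul_left hm.symm hA hq
  -- conjugate by a rational short root element
  obtain ⟨g₂, hg₂, eg₂⟩ := hM.sE h33 htt (perp_comm D.uf₀ ht3) 1
  have hB := hq₁.conj hg₂ (qE_conj D.uf (hMi hg₂) _ _ _)
  have e4 : g₂ (D.j w) = D.j w := by
    rw [eg₂, sE_apply, D.f_j_zero hw3, D.f_j_zero hwt]; simp
  have e5 : g₂ (δ • D.j x) = (-δ) • D.j x₃ + δ • D.j x := by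
    rw [map_smul, eg₂, sE_apply, D.f_j_zero hx3, D.f_j_one hxt]
    simp only [OneMemClass.coe_one, map_one]
    module
  rw [e4, e5] at hB
  have hq₂ : InM M (qE D.uf (D.j w) ((-δ) • D.j x₃) 0) := by
    have hm := qE_mul D.uf W0 (y := (-δ) • D.j x₃) (y' := δ • D.j x)
      (by rw [D.uf.smul_left, D.f_j_zero (perp_comm D.uf₀ hw3), mul_zero])
      (by rw [D.uf.smul_left, D.f_j_zero hxw, mul_zero]) 0 (D.f y (δ • D.j x))
    have e6 : D.f (δ • D.j x) ((-δ) • D.j x₃) = 0 := by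
      rw [D.uf.smul_left, D.uf.smul_right, D.f_j_zero hx3]; ring
    rw [e6, neg_zero, add_zero, zero_add] at hm
    exact InM.of_mul_left hm.symm hB hq₁
  have hT : TIP D x₃ w := (TIP.of_form hw hww h33 hw3 (by rw [hef]; exact one_ne_zero) hw3').symm
  have hs : InM M (sE D.uf (D.σ δ) (D.j x₃) (D.j w)) := by
    rw [sE_eq_qE, D.uf.involutive]; exact hq₂
  have h1 : δ ∈ F₀ := D.σ_mem_iff.1 (hK _ (Sh_of_one hM hMi hn hT hs))
  have h2 : D.f y (D.j x) ∈ F₀ := by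
    have : D.f y (D.j x) = δ / ε := by rw [hδ]; field_simp
    rw [this]
    exact F₀.div_mem h1 ε.2
  rw [D.uf.herm]
  exact D.σ_mem h2

theorem Q_rat' (hM : D.HasRat M) (hMi : M ≤ UGrp D.f) (hK : ∀ δ, Sh D M δ → δ ∈ F₀)
    (hn : 9 ≤ finrank F₀ V₀) {w : V₀} (hw : w ≠ 0) (hww : D.f₀ w w = 0) {y : V}
    (hyw : D.f y (D.j w) = 0) {a : F} (hq : InM M (qE D.uf (D.j w) y a)) :
    ∃ (y₀ : V₀) (μ : F), y = D.j y₀ + μ • D.j w := by
  have hall : ∀ x, D.f₀ x w = 0 → D.f (D.j x) y ∈ F₀ := by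
    intro x hx
    refine D.forall_of_iso (by omega) w (P := fun x => D.f (D.j x) y ∈ F₀) ?_ ?_ x hx
    · intro x x' h1 h2
      rw [map_add, D.uf.add_left]
      exact F₀.add_mem h1 h2
    · intro x hxx hxw
      exact Q_rat hM hMi hK hn hw hww hyw hq hxx hxw
  obtain ⟨t, hwt⟩ := u_exists_one D.uf₀ hw
  have htw : D.f₀ t w = 1 := by rw [D.uf₀.herm, hwt, map_one]
  obtain ⟨μ, hμ⟩ : ∃ μ, μ = D.σ (D.f (D.j t) y) := ⟨_, rfl⟩
  have key : ∀ x, D.f (D.j x) (y + (-μ) • D.j w) ∈ F₀ := by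
    intro x
    have h1 : D.f₀ (x + (-(D.f₀ x w)) • t) w = 0 := by
      rw [D.uf₀.add_left, D.uf₀.smul_left, htw]; ring
    have h2 := hall _ h1
    have e : D.f (D.j x) (y + (-μ) • D.j w) = D.f (D.j (x + (-(D.f₀ x w)) • t)) y := by
      rw [map_add, D.j_smul, D.uf.add_left, D.uf.smul_left, D.uf.add_right, D.uf.smul_right,
        map_neg, hμ, D.uf.involutive, D.f_j]
      push_cast
      ring
    rw [e]; exact h2
  obtain ⟨y₀, hy₀⟩ := D.rat_of_forall key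
  exact ⟨y₀, μ, by rw [← hy₀]; module⟩

theorem A_step (hM : D.HasRat M) (hMi : M ≤ UGrp D.f) (hK : ∀ δ, Sh D M δ → δ ∈ F₀)
    (hn : 9 ≤ finrank F₀ V₀) {u : V} (huu : D.f u u = 0) {c : F} (hc : c ≠ 0)
    (hcs : D.σ c = -c) (hz : InM M (tvE D.uf u c)) {w : V₀} (hw : w ≠ 0) (hww : D.f₀ w w = 0)
    (huw : D.f u (D.j w) = 0) :
    ∃ (l : F) (y₀ : V₀) (μ : F), l ≠ 0 ∧ l • u = D.j y₀ + μ • D.j w := by
  by_cases hall : ∀ x, D.f₀ x x = 0 → D.f₀ x w = 0 → D.f (D.j x) u = 0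
  · obtain ⟨c', hc'⟩ := D.smul_of_perp (by omega) hw hall
    exact ⟨1, 0, c', one_ne_zero, by rw [one_smul, map_zero, zero_add, hc']⟩
  push Not at hall
  obtain ⟨w₂, h22, h2w, hne⟩ := hall
  obtain ⟨β, hβ⟩ : ∃ β, β = -(D.f u (D.j w₂)) := ⟨_, rfl⟩
  have hβ0 : β ≠ 0 := by
    rw [hβ, neg_ne_zero]
    intro h0
    exact hne (perp_comm D.uf h0)
  obtain ⟨g, hg, eg⟩ := hM.sE hww h22 (perp_comm D.uf₀ h2w) 1
  have h1 := hz.conj hg (tvE_conj D.uf (hMi hg) _ _)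
  have e1 : g u = u + β • D.j w := by
    rw [eg, sE_apply, huw, hβ]
    simp only [OneMemClass.coe_one, map_one]
    module
  rw [e1] at h1
  have h2 : InM M (tvE D.uf u (-c)) := by
    have hm := tvE_mul D.uf huu (-c) c
    rw [neg_add_cancel, tvE_zero_right] at hm
    exact InM.of_mul_left hm.symm InM.one hz
  have h3 := h2.mul h1
  rw [tvE_comm_eq D.uf huu (D.f_j_zero hww) huw hcs] at h3
  obtain ⟨y₀, μ, hy⟩ := Q_rat' hM hMi hK hn hw hww (y := (c * D.σ β) • u)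
    (by rw [D.uf.smul_left, huw, mul_zero]) h3
  refine ⟨c * D.σ β, y₀, μ, mul_ne_zero hc ?_, hy⟩
  rw [map_ne_zero]; exact hβ0

/-- **Theorem A.** -/
theorem A_main (hM : D.HasRat M) (hMi : M ≤ UGrp D.f) (hK : ∀ δ, Sh D M δ → δ ∈ F₀)
    (hn : 11 ≤ finrank F₀ V₀) {u : V} (huu : D.f u u = 0) {c : F} (hc : c ≠ 0)
    (hcs : D.σ c = -c) (hz : InM M (tvE D.uf u c)) {w : V₀} (hw : w ≠ 0) (hww : D.f₀ w w = 0)
    (huw : D.f u (D.j w) = 0) : ∃ (l : F) (x : V₀), u = l • D.j x := by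
  obtain ⟨l, y₀, μ, hl, hu⟩ := A_step hM hMi hK (by omega) huu hc hcs hz hw hww huw
  have hu' : u = l⁻¹ • (D.j y₀ + μ • D.j w) := by
    rw [← hu, smul_smul, inv_mul_cancel₀ hl, one_smul]
  by_cases hμ : μ ∈ F₀
  · refine ⟨l⁻¹, y₀ + (⟨μ, hμ⟩ : F₀) • w, ?_⟩
    rw [map_add, D.j_smul]; exact hu'
  by_cases hdep : ∃ c' : F₀, y₀ = c' • w
  · obtain ⟨c', rfl⟩ := hdep
    refine ⟨l⁻¹ * (c' + μ), w, ?_⟩
    rw [hu', D.j_smul]; module
  exfalso
  push Not at hdep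
  have hind : Ind F₀ y₀ w := ind_of_ne_smul hw hdep
  obtain ⟨x₁, hy1, hw1⟩ := u_exists_one_zero D.uf₀ hind
  obtain ⟨x₂, hw2, hy2⟩ := u_exists_one_zero D.uf₀ hind.symm
  obtain ⟨w', f', hw'w', -, hef, hv⟩ := u_exists_hyp D.uf₀ ![y₀, w, x₁, x₂] (by omega)
  have hyw' : D.f₀ y₀ w' = 0 := (hv 0).1
  have hww' : D.f₀ w w' = 0 := (hv 1).1
  have h1w' : D.f₀ x₁ w' = 0 := (hv 2).1
  have h2w' : D.f₀ x₂ w' = 0 := (hv 3).1
  have hw'0 : w' ≠ 0 := by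
    rintro rfl
    rw [D.uf₀.zero_left] at hef
    exact zero_ne_one hef
  have huw' : D.f u (D.j w') = 0 := by
    rw [hu', D.uf.smul_left, D.uf.add_left, D.uf.smul_left, D.f_j_zero hyw', D.f_j_zero hww']
    ring
  obtain ⟨l', y₀', μ', hl', hu2⟩ := A_step hM hMi hK (by omega) huu hc hcs hz hw'0 hw'w' huw'
  have hcomb : l' • (D.j y₀ + μ • D.j w) = l • (D.j y₀' + μ' • D.j w') := by
    rw [← hu, ← hu2, smul_smul, smul_smul, mul_comm]
  have c1 := congrArg (fun v => D.f v (D.j x₁)) hcomb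
  have c2 := congrArg (fun v => D.f v (D.j x₂)) hcomb
  simp only [D.uf.add_left, D.uf.smul_left, D.f_j_one hy1, D.f_j_zero hw1,
    D.f_j_zero (perp_comm D.uf₀ h1w'), mul_zero, add_zero, mul_one] at c1
  simp only [D.uf.add_left, D.uf.smul_left, D.f_j_one hw2, D.f_j_zero hy2,
    D.f_j_zero (perp_comm D.uf₀ h2w'), mul_zero, add_zero, mul_one, zero_add] at c2
  have hk1 : D.f (D.j y₀') (D.j x₁) ≠ 0 := by
    intro h0
    rw [h0, mul_zero] at c1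
    exact hl' c1
  apply hμ
  have : μ = D.f (D.j y₀') (D.j x₂) / D.f (D.j y₀') (D.j x₁) := by
    rw [eq_div_iff hk1]
    have : l * (μ * D.f (D.j y₀') (D.j x₁)) = l * D.f (D.j y₀') (D.j x₂) := by
      rw [← c2, c1]; ring
    exact mul_left_cancel₀ hl this
  rw [this]
  exact F₀.div_mem (D.f_j_mem _ _) (D.f_j_mem _ _)

end Cfsg.Agent.Lib.Helper99.SuSub
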