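import Mathlib
import Cfsg.Agent.Lib.Helper99.SuSubA
import Cfsg.Agent.Lib.Helper99.SpSubB

set_option autoImplicit false
set_option linter.unusedSimpArgs false
set_option linter.unusedSectionVars false
set_option linter.unusedVariables false

/-! Overgroups of the rational special unitary group with rational coefficient field: there is no
transvection whose centre is orthogonal to no rational isotropic vector. -/

namespace Cfsg.Agent.Lib.Helper99.SuSub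

open Module Cfsg.Agent.Lib.Helper95 Cfsg.Agent.Lib.Helper97 Cfsg.Agent.Lib.Helper99.SpSub
  Cfsg.Agent.Lib.Helper46 Cfsg.Agent.Lib.Helper7 Matrix

variable {F : Type*} [Field F] {F₀ : Subfield F} {V₀ V : Type*} [AddCommGroup V₀]
  [Module F₀ V₀] [AddCommGroup V] [Module F V] {D : URS F₀ V₀ V} {M : Subgroup (V ≃ₗ[F] V)}

/-- the configuration used in the generic case -/
structure UCfg (D : URS F₀ V₀ V) (u : V) (e₁ f₁ e₂ f₂ : V₀) (c₁ c₂ τ : F) : Prop where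
  e1e1 : D.f₀ e₁ e₁ = 0
  e2e2 : D.f₀ e₂ e₂ = 0
  f1f1 : D.f₀ f₁ f₁ = 0
  f2f2 : D.f₀ f₂ f₂ = 0
  ef1 : D.f₀ e₁ f₁ = 1
  ef2 : D.f₀ e₂ f₂ = 1
  ee : D.f₀ e₁ e₂ = 0
  e1f2 : D.f₀ e₁ f₂ = 0
  f1e2 : D.f₀ f₁ e₂ = 0
  f1f2 : D.f₀ f₁ f₂ = 0
  hc₁ : D.f (D.j e₁) u = c₁
  hc₂ : D.f (D.j e₂) u = c₂
  c0 : c₁ ≠ 0
  hτ : c₂ = τ * c₁

/-- an element of `M` inducing an upper unitriangular matrix has a restricted parameter -/
theorem param_restricted [Fintype F] [FiniteDimensional F₀ V₀] (hM : D.HasRat M)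
    (hMi : M ≤ UGrp D.f) (hK : ∀ δ, Sh D M δ → δ ∈ F₀)
    (hdich : ∀ K : Subfield F, F₀ ≤ K → K = F₀ ∨ K = ⊤) (hn : 11 ≤ finrank F₀ V₀)
    (h4 : 4 ≤ finrank F₀ F) {u : V} {e₁ f₁ e₂ f₂ : V₀} {c₁ c₂ τ : F}
    (C : UCfg D u e₁ f₁ e₂ f₂ c₁ c₂ τ) (hτ : τ ∉ F₀) {a : V ≃ₗ[F] V} (haM : a ∈ M)
    (aL : ∀ x, a x - x ∈ Submodule.span F {u, D.j e₁, D.j e₂})
    (ar : a (c₂ • D.j e₁ + (-c₁) • D.j e₂) = c₂ • D.j e₁ + (-c₁) • D.j e₂) {ρ ρ' s : F}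
    (ay : a (D.j e₁) = D.j e₁ + ρ • (c₂ • D.j e₁ + (-c₁) • D.j e₂))
    (au : a u = s • D.j e₁ + u + ρ' • (c₂ • D.j e₁ + (-c₁) • D.j e₂)) :
    ∃ k₀ ∈ F₀, ∃ k₁ ∈ F₀, ∃ k₂ ∈ F₀, ∃ k₃ ∈ F₀,
      s = D.σ c₁ * (k₀ + k₁ * τ + k₂ * D.σ τ + k₃ * (τ * D.σ τ)) := by
  have hai := hMi haM
  have E11 := D.f_j_one C.ef1
  have E22 := D.f_j_one C.ef2
  have E12 := D.f_j_zero C.ee
  have E21 := D.f_j_zero (perp_comm D.uf₀ C.ee)
  have E1f2 := D.f_j_zero C.e1f2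
  have Ef1e2 := D.f_j_zero C.f1e2
  have E2f1 := D.f_j_zero (perp_comm D.uf₀ C.f1e2)
  have Z1 := D.f_j_zero C.e1e1
  have Z2 := D.f_j_zero C.e2e2
  have he₁0 : e₁ ≠ 0 := by
    rintro rfl
    have := C.ef1
    rw [D.uf₀.zero_left] at this
    exact zero_ne_one this
  have he₂0 : e₂ ≠ 0 := by
    rintro rfl
    have := C.ef2
    rw [D.uf₀.zero_left] at this
    exact zero_ne_one this
  have hc0 := C.c0
  have hcτ := C.hτ
  have hτ0 : τ ≠ 0 := fun h0 => hτ (h0 ▸ F₀.zero_mem)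
  obtain ⟨ε, hε0, hε⟩ := exists_skew D.σ₀ D.uf₀.ne_refl D.uf₀.involutive
  have hε0' : (ε : F) ≠ 0 := by exact_mod_cast hε0
  -- images of rational isotropic vectors
  have pt : ∀ x w : V₀, D.f₀ x x = 0 → w ≠ 0 → D.f₀ w w = 0 → D.f (a (D.j x)) (D.j w) = 0 →
      ∃ (l : F) (x' : V₀), a (D.j x) = l • D.j x' := by
    intro x w hxx hw hww hperp
    have h1 := (hM x hxx ε hε).conj haM (tvE_conj D.uf hai _ _)
    exact A_main hM hMi hK hn (by rw [hai, D.f_j_zero hxx]) hε0' (D.skew_coe hε) h1 hw hww hperp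
  have h2m : (2 : F) ∈ F₀ := by
    have := F₀.add_mem F₀.one_mem F₀.one_mem
    rwa [one_add_one_eq_two] at this
  -- step 1 : `ρ = 0`
  have hρ : ρ = 0 := by
    by_contra hρ0
    obtain ⟨θ, hθ⟩ : ∃ θ, θ = ρ * c₁ := ⟨_, rfl⟩
    have hθ0 : θ ≠ 0 := by rw [hθ]; exact mul_ne_zero hρ0 hc0
    have a1 : a (D.j e₁) = (1 + θ * τ) • D.j e₁ + (-θ) • D.j e₂ := by
      rw [ay, hcτ, hθ]; module
    have a2 : a (D.j e₂) = (θ * τ ^ 2) • D.j e₁ + (1 - θ * τ) • D.j e₂ := by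
      have h1 := ar
      rw [map_add, map_smul, map_smul, a1] at h1
      have h2 : c₁ • a (D.j e₂) = c₁ • ((θ * τ ^ 2) • D.j e₁ + (1 - θ * τ) • D.j e₂) := by
        have h3 : c₁ • a (D.j e₂) = c₂ • ((1 + θ * τ) • D.j e₁ + (-θ) • D.j e₂) -
            (c₂ • D.j e₁ + (-c₁) • D.j e₂) := by
          rw [← h1]; module
        rw [h3, hcτ]; module
      exact smul_right_injective V hc0 h2
    have a3 : a (D.j (e₁ + e₂)) = (1 + θ * τ + θ * τ ^ 2) • D.j e₁ + (1 - θ * τ - θ) • D.j e₂ := by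
      rw [map_add, map_add, a1, a2]; module
    have hs12 : D.f₀ (e₁ + e₂) (e₁ + e₂) = 0 := by
      rw [D.uf₀.add_left, D.uf₀.add_right, D.uf₀.add_right, C.e1e1, C.e2e2, C.ee,
        perp_comm D.uf₀ C.ee]
      ring
    obtain ⟨l₁, x₁, hx₁⟩ := pt e₁ e₁ C.e1e1 he₁0 C.e1e1 (by
      rw [a1, D.uf.add_left, D.uf.smul_left, D.uf.smul_left, Z1, E21]; ring)
    obtain ⟨l₂, x₂, hx₂⟩ := pt e₂ e₁ C.e2e2 he₁0 C.e1e1 (by
      rw [a2, D.uf.add_left, D.uf.smul_left, D.uf.smul_left, Z1, E21]; ring)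
    obtain ⟨l₃, x₃, hx₃⟩ := pt (e₁ + e₂) e₁ hs12 he₁0 C.e1e1 (by
      rw [a3, D.uf.add_left, D.uf.smul_left, D.uf.smul_left, Z1, E21]; ring)
    have p11 : 1 + θ * τ = l₁ * D.f (D.j x₁) (D.j f₁) := by
      rw [← D.uf.smul_left, ← hx₁, a1, D.uf.add_left, D.uf.smul_left, D.uf.smul_left, E11, E2f1]
      ring
    have p12 : -θ = l₁ * D.f (D.j x₁) (D.j f₂) := by
      rw [← D.uf.smul_left, ← hx₁, a1, D.uf.add_left, D.uf.smul_left, D.uf.smul_left, E1f2, E22]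
      ring
    have p21 : θ * τ ^ 2 = l₂ * D.f (D.j x₂) (D.j f₁) := by
      rw [← D.uf.smul_left, ← hx₂, a2, D.uf.add_left, D.uf.smul_left, D.uf.smul_left, E11, E2f1]
      ring
    have p22 : 1 - θ * τ = l₂ * D.f (D.j x₂) (D.j f₂) := by
      rw [← D.uf.smul_left, ← hx₂, a2, D.uf.add_left, D.uf.smul_left, D.uf.smul_left, E1f2, E22]
      ring
    have p31 : 1 + θ * τ + θ * τ ^ 2 = l₃ * D.f (D.j x₃) (D.j f₁) := by
      rw [← D.uf.smul_left, ← hx₃, a3, D.uf.add_left, D.uf.smul_left, D.uf.smul_left, E11, E2f1]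
      ring
    have p32 : 1 - θ * τ - θ = l₃ * D.f (D.j x₃) (D.j f₂) := by
      rw [← D.uf.smul_left, ← hx₃, a3, D.uf.add_left, D.uf.smul_left, D.uf.smul_left, E1f2, E22]
      ring
    obtain ⟨k₁₁, hk₁₁⟩ : ∃ k, k = D.f (D.j x₁) (D.j f₁) := ⟨_, rfl⟩
    obtain ⟨k₁₂, hk₁₂⟩ : ∃ k, k = D.f (D.j x₁) (D.j f₂) := ⟨_, rfl⟩
    obtain ⟨k₂₁, hk₂₁⟩ : ∃ k, k = D.f (D.j x₂) (D.j f₁) := ⟨_, rfl⟩
    obtain ⟨k₂₂, hk₂₂⟩ : ∃ k, k = D.f (D.j x₂) (D.j f₂) := ⟨_, rfl⟩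
    obtain ⟨k₃₁, hk₃₁⟩ : ∃ k, k = D.f (D.j x₃) (D.j f₁) := ⟨_, rfl⟩
    obtain ⟨k₃₂, hk₃₂⟩ : ∃ k, k = D.f (D.j x₃) (D.j f₂) := ⟨_, rfl⟩
    have m11 : k₁₁ ∈ F₀ := hk₁₁ ▸ D.f_j_mem _ _
    have m12 : k₁₂ ∈ F₀ := hk₁₂ ▸ D.f_j_mem _ _
    have m21 : k₂₁ ∈ F₀ := hk₂₁ ▸ D.f_j_mem _ _
    have m22 : k₂₂ ∈ F₀ := hk₂₂ ▸ D.f_j_mem _ _
    have m31 : k₃₁ ∈ F₀ := hk₃₁ ▸ D.f_j_mem _ _
    have m32 : k₃₂ ∈ F₀ := hk₃₂ ▸ D.f_j_mem _ _
    rw [← hk₁₁] at p11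
    rw [← hk₁₂] at p12
    rw [← hk₂₁] at p21
    rw [← hk₂₂] at p22
    rw [← hk₃₁] at p31
    rw [← hk₃₂] at p32
    have n12 : k₁₂ ≠ 0 := by
      rintro rfl
      rw [mul_zero, neg_eq_zero] at p12
      exact hθ0 p12
    have n21 : k₂₁ ≠ 0 := by
      rintro rfl
      rw [mul_zero] at p21
      exact mul_ne_zero hθ0 (pow_ne_zero 2 hτ0) p21
    have R1 : (1 + θ * τ) * k₁₂ = -θ * k₁₁ := by rw [p11, p12]; ring
    have R2 : θ * τ ^ 2 * k₂₂ = (1 - θ * τ) * k₂₁ := by rw [p21, p22]; ring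
    have R3 : (1 + θ * τ + θ * τ ^ 2) * k₃₂ = (1 - θ * τ - θ) * k₃₁ := by rw [p31, p32]; ring
    have hrel : 0 * τ ^ 3 + (k₁₂ * k₂₂) * τ ^ 2 + (2 * k₁₂ * k₂₁) * τ + k₁₁ * k₂₁ = 0 := by
      linear_combination (-(k₁₁ + k₁₂ * τ)) * R2 + (τ ^ 2 * k₂₂ + τ * k₂₁) * R1
    obtain ⟨-, z2, z1, z0⟩ := no_cubic hdich h4 hτ F₀.zero_mem (F₀.mul_mem m12 m22)
      (F₀.mul_mem (F₀.mul_mem h2m m12) m21) (F₀.mul_mem m11 m21) hrel
    have h20 : (2 : F) = 0 := by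
      rcases mul_eq_zero.1 z1 with h | h
      · exact (mul_eq_zero.1 h).resolve_right n12
      · exact (n21 h).elim
    have h110 : k₁₁ = 0 := (mul_eq_zero.1 z0).resolve_right n21
    have hθτ : θ * τ = -1 := by
      rw [h110, mul_zero] at R1
      have := (mul_eq_zero.1 R1).resolve_right n12
      linear_combination this
    have hrel2 : 0 * τ ^ 3 + k₃₂ * τ ^ 2 + 0 * τ + k₃₁ = 0 := by
      linear_combination (-τ) * R3 + (τ ^ 2 * k₃₂ + τ * k₃₂ + τ * k₃₁ + k₃₁) * hθτ +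
        (-(τ * k₃₁)) * h20
    obtain ⟨-, y2, -, y0⟩ := no_cubic hdich h4 hτ F₀.zero_mem m32 F₀.zero_mem m31 hrel2
    rw [y2, mul_zero] at p32
    apply hθ0
    linear_combination (-1 : F) * p32 - hθτ + h20
  rw [hρ, zero_smul, add_zero] at ay
  have ay' : a (D.j e₂) = D.j e₂ := by
    rw [map_add, map_smul, map_smul, ay] at ar
    have h1 : (-c₁) • a (D.j e₂) = (-c₁) • D.j e₂ := add_left_cancel ar
    exact smul_right_injective V (neg_ne_zero.2 hc0) h1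
  have hue1 : D.f u (D.j e₁) = D.σ c₁ := by rw [D.uf.herm, C.hc₁]
  have hue2 : D.f u (D.j e₂) = D.σ c₂ := by rw [D.uf.herm, C.hc₂]
  -- step 2 : the images of `f₁`, `f₂`
  have key : ∀ f : V₀, D.f₀ f f = 0 →
      (∃ w, w ≠ 0 ∧ D.f₀ w w = 0 ∧ a (D.j w) = D.j w ∧ D.f₀ f w = 0) →
      (∃ w', a (D.j w') = D.j w' ∧ D.f₀ f w' ≠ 0) →
      ∃ η ∈ F₀, ∃ η' ∈ F₀, a (D.j f) = D.j f + η • D.j e₁ + η' • D.j e₂ := by
    rintro f hff ⟨w, hw0, hww, haw, hfw⟩ ⟨w', haw', hfw'⟩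
    have hperp : D.f (a (D.j f)) (D.j w) = 0 := by
      rw [← haw, hai, D.f_j_zero hfw]
    obtain ⟨l, x, hx⟩ := pt f w hff hw0 hww hperp
    have h1 : l * D.f (D.j x) (D.j w') = D.f (D.j f) (D.j w') := by
      have : D.f (a (D.j f)) (D.j w') = D.f (D.j f) (D.j w') := by
        conv_lhs => rw [← haw']
        exact hai _ _
      rw [← this, hx, D.uf.smul_left]
    have hne : D.f (D.j f) (D.j w') ≠ 0 := by
      rw [D.f_j]
      exact_mod_cast hfw'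
    have hxw : D.f (D.j x) (D.j w') ≠ 0 := by
      intro h0
      rw [h0, mul_zero] at h1
      exact hne h1.symm
    have hl : l ∈ F₀ := by
      have : l = D.f (D.j f) (D.j w') / D.f (D.j x) (D.j w') := by
        rw [eq_div_iff hxw, h1]
      rw [this]
      exact F₀.div_mem (D.f_j_mem _ _) (D.f_j_mem _ _)
    have hz : a (D.j f) = D.j ((⟨l, hl⟩ : F₀) • x) := by rw [D.j_smul, hx]
    obtain ⟨ξ, η, η', hd⟩ := Submodule.mem_span_triple.1 (aL (D.j f))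
    have hd' : a (D.j f) = D.j f + (ξ • u + η • D.j e₁ + η' • D.j e₂) := by
      rw [hd]; abel
    have c1' : D.f (a (D.j f)) (D.j e₁) = D.f (D.j f) (D.j e₁) := by
      conv_lhs => rw [← ay]
      exact hai _ _
    have c1 := c1'
    rw [hd'] at c1
    simp only [D.uf.add_left, D.uf.smul_left, hue1, Z1, E21, mul_zero, add_zero] at c1
    have hξ : ξ = 0 := by
      have h0 : ξ * D.σ c₁ = 0 := by linear_combination c1
      exact (mul_eq_zero.1 h0).resolve_right ((map_ne_zero D.σ).2 hc0)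
    rw [hξ, zero_smul, zero_add] at hd'
    have c2 := congrArg (fun v => D.f v (D.j f₁)) hd'
    have c3 := congrArg (fun v => D.f v (D.j f₂)) hd'
    simp only [D.uf.add_left, D.uf.smul_left, E11, E2f1, mul_zero, add_zero, mul_one] at c2
    simp only [D.uf.add_left, D.uf.smul_left, E22, E1f2, mul_zero, zero_add, mul_one] at c3
    refine ⟨η, ?_, η', ?_, ?_⟩
    · have : η = D.f (a (D.j f)) (D.j f₁) - D.f (D.j f) (D.j f₁) := by rw [c2]; ring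
      rw [this, hz]
      exact F₀.sub_mem (D.f_j_mem _ _) (D.f_j_mem _ _)
    · have : η' = D.f (a (D.j f)) (D.j f₂) - D.f (D.j f) (D.j f₂) := by rw [c3]; ring
      rw [this, hz]
      exact F₀.sub_mem (D.f_j_mem _ _) (D.f_j_mem _ _)
    · rw [hd', add_assoc]
  obtain ⟨η, hη, η', hη', af1⟩ := key f₁ C.f1f1 ⟨e₂, he₂0, C.e2e2, ay', C.f1e2⟩
    ⟨e₁, ay, by rw [D.uf₀.herm, C.ef1, map_one]; exact one_ne_zero⟩
  obtain ⟨θ, hθ, θ', hθ', af2⟩ := key f₂ C.f2f2 ⟨e₁, he₁0, C.e1e1, ay, perp_comm D.uf₀ C.e1f2⟩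
    ⟨e₂, ay', by rw [D.uf₀.herm, C.ef2, map_one]; exact one_ne_zero⟩
  -- step 3 : the isometry condition
  have I1 := hai u (D.j f₁)
  have I2 := hai u (D.j f₂)
  rw [au, af1] at I1
  rw [au, af2] at I2
  simp only [D.uf.add_left, D.uf.add_right, D.uf.smul_left, D.uf.smul_right, hue1, hue2, Z1, Z2,
    E11, E22, E12, E21, E1f2, E2f1, mul_zero, add_zero, mul_one, zero_add] at I1 I2
  refine ⟨-D.σ η, F₀.neg_mem (D.σ_mem hη), -D.σ θ, F₀.neg_mem (D.σ_mem hθ), -D.σ η',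
    F₀.neg_mem (D.σ_mem hη'), -D.σ θ', F₀.neg_mem (D.σ_mem hθ'), ?_⟩
  rw [hcτ, map_mul] at I1 I2
  have hρ' : ρ' * c₁ = D.σ c₁ * (D.σ θ + D.σ θ' * D.σ τ) := by linear_combination -I2
  linear_combination I1 - τ * hρ'

theorem finrank_le_of_generic [Finite F₀] [FiniteDimensional F₀ F] [FiniteDimensional F₀ V₀] {u : V}
    (hgen : ∀ w : V₀, w ≠ 0 → D.f₀ w w = 0 → D.f (D.j w) u ≠ 0) :
    finrank F₀ V₀ ≤ finrank F₀ F + 1 := by
  let φ : V₀ →ₗ[F₀] F :=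
    { toFun := fun x => D.f (D.j x) u
      map_add' := by intro x y; rw [map_add, D.uf.add_left]
      map_smul' := by
        intro c x
        rw [D.j_smul, D.uf.smul_left]; rfl }
  have h1 := LinearMap.finrank_range_add_finrank_ker φ
  have h2 : finrank F₀ (LinearMap.range φ) ≤ finrank F₀ F := Submodule.finrank_le _
  have h3 : finrank F₀ (LinearMap.ker φ) ≤ 1 := by
    by_cases hex : ∃ x ∈ LinearMap.ker φ, x ≠ 0
    · obtain ⟨x, hx, hx0⟩ := hex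
      have hxx : D.f₀ x x ≠ 0 := fun h0 => hgen x hx0 h0 hx
      apply finrank_le_one (⟨x, hx⟩ : LinearMap.ker φ)
      rintro ⟨w, hw⟩
      obtain ⟨m, hm⟩ := D.uf₀.exists_iso_add w x (Or.inl hxx)
      have hmem : w + m • x ∈ LinearMap.ker φ :=
        (LinearMap.ker φ).add_mem hw ((LinearMap.ker φ).smul_mem m hx)
      have h0 : w + m • x = 0 := by
        by_contra hne
        exact hgen _ hne hm hmem
      refine ⟨-m, ?_⟩
      apply Subtype.ext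
      show (-m) • x = w
      have : w = (w + m • x) + (-m) • x := by module
      rw [this, h0, zero_add]
    · push Not at hex
      have : LinearMap.ker φ = ⊥ := by
        rw [eq_bot_iff]
        intro x hx
        exact hex x hx
      rw [this, finrank_bot]
      omega
  omega

/-- there is no transvection in `M` whose centre is orthogonal to no rational isotropic vector -/
theorem generic_false [Fintype F] [FiniteDimensional F₀ V₀] (hM : D.HasRat M)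
    (hMi : M ≤ UGrp D.f) (hK : ∀ δ, Sh D M δ → δ ∈ F₀)
    (hdich : ∀ K : Subfield F, F₀ ≤ K → K = F₀ ∨ K = ⊤) (hn : 11 ≤ finrank F₀ V₀)
    {u : V} (huu : D.f u u = 0) {c : F} (hc : c ≠ 0) (hz : InM M (tvE D.uf u c))
    (hgen : ∀ w : V₀, w ≠ 0 → D.f₀ w w = 0 → D.f (D.j w) u ≠ 0) : False := by
  obtain ⟨p, hp⟩ := CharP.exists F
  haveI : Fact p.Prime := ⟨CharP.char_is_prime F p⟩
  have h5 : 5 ≤ finrank F₀ F := by
    have := finrank_le_of_generic hgen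
    omega
  have h4 : 4 ≤ finrank F₀ F := by omega
  obtain ⟨e₁, f₁, he1, hf1, hef1, -⟩ := u_exists_hyp D.uf₀ ![] (by omega)
  obtain ⟨e₂, f₂, he2, hf2, hef2, hv⟩ := u_exists_hyp D.uf₀ ![e₁, f₁] (by omega)
  have he₁0 : e₁ ≠ 0 := by
    rintro rfl
    rw [D.uf₀.zero_left] at hef1
    exact zero_ne_one hef1
  have he₂0 : e₂ ≠ 0 := by
    rintro rfl
    rw [D.uf₀.zero_left] at hef2
    exact zero_ne_one hef2
  obtain ⟨c₁, hc₁⟩ : ∃ c₁, D.f (D.j e₁) u = c₁ := ⟨_, rfl⟩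
  obtain ⟨c₂, hc₂⟩ : ∃ c₂, D.f (D.j e₂) u = c₂ := ⟨_, rfl⟩
  have hc0 : c₁ ≠ 0 := hc₁ ▸ hgen e₁ he₁0 he1
  obtain ⟨τ, hτdef⟩ : ∃ τ, τ = c₂ / c₁ := ⟨_, rfl⟩
  have hcτ : c₂ = τ * c₁ := by rw [hτdef]; field_simp
  have C : UCfg D u e₁ f₁ e₂ f₂ c₁ c₂ τ :=
    ⟨he1, he2, hf1, hf2, hef1, hef2, (hv 0).1, (hv 0).2, (hv 1).1, (hv 1).2, hc₁, hc₂, hc0, hcτ⟩
  have hτ : τ ∉ F₀ := by
    intro hmem
    have hiso : D.f₀ (e₂ + (-(⟨τ, hmem⟩ : F₀)) • e₁) (e₂ + (-(⟨τ, hmem⟩ : F₀)) • e₁) = 0 := by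
      rw [D.uf₀.add_left, D.uf₀.add_right, D.uf₀.add_right, D.uf₀.smul_left, D.uf₀.smul_left,
        D.uf₀.smul_right, D.uf₀.smul_right, he1, he2, C.ee, perp_comm D.uf₀ C.ee]
      ring
    have h1 : D.f (D.j (e₂ + (-(⟨τ, hmem⟩ : F₀)) • e₁)) u = 0 := by
      rw [map_add, D.j_smul, D.uf.add_left, D.uf.smul_left, hc₁, hc₂, hcτ]
      push_cast
      ring
    have h2 : e₂ + (-(⟨τ, hmem⟩ : F₀)) • e₁ = 0 := by
      by_contra h0
      exact hgen _ h0 hiso h1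
    have h3 : D.f₀ (e₂ + (-(⟨τ, hmem⟩ : F₀)) • e₁) f₂ = 1 := by
      rw [D.uf₀.add_left, D.uf₀.smul_left, hef2, C.e1f2]; ring
    rw [h2, D.uf₀.zero_left] at h3
    exact zero_ne_one h3
  have E12 := D.f_j_zero C.ee
  have E21 := D.f_j_zero (perp_comm D.uf₀ C.ee)
  have Z1 := D.f_j_zero C.e1e1
  have Z2 := D.f_j_zero C.e2e2
  have hue1 : D.f u (D.j e₁) = D.σ c₁ := by rw [D.uf.herm, hc₁]
  have hue2 : D.f u (D.j e₂) = D.σ τ * D.σ c₁ := by rw [D.uf.herm, hc₂, hcτ, map_mul]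
  obtain ⟨ε, hε0, hε⟩ := exists_skew D.σ₀ D.uf₀.ne_refl D.uf₀.involutive
  have hε0' : (ε : F) ≠ 0 := by exact_mod_cast hε0
  have hεs := D.skew_coe hε
  obtain ⟨L, hL⟩ : ∃ L : Submodule F V, L = Submodule.span F {u, D.j e₁, D.j e₂} := ⟨_, rfl⟩
  have huL : u ∈ L := hL ▸ Submodule.subset_span (by simp)
  have hyL : D.j e₁ ∈ L := hL ▸ Submodule.subset_span (by simp)
  have hyL' : D.j e₂ ∈ L := hL ▸ Submodule.subset_span (by simp)
  obtain ⟨r, hr⟩ : ∃ r, r = c₂ • D.j e₁ + (-c₁) • D.j e₂ := ⟨_, rfl⟩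
  have hru : D.f r u = 0 := by
    rw [hr, D.uf.add_left, D.uf.smul_left, D.uf.smul_left, hc₁, hc₂]; ring
  have hr1 : D.f r (D.j e₁) = 0 := by
    rw [hr, D.uf.add_left, D.uf.smul_left, D.uf.smul_left, Z1, E21]; ring
  have hr2 : D.f r (D.j e₂) = 0 := by
    rw [hr, D.uf.add_left, D.uf.smul_left, D.uf.smul_left, Z2, E12]; ring
  have hje2 : D.j e₂ = τ • D.j e₁ + (-c₁⁻¹) • r := by
    rw [hr, hcτ, smul_add, smul_smul, smul_smul]
    have e1 : -c₁⁻¹ * (τ * c₁) = -τ := by field_simp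
    have e2 : -c₁⁻¹ * -c₁ = 1 := by field_simp
    rw [e1, e2]; module
  obtain ⟨G, hG⟩ : ∃ G, G = triGrp M L (D.j e₁) u r := ⟨_, rfl⟩
  have hl : ll (c * c₁) ∈ G := by
    obtain ⟨t, ht, et⟩ := hz
    rw [hG]
    refine ⟨t, ht, ?_, ?_, ⟨0, ?_⟩, ⟨0, ?_⟩⟩
    · intro x
      rw [et, tvE_apply, add_sub_cancel_left]
      exact L.smul_mem _ huL
    · rw [et, tvE_apply, hru]; simp
    · rw [et, tvE_apply, hc₁]
      simp only [ll, mk2_00, mk2_10]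
      module
    · rw [et, tvE_apply, huu]
      simp only [ll, mk2_01, mk2_11]
      module
  have hu1 : uu ((ε : F) * D.σ c₁) ∈ G := by
    obtain ⟨t, ht, et⟩ := hM e₁ he1 ε hε
    rw [hG]
    refine ⟨t, ht, ?_, ?_, ⟨0, ?_⟩, ⟨0, ?_⟩⟩
    · intro x
      rw [et, tvE_apply, add_sub_cancel_left]
      exact L.smul_mem _ hyL
    · rw [et, tvE_apply, hr1]; simp
    · rw [et, tvE_apply, Z1]
      simp only [uu, mk2_00, mk2_10]
      module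
    · rw [et, tvE_apply, hue1]
      simp only [uu, mk2_01, mk2_11]
      module
  have hu2 : uu ((ε : F) * D.σ c₁ * (τ * D.σ τ)) ∈ G := by
    obtain ⟨t, ht, et⟩ := hM e₂ he2 ε hε
    rw [hG]
    refine ⟨t, ht, ?_, ?_, ⟨0, ?_⟩, ⟨((ε : F) * (D.σ τ * D.σ c₁)) * (-c₁⁻¹), ?_⟩⟩
    · intro x
      rw [et, tvE_apply, add_sub_cancel_left]
      exact L.smul_mem _ hyL'
    · rw [et, tvE_apply, hr2]; simp
    · rw [et, tvE_apply, E12]
      simp only [uu, mk2_00, mk2_10]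
      module
    · rw [et, tvE_apply, hue2, hje2]
      simp only [uu, mk2_01, mk2_11]
      module
  have hu3 : uu ((ε : F) * D.σ c₁ * (τ + D.σ τ)) ∈ G := by
    obtain ⟨t, ht, et⟩ := hM.sE he1 he2 C.ee ε
    rw [hG]
    refine ⟨t, ht, ?_, ?_, ⟨0, ?_⟩, ⟨((ε : F) * D.σ c₁) * (-c₁⁻¹), ?_⟩⟩
    · intro x
      rw [et, sE_apply, add_assoc, add_sub_cancel_left]
      exact L.add_mem (L.smul_mem _ hyL') (L.smul_mem _ hyL)
    · rw [et, sE_apply, hr1, hr2]; simp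
    · rw [et, sE_apply, Z1, E12]
      simp only [uu, mk2_00, mk2_10]
      module
    · rw [et, sE_apply, hue1, hue2, hεs, hje2]
      simp only [uu, mk2_01, mk2_11]
      module
  obtain ⟨ω, hω, huω⟩ : ∃ ω, ω ∉ F₀ ∧ uu ((ε : F) * D.σ c₁ * ω) ∈ G := by
    by_cases h1 : τ + D.σ τ ∈ F₀
    · by_cases h2 : τ * D.σ τ ∈ F₀
      · exfalso
        have hrel : 0 * τ ^ 3 + 1 * τ ^ 2 + (-(τ + D.σ τ)) * τ + τ * D.σ τ = 0 := by ring
        obtain ⟨-, h3, -, -⟩ := no_cubic hdich h4 hτ F₀.zero_mem F₀.one_mem (F₀.neg_mem h1) h2 hrel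
        exact one_ne_zero h3
      · exact ⟨_, h2, hu2⟩
    · exact ⟨_, h1, hu3⟩
  obtain ⟨B, hB⟩ : ∃ B, B = (ε : F) * D.σ c₁ := ⟨_, rfl⟩
  rw [← hB] at hu1 huω
  have hσc0 : D.σ c₁ ≠ 0 := (map_ne_zero D.σ).2 hc0
  have hB0 : B ≠ 0 := hB ▸ mul_ne_zero hε0' hσc0
  have hω0 : ω ≠ 0 := fun h0 => hω (h0 ▸ F₀.zero_mem)
  have h4c : 4 ≤ Nat.card (addOf G) := by
    apply four_le_card hu1 huω hB0 (mul_ne_zero hB0 hω0)
    · intro h0
      apply hω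
      have : B * (ω - 1) = 0 := by linear_combination -h0
      have := (mul_eq_zero.1 this).resolve_left hB0
      have e : ω = 1 := by linear_combination this
      rw [e]; exact F₀.one_mem
    · intro h0
      apply hω
      have : B * (ω + 1) = 0 := by linear_combination h0
      have := (mul_eq_zero.1 this).resolve_left hB0
      have e : ω = -1 := by linear_combination this
      rw [e]; exact F₀.neg_mem F₀.one_mem
  obtain ⟨K, c₀, hc₀, hKiff⟩ := key_subfield p G hB0 (mul_ne_zero hc hc0) hu1 hl h4c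
  have hx1 : B / c₀ ∈ K := by
    rw [← hKiff]
    have : c₀ * (B / c₀) = B := by field_simp
    rw [this]; exact hu1
  have hx10 : B / c₀ ≠ 0 := div_ne_zero hB0 hc₀
  have hωK : ω ∈ K := by
    have h1 : ω * (B / c₀) ∈ K := by
      rw [← hKiff]
      have : c₀ * (ω * (B / c₀)) = B * ω := by field_simp
      rw [this]; exact huω
    have := K.div_mem h1 hx1
    rwa [mul_div_cancel_right₀ _ hx10] at this
  have hpow : ∀ i : ℕ, uu (B * ω ^ i) ∈ G := by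
    intro i
    have : c₀ * (ω ^ i * (B / c₀)) = B * ω ^ i := by field_simp
    rw [← this, hKiff]
    exact K.mul_mem (K.pow_mem hωK i) hx1
  obtain ⟨W, hW⟩ : ∃ W : Submodule F₀ F,
      W = Submodule.span F₀ (Set.range ![1, τ, D.σ τ, τ * D.σ τ]) := ⟨_, rfl⟩
  have hW0 : (1 : F) ∈ W := hW ▸ Submodule.subset_span ⟨0, rfl⟩
  have hW1 : τ ∈ W := hW ▸ Submodule.subset_span ⟨1, rfl⟩
  have hW2 : D.σ τ ∈ W := hW ▸ Submodule.subset_span ⟨2, rfl⟩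
  have hW3 : τ * D.σ τ ∈ W := hW ▸ Submodule.subset_span ⟨3, rfl⟩
  have hspan : ∀ i : ℕ, ω ^ i ∈ W := by
    intro i
    have h3 := hpow i
    rw [hG] at h3
    obtain ⟨a, haM, aL, ar, ⟨ρ, ay⟩, ⟨ρ', au⟩⟩ := h3
    simp only [uu, mk2_00, mk2_01, mk2_10, mk2_11, one_smul, zero_smul, add_zero] at ay au
    rw [hL] at aL
    rw [hr] at ar ay au
    obtain ⟨k₀, hk₀, k₁, hk₁, k₂, hk₂, k₃, hk₃, hs⟩ :=
      param_restricted hM hMi hK hdich hn h4 C hτ haM aL ar ay au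
    have e1 : ω ^ i = (ε : F)⁻¹ * k₀ * 1 + (ε : F)⁻¹ * k₁ * τ + (ε : F)⁻¹ * k₂ * D.σ τ +
        (ε : F)⁻¹ * k₃ * (τ * D.σ τ) := by
      rw [hB] at hs
      have h6 : D.σ c₁ * ((ε : F) * ω ^ i - (k₀ + k₁ * τ + k₂ * D.σ τ + k₃ * (τ * D.σ τ))) = 0 := by
        linear_combination hs
      have h7 := (mul_eq_zero.1 h6).resolve_left hσc0
      field_simp
      linear_combination h7
    have hsm : ∀ k ∈ F₀, ∀ x ∈ W, (ε : F)⁻¹ * k * x ∈ W := by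
      intro k hk x hx
      exact W.smul_mem (⟨(ε : F)⁻¹ * k, F₀.mul_mem (F₀.inv_mem ε.2) hk⟩ : F₀) hx
    rw [e1]
    exact W.add_mem (W.add_mem (W.add_mem (hsm _ hk₀ _ hW0) (hsm _ hk₁ _ hW1)) (hsm _ hk₂ _ hW2))
      (hsm _ hk₃ _ hW3)
  have li := linearIndependent_pow (K := F₀) ω
  have hle : Submodule.span F₀ (Set.range fun i : Fin (minpoly F₀ ω).natDegree => ω ^ (i : ℕ)) ≤ W :=
    Submodule.span_le.2 (by rintro _ ⟨i, rfl⟩; exact hspan i)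
  have h8 := finrank_span_eq_card li
  have h9 := Submodule.finrank_mono hle
  have h10 : finrank F₀ W ≤ 4 := by
    rw [hW]
    have := finrank_range_le_card (R := F₀) ![1, τ, D.σ τ, τ * D.σ τ]
    simpa [Set.finrank] using this
  rw [h8, Fintype.card_fin, natDegree_minpoly_eq hdich hω] at h9
  omega

end Cfsg.Agent.Lib.Helper99.SuSub
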