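import Mathlib
import Cfsg.Agent.Lib.Helper99.SuSubRing

set_option autoImplicit false
set_option linter.unusedSimpArgs false
set_option linter.unusedSectionVars false
set_option linter.unusedVariables false

/-! Overgroups of the rational special unitary group: if every scalar is a coefficient of short
root elements then the overgroup contains the special unitary group. -/

namespace Cfsg.Agent.Lib.Helper99.SuSub

open Module Cfsg.Agent.Lib.Helper95 Cfsg.Agent.Lib.Helper97 Cfsg.Agent.Lib.Helper99.SpSub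

variable {F : Type*} [Field F] {F₀ : Subfield F} {V₀ V : Type*} [AddCommGroup V₀]
  [Module F₀ V₀] [AddCommGroup V] [Module F V] {D : URS F₀ V₀ V} {M : Subgroup (V ≃ₗ[F] V)}

/-- all unitary transvections with centre `v` lie in `M` -/
def GoodE (D : URS F₀ V₀ V) (M : Subgroup (V ≃ₗ[F] V)) (v : V) : Prop :=
  ∀ s, D.σ s = -s → InM M (tvE D.uf v s)

theorem GoodE.map (hMi : M ≤ UGrp D.f) {v : V} (hv : GoodE D M v) {g : V ≃ₗ[F] V} (hg : g ∈ M) :
    GoodE D M (g v) :=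
  fun s hs => (hv s hs).conj hg (tvE_conj D.uf (hMi hg) _ _)

theorem GoodE.smul {v : V} (hv : GoodE D M v) (c : F) : GoodE D M (c • v) := by
  intro s hs
  rw [tvE_smul]
  apply hv
  rw [map_mul, map_mul, D.uf.involutive, hs]; ring

/-- the vectors `y` orthogonal to `w` all of whose multiples occur in Siegel elements of `M` -/
def YSub (D : URS F₀ V₀ V) (M : Subgroup (V ≃ₗ[F] V)) {w : V} (hw : D.f w w = 0) :
    Submodule F V where
  carrier := {y | D.f y w = 0 ∧ ∀ c : F, ∃ a, InM M (qE D.uf w (c • y) a)}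
  add_mem' := by
    rintro y y' ⟨h1, h2⟩ ⟨h1', h2'⟩
    refine ⟨by rw [D.uf.add_left, h1, h1', add_zero], fun c => ?_⟩
    obtain ⟨a, ha⟩ := h2 c
    obtain ⟨a', ha'⟩ := h2' c
    refine ⟨a + a' + -(D.f (c • y') (c • y)), ?_⟩
    rw [smul_add, ← qE_mul D.uf hw (by rw [D.uf.smul_left, h1, mul_zero])
      (by rw [D.uf.smul_left, h1', mul_zero]) a a']
    exact ha.mul ha'
  zero_mem' := by
    refine ⟨D.uf.zero_left _, fun c => ⟨0, ?_⟩⟩
    rw [smul_zero, ← tvE_eq_qE, tvE_zero_right]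
    exact InM.one
  smul_mem' := by
    rintro d y ⟨h1, h2⟩
    refine ⟨by rw [D.uf.smul_left, h1, mul_zero], fun c => ?_⟩
    rw [smul_smul]
    exact h2 _

variable [Finite F₀] [FiniteDimensional F₀ V₀]

theorem mem_YSub_of_perp (hn : 9 ≤ finrank F₀ V₀) (hS : ∀ a, Sh D M a) {w w' : V₀}
    (hww : D.f₀ w w = 0) (hw'w' : D.f₀ w' w' = 0) (hww' : D.f₀ w w' = 1) {y : V}
    (h1 : D.f y (D.j w) = 0) (h2 : D.f y (D.j w') = 0) :
    y ∈ YSub D M (D.f_j_zero hww) := by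
  have hw'w : D.f₀ w' w = 1 := by rw [D.uf₀.herm, hww', map_one]
  have hw0 : w ≠ 0 := by
    rintro rfl
    rw [D.uf₀.zero_left] at hww'
    exact zero_ne_one hww'
  set π : V →ₗ[F] V := LinearMap.id + (-1 : F) • (D.uf.hat (D.j w)).smulRight (D.j w') +
    (-1 : F) • (D.uf.hat (D.j w')).smulRight (D.j w) with hπ
  have hπa : ∀ v, π v = v + (-(D.f v (D.j w))) • D.j w' + (-(D.f v (D.j w'))) • D.j w := by
    intro v
    simp [hπ]
  have hiso : ∀ x : V₀, D.f₀ x x = 0 → D.f₀ x w = 0 → D.f₀ x w' = 0 →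
      D.j x ∈ YSub D M (D.f_j_zero hww) := by
    intro x hxx hxw hxw'
    refine ⟨D.f_j_zero hxw, fun c => ⟨0, ?_⟩⟩
    by_cases hx : x = 0
    · rw [hx, map_zero, smul_zero, ← tvE_eq_qE, tvE_zero_right]
      exact InM.one
    have hT : TIP D x w := TIP.of_form hx hxx hww hxw (by rw [hww']; exact one_ne_zero) hxw'
    have := hS (-D.σ c) x w hT
    rw [sE_eq_qE, map_neg, D.uf.involutive, neg_neg] at this
    exact this
  have hle : Submodule.span F (Set.range D.j) ≤ (YSub D M (D.f_j_zero hww)).comap π := by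
    rw [Submodule.span_le]
    rintro _ ⟨b, rfl⟩
    show π (D.j b) ∈ YSub D M (D.f_j_zero hww)
    set b' := b + (-(D.f₀ b w)) • w' + (-(D.f₀ b w')) • w with hb'
    have e : π (D.j b) = D.j b' := by
      rw [hπa, hb', map_add, map_add, D.j_smul, D.j_smul, D.f_j, D.f_j]
      simp
    have hb1 : D.f₀ b' w = 0 := by
      rw [hb', D.uf₀.add_left, D.uf₀.add_left, D.uf₀.smul_left, D.uf₀.smul_left, hw'w, hww]; ring
    have hb2 : D.f₀ b' w' = 0 := by
      rw [hb', D.uf₀.add_left, D.uf₀.add_left, D.uf₀.smul_left, D.uf₀.smul_left, hw'w', hww']; ring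
    obtain ⟨e₁, e₂, a1, a2, a3, a4, a5⟩ := u_iso_decomp D.uf₀ ![w, w'] (by omega) b' (fun i => by
      fin_cases i
      · exact hb1
      · exact hb2)
    rw [e, a5, map_add]
    exact Submodule.add_mem _ (hiso e₁ a1 (a3 0) (a3 1)) (hiso e₂ a2 (a4 0) (a4 1))
  have hy : π y ∈ YSub D M (D.f_j_zero hww) := hle (by rw [D.span]; trivial)
  rw [hπa, h1, h2] at hy
  simpa using hy

theorem good_of_not_perp [Finite F] (hM : D.HasRat M) (hMi : M ≤ UGrp D.f)
    (hn : 9 ≤ finrank F₀ V₀) (hS : ∀ a, Sh D M a) {w : V₀} (hww : D.f₀ w w = 0) {v : V}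
    (hvv : D.f v v = 0) (hvw : D.f v (D.j w) ≠ 0) : GoodE D M v := by
  have hw0 : w ≠ 0 := by
    rintro rfl
    rw [map_zero, D.uf.zero_right] at hvw
    exact hvw rfl
  obtain ⟨t₀, ht₀⟩ := u_exists_one D.uf₀ hw0
  obtain ⟨m, hm⟩ := D.uf₀.hform.exists_iso_adjust hww (z := t₀) (by rw [ht₀]; exact one_ne_zero)
  obtain ⟨w', hw'⟩ : ∃ w', w' = t₀ + m • w := ⟨_, rfl⟩
  rw [← hw'] at hm
  have hww' : D.f₀ w w' = 1 := by
    rw [hw', D.uf₀.add_right, D.uf₀.smul_right, hww, ht₀]; ring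
  have hw'w : D.f₀ w' w = 1 := by rw [D.uf₀.herm, hww', map_one]
  obtain ⟨v₁, hv₁⟩ : ∃ v₁, v₁ = (D.f v (D.j w))⁻¹ • v := ⟨_, rfl⟩
  have hv₁w : D.f v₁ (D.j w) = 1 := by rw [hv₁, D.uf.smul_left, inv_mul_cancel₀ hvw]
  have hv₁v₁ : D.f v₁ v₁ = 0 := by rw [hv₁, D.uf.smul_left, D.uf.smul_right, hvv]; ring
  have hback : v = (D.f v (D.j w)) • v₁ := by
    rw [hv₁, smul_smul, mul_inv_cancel₀ hvw, one_smul]
  rw [hback]
  apply GoodE.smul
  obtain ⟨β, hβ⟩ : ∃ β, β = D.f v₁ (D.j w') := ⟨_, rfl⟩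
  obtain ⟨y, hy⟩ : ∃ y, y = v₁ + (-1 : F) • D.j w' + (-β) • D.j w := ⟨_, rfl⟩
  have hyw : D.f y (D.j w) = 0 := by
    rw [hy, D.uf.add_left, D.uf.add_left, D.uf.smul_left, D.uf.smul_left, hv₁w, D.f_j_one hw'w,
      D.f_j_zero hww]
    ring
  have hyw' : D.f y (D.j w') = 0 := by
    rw [hy, D.uf.add_left, D.uf.add_left, D.uf.smul_left, D.uf.smul_left, ← hβ, D.f_j_zero hm,
      D.f_j_one hww']
    ring
  obtain ⟨-, hY⟩ := mem_YSub_of_perp hn hS hww hm hww' hyw hyw'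
  obtain ⟨a, g, hg, eg⟩ := hY 1
  rw [one_smul] at eg
  have hgood' : GoodE D M (D.j w') := fun s hs => Tv_all hM hMi hn hS hs w' hm
  have hg1 := hgood'.map hMi hg
  have e1 : g (D.j w') = D.j w' + y + a • D.j w := by
    rw [eg, qE_apply, D.f_j_one hw'w, perp_comm D.uf hyw']
    module
  obtain ⟨v', hv'⟩ : ∃ v', v' = g (D.j w') := ⟨_, rfl⟩
  rw [← hv'] at hg1 e1
  have hv'v' : D.f v' v' = 0 := by rw [hv', hMi hg, D.f_j_zero hm]
  have hwv' : D.f (D.j w) v' = 1 := by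
    rw [e1, D.uf.add_right, D.uf.add_right, D.uf.smul_right, D.f_j_one hww', perp_comm D.uf hyw,
      D.f_j_zero hww]
    ring
  have hv'w : D.f v' (D.j w) = 1 := by rw [D.uf.herm, hwv', map_one]
  have hv₁' : v₁ = v' + (β - a) • D.j w := by
    rw [e1, hy]; module
  have hskew : D.σ (β - a) = -(β - a) := by
    have h0 := hv₁v₁
    rw [hv₁', D.uf.add_left, D.uf.add_right, D.uf.add_right, D.uf.smul_left, D.uf.smul_left,
      D.uf.smul_right, D.uf.smul_right, hv'v', hwv', hv'w, D.f_j_zero hww] at h0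
    linear_combination h0
  obtain ⟨t, ht, et⟩ := Tv_all hM hMi hn hS hskew w hww
  have := hg1.map hMi ht
  rw [et, tvE_apply, hv'w, mul_one, ← hv₁'] at this
  exact this

theorem all_good [Finite F] (hM : D.HasRat M) (hMi : M ≤ UGrp D.f)
    (hn : 9 ≤ finrank F₀ V₀) (hS : ∀ a, Sh D M a) {v : V} (hvv : D.f v v = 0) :
    GoodE D M v := by
  by_cases hall : ∀ w : V₀, D.f₀ w w = 0 → D.f v (D.j w) = 0
  · have hv0 : v = 0 := by
      apply D.zero_of_perp
      intro x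
      obtain ⟨e₁, e₂, a1, a2, -, -, rfl⟩ := u_iso_decomp D.uf₀ ![] (by omega) x (fun i => i.elim0)
      rw [map_add, D.uf.add_right, hall e₁ a1, hall e₂ a2, add_zero]
    intro s _
    rw [hv0, tvE_zero_left]
    exact InM.one
  · push Not at hall
    obtain ⟨w, hww, hvw⟩ := hall
    exact good_of_not_perp hM hMi hn hS hww hvv hvw

/-- if all scalars are coefficients of short root elements then `M` contains `SU(V)` -/
theorem su_le_of_Sh [Finite F] [FiniteDimensional F V] (hM : D.HasRat M) (hMi : M ≤ UGrp D.f)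
    (hn : 9 ≤ finrank F₀ V₀) (hnV : 7 ≤ finrank F V) (hS : ∀ a, Sh D M a) :
    UGrp D.f ⊓ slGrp F V ≤ M := by
  apply UGrp_inf_slGrp_le D.uf hnV
  intro v hv a ha
  obtain ⟨t, ht, et⟩ := all_good hM hMi hn hS hv a ha
  refine TX_of_eq (by simp [hv]) ht (fun x => ?_)
  rw [et, tvE_apply]
  simp

end Cfsg.Agent.Lib.Helper99.SuSub
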