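import Mathlib
import Cfsg.Agent.Lib.Helper99.SuSubB
import Cfsg.Agent.Lib.Helper99.SuSubFull

set_option autoImplicit false
set_option linter.unusedSimpArgs false
set_option linter.unusedSectionVars false
set_option linter.unusedVariables false

/-! Overgroups of the rational special unitary group in the special unitary group of an extension
without intermediate fields. -/

namespace Cfsg.Agent.Lib.Helper99.SuSub

open Module Cfsg.Agent.Lib.Helper95 Cfsg.Agent.Lib.Helper97 Cfsg.Agent.Lib.Helper99.SpSub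

section gen

variable {F V : Type*} [Field F] [AddCommGroup V] [Module F V] {σ : F ≃+* F} {f : V → V → F}

theorem tvE_inT (h : UF σ f) {v : V} (hv : f v v = 0) {a : F} (ha : σ a = -a) :
    InM (TGrp σ f) (tvE h v a) := by
  obtain ⟨t, ht⟩ := exists_sim h (z := v) (l := a) (by rw [ha, hv]; ring)
  exact ⟨t, Subgroup.subset_closure ⟨v, a, hv, ha, ht⟩, fun x => by rw [ht, tvE_apply]⟩

end gen

variable {F : Type*} [Field F] {F₀ : Subfield F} {V₀ V : Type*} [AddCommGroup V₀]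
  [Module F₀ V₀] [AddCommGroup V] [Module F V] {D : URS F₀ V₀ V} {M : Subgroup (V ≃ₗ[F] V)}

/-- `g` is a scalar multiple of a rational map -/
def IsScal (D : URS F₀ V₀ V) (g : V ≃ₗ[F] V) : Prop :=
  ∃ c : F, c ≠ 0 ∧ ∀ x, ∃ x', g (D.j x) = c • D.j x'

theorem centre_rat [Fintype F] [FiniteDimensional F₀ V₀] (hM : D.HasRat M)
    (hMi : M ≤ UGrp D.f) (hK : ∀ δ, Sh D M δ → δ ∈ F₀)
    (hdich : ∀ K : Subfield F, F₀ ≤ K → K = F₀ ∨ K = ⊤) (hn : 11 ≤ finrank F₀ V₀)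
    {u : V} (huu : D.f u u = 0) {c : F} (hc : c ≠ 0) (hcs : D.σ c = -c)
    (hz : InM M (tvE D.uf u c)) : ∃ (l : F) (x : V₀), u = l • D.j x := by
  by_cases hgen : ∀ w : V₀, w ≠ 0 → D.f₀ w w = 0 → D.f (D.j w) u ≠ 0
  · exact (generic_false hM hMi hK hdich hn huu hc hz hgen).elim
  · push Not at hgen
    obtain ⟨w, hw, hww, huw⟩ := hgen
    exact A_main hM hMi hK hn huu hc hcs hz hw hww (perp_comm D.uf huw)

theorem isScal_of_points [Finite F₀] [FiniteDimensional F₀ V₀] (hdim : 3 ≤ finrank F₀ V₀)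
    {g : V ≃ₗ[F] V}
    (h : ∀ x, D.f₀ x x = 0 → ∃ (l : F) (x' : V₀), g (D.j x) = l • D.j x') : IsScal D g := by
  obtain ⟨x₁, y₁, hx₁x₁, -, hef, -⟩ := u_exists_hyp D.uf₀ ![] (by omega)
  have hx₁ : x₁ ≠ 0 := by
    rintro rfl
    rw [D.uf₀.zero_left] at hef
    exact zero_ne_one hef
  have hne : ∀ {x : V₀} {l : F} {x' : V₀}, x ≠ 0 → g (D.j x) = l • D.j x' → l ≠ 0 ∧ x' ≠ 0 := by
    intro x l x' hx hg
    have h0 : g (D.j x) ≠ 0 := by
      intro h0
      exact D.j_ne hx (g.injective (by rw [h0, map_zero]))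
    constructor
    · rintro rfl
      rw [zero_smul] at hg
      exact h0 hg
    · rintro rfl
      rw [map_zero, smul_zero] at hg
      exact h0 hg
  obtain ⟨l₁, x₁', hg₁⟩ := h x₁ hx₁x₁
  obtain ⟨hl₁, hx₁'⟩ := hne hx₁ hg₁
  have hiso : ∀ x, D.f₀ x x = 0 → ∃ x', g (D.j x) = l₁ • D.j x' := by
    intro x hxx
    by_cases hdep : ∃ k : F₀, x = k • x₁
    · obtain ⟨k, rfl⟩ := hdep
      refine ⟨k • x₁', ?_⟩
      rw [D.j_smul, map_smul, hg₁, D.j_smul, smul_comm]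
    push Not at hdep
    have hind : Ind F₀ x x₁ := ind_of_ne_smul hx₁ hdep
    obtain ⟨l, x', hg⟩ := h x hxx
    obtain ⟨hl, hx'⟩ := hne hind.left_ne hg
    obtain ⟨m, hm0, hm⟩ := D.uf₀.exists_iso_combo hxx hx₁x₁
    have hm0' : (m : F) ≠ 0 := by exact_mod_cast hm0
    obtain ⟨l₂, x₂, hg₂⟩ := h (x + m • x₁) hm
    have hind' : Ind F₀ x' x₁' := by
      apply ind_of_ne_smul hx₁'
      intro k hk
      obtain ⟨t, ht⟩ := u_exists_one D.uf₀ hx₁
      have h1 : D.j x = (l * k / l₁) • D.j x₁ := by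
        apply g.injective
        rw [map_smul, hg, hg₁, hk, D.j_smul, smul_smul, smul_smul, div_mul_cancel₀ _ hl₁]
      have h2 : l * k / l₁ ∈ F₀ := by
        have h3 := congrArg (fun v => D.f v (D.j t)) h1
        simp only [D.uf.smul_left, D.f_j_one ht, mul_one] at h3
        rw [← h3]
        exact D.f_j_mem _ _
      apply hdep ⟨_, h2⟩
      apply D.j_injective
      rw [D.j_smul]
      exact h1
    obtain ⟨t, ht1, ht2⟩ := u_exists_one_zero D.uf₀ hind'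
    obtain ⟨s, hs1, hs2⟩ := u_exists_one_zero D.uf₀ hind'.symm
    rw [map_add, D.j_smul, map_add, map_smul, hg, hg₁] at hg₂
    have c1 := congrArg (fun v => D.f v (D.j t)) hg₂
    have c2 := congrArg (fun v => D.f v (D.j s)) hg₂
    simp only [D.uf.add_left, D.uf.smul_left, D.f_j_one ht1, D.f_j_zero ht2, mul_one, mul_zero,
      add_zero] at c1
    simp only [D.uf.add_left, D.uf.smul_left, D.f_j_one hs1, D.f_j_zero hs2, mul_one, mul_zero,
      zero_add] at c2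
    have hk2 : D.f (D.j x₂) (D.j s) ≠ 0 := by
      intro h0
      rw [h0, mul_zero] at c2
      exact mul_ne_zero hm0' hl₁ c2
    have hl₂ : l₂ ≠ 0 := by
      rintro rfl
      rw [zero_mul] at c2
      exact mul_ne_zero hm0' hl₁ c2
    have hq : l / l₁ ∈ F₀ := by
      have : l / l₁ = (m : F) * (D.f (D.j x₂) (D.j t) / D.f (D.j x₂) (D.j s)) := by
        rw [div_eq_iff hl₁, c1]
        field_simp
        linear_combination (-(D.f (D.j x₂) (D.j t))) * c2
      rw [this]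
      exact F₀.mul_mem m.2 (F₀.div_mem (D.f_j_mem _ _) (D.f_j_mem _ _))
    refine ⟨(⟨_, hq⟩ : F₀) • x', ?_⟩
    rw [D.j_smul, hg, smul_smul, mul_div_cancel₀ _ hl₁]
  refine ⟨l₁, hl₁, fun x => ?_⟩
  obtain ⟨e₁, e₂, a1, a2, -, -, rfl⟩ := u_iso_decomp D.uf₀ ![] (by omega) x (fun i => i.elim0)
  obtain ⟨e₁', h1⟩ := hiso e₁ a1
  obtain ⟨e₂', h2⟩ := hiso e₂ a2
  exact ⟨e₁' + e₂', by rw [map_add, map_add, h1, h2, map_add, smul_add]⟩

/-- **Main dichotomy.** -/
theorem main_dichotomy [Fintype F] [FiniteDimensional F₀ V₀] [FiniteDimensional F V]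
    (hM : D.HasRat M) (hMi : M ≤ UGrp D.f)
    (hdich : ∀ K : Subfield F, F₀ ≤ K → K = F₀ ∨ K = ⊤) (hn : 11 ≤ finrank F₀ V₀)
    (hnV : 7 ≤ finrank F V) : UGrp D.f ⊓ slGrp F V ≤ M ∨ ∀ g ∈ M, IsScal D g := by
  by_cases hK : ∀ δ, Sh D M δ → δ ∈ F₀
  · right
    intro g hg
    apply isScal_of_points (by omega)
    intro x hxx
    obtain ⟨ε, hε0, hε⟩ := exists_skew D.σ₀ D.uf₀.ne_refl D.uf₀.involutive
    have hε0' : (ε : F) ≠ 0 := by exact_mod_cast hε0
    have h1 := (hM x hxx ε hε).conj hg (tvE_conj D.uf (hMi hg) _ _)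
    exact centre_rat hM hMi hK hdich hn (by rw [hMi hg, D.f_j_zero hxx]) hε0' (D.skew_coe hε) h1
  · left
    apply su_le_of_Sh hM hMi (by omega) hnV
    have hle : F₀ ≤ ShField hM hMi (by omega) := fun c hc => Sh_rat hM hc
    rcases hdich _ hle with h | h
    · exfalso
      apply hK
      intro c hc
      have : c ∈ ShField hM hMi (by omega) := hc
      rwa [h] at this
    · intro c
      have : c ∈ ShField hM hMi (by omega) := by rw [h]; exact Subfield.mem_top c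
      exact this

/-- rational transvections are rational maps -/
theorem isScal_of_tvE {t : V ≃ₗ[F] V} (x : V₀) (k : F₀)
    (ht : ∀ v, t v = tvE D.uf (D.j x) (k : F) v) : IsScal D t := by
  refine ⟨1, one_ne_zero, fun x' => ⟨x' + (k * D.f₀ x' x) • x, ?_⟩⟩
  rw [ht, tvE_apply, one_smul, map_add, D.j_smul, D.f_j]
  simp

/-- a short root element with non-rational coefficient is not rational -/
theorem exists_not_isScal [Finite F₀] [FiniteDimensional F₀ V₀] [FiniteDimensional F V]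
    (hdim : 7 ≤ finrank F₀ V₀) {a : F} (ha : a ∉ F₀) :
    ∃ g ∈ UGrp D.f ⊓ slGrp F V, ¬ IsScal D g := by
  obtain ⟨e₁, f₁, he1, hf1, hef1, -⟩ := u_exists_hyp D.uf₀ ![] (by omega)
  obtain ⟨e₂, f₂, he2, hf2, hef2, hv⟩ := u_exists_hyp D.uf₀ ![e₁, f₁] (by omega)
  have hee : D.f₀ e₁ e₂ = 0 := (hv 0).1
  have he1f2 : D.f₀ e₁ f₂ = 0 := (hv 0).2
  have hf1e2 : D.f₀ f₁ e₂ = 0 := (hv 1).1
  have hf1f2 : D.f₀ f₁ f₂ = 0 := (hv 1).2
  obtain ⟨ε, hε0, hε⟩ := exists_skew D.σ₀ D.uf₀.ne_refl D.uf₀.involutive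
  have hε0' : (ε : F) ≠ 0 := by exact_mod_cast hε0
  have hεs := D.skew_coe hε
  have Z1 := D.f_j_zero he1
  have Z2 := D.f_j_zero he2
  have E12 := D.f_j_zero hee
  have E21 := D.f_j_zero (perp_comm D.uf₀ hee)
  have h1 := sE_eq_tv D.uf Z1 Z2 E12 hεs (a / ε)
  have e1 : (ε : F) * (a / ε) = a := by field_simp
  rw [e1] at h1
  have hin : InM (TGrp D.σ D.f) (sE D.uf a (D.j e₁) (D.j e₂)) := by
    rw [← h1]
    refine InM.mul (InM.mul (tvE_inT D.uf ?_ hεs) (tvE_inT D.uf Z1 ?_)) (tvE_inT D.uf Z2 ?_)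
    · rw [D.uf.add_left, D.uf.add_right, D.uf.add_right, D.uf.smul_left, D.uf.smul_left,
        D.uf.smul_right, D.uf.smul_right, Z1, Z2, E12, E21]
      ring
    · rw [map_neg, hεs]
    · rw [map_neg, map_mul, map_mul, D.uf.involutive, hεs]; ring
  obtain ⟨g, hg, eg⟩ := hin
  refine ⟨g, ⟨TGrp_le_UGrp D.uf hg, TGrp_le_slGrp D.uf hg⟩, ?_⟩
  rintro ⟨c, hc, h⟩
  obtain ⟨x', hx'⟩ := h f₁
  have F1 : D.f (D.j f₁) (D.j e₁) = 1 := by rw [D.uf.herm, D.f_j_one hef1, map_one]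
  rw [eg, sE_apply, F1, D.f_j_zero hf1e2] at hx'
  have c1 := congrArg (fun v => D.f v (D.j e₁)) hx'
  have c2 := congrArg (fun v => D.f v (D.j f₂)) hx'
  simp only [D.uf.add_left, D.uf.smul_left, F1, E21, Z1, mul_zero, add_zero, neg_zero,
    zero_mul] at c1
  simp only [D.uf.add_left, D.uf.smul_left, D.f_j_zero hf1f2, D.f_j_one hef2, D.f_j_zero he1f2,
    mul_zero, add_zero, neg_zero, zero_mul, mul_one, zero_add] at c2
  have hk : D.f (D.j x') (D.j e₁) ≠ 0 := by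
    intro h0
    rw [h0, mul_zero] at c1
    exact one_ne_zero c1
  have hcm : c ∈ F₀ := by
    have : c = 1 / D.f (D.j x') (D.j e₁) := by
      rw [eq_div_iff hk, ← c1]
    rw [this]
    exact F₀.div_mem F₀.one_mem (D.f_j_mem _ _)
  apply ha
  rw [c2]
  exact F₀.mul_mem hcm (D.f_j_mem _ _)

end Cfsg.Agent.Lib.Helper99.SuSub
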