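import Mathlib
import Cfsg.Prelude.Def_GeometricClasses
import Cfsg.Agent.Lib.Helper99.SuSubMain
import Cfsg.Agent.Lib.Helper99.SpSubGlue
import Cfsg.Agent.Lib.Helper97.HermGlue

set_option autoImplicit false
set_option linter.unusedSimpArgs false
set_option linter.unusedSectionVars false
set_option linter.unusedVariables false

/-! Glue: the unitary subfield subgroups of the special unitary groups are maximal. -/

namespace Cfsg.Agent.Lib.Helper99.SuSub

open Module Matrix Polynomial Cfsg.Agent.Lib.Helper95 Cfsg.Agent.Lib.Helper97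
  Cfsg.Agent.Lib.Helper17 Cfsg.Agent.Lib.Helper99.SpSub

section poly

variable {F : Type*} [Field F] {F₀ : Subfield F}

theorem no_quadratic [FiniteDimensional F₀ F]
    (hdich : ∀ K : Subfield F, F₀ ≤ K → K = F₀ ∨ K = ⊤) (h3 : 3 ≤ finrank F₀ F) {τ : F}
    (hτ : τ ∉ F₀) {c₁ c₀ : F} (h₁ : c₁ ∈ F₀) (h₀ : c₀ ∈ F₀) (h : τ ^ 2 + c₁ * τ + c₀ = 0) :
    False := by
  obtain ⟨Q, hQ⟩ : ∃ Q : F₀[X], Q = X ^ 2 + C (⟨c₁, h₁⟩ : F₀) * X + C (⟨c₀, h₀⟩ : F₀) := ⟨_, rfl⟩
  have hev : aeval τ Q = 0 := by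
    rw [hQ]
    simp only [map_add, map_mul, aeval_C, map_pow, aeval_X]
    exact h
  have hdeg : Q.natDegree = 2 := by
    rw [hQ]
    compute_degree!
  have hne : Q ≠ 0 := by
    intro h0
    rw [h0] at hdeg
    simp at hdeg
  have h1 := natDegree_le_of_dvd (minpoly.dvd F₀ τ hev) hne
  rw [natDegree_minpoly_eq hdich hτ] at h1
  omega

end poly

variable {F : Type*} [Field F] [Fintype F] {n q : ℕ} {F₀ : Subfield F} {P : GL (Fin n) F}

/-- the restriction of `x ↦ x ^ q` to a subfield -/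
def sigma0 (hF : Fintype.card F = q ^ 2) (F₀ : Subfield F) : F₀ ≃+* F₀ where
  toFun x := ⟨(x : F) ^ q, F₀.pow_mem x.2 q⟩
  invFun x := ⟨(x : F) ^ q, F₀.pow_mem x.2 q⟩
  left_inv x := Subtype.ext (pow_q_pow_q hF x)
  right_inv x := Subtype.ext (pow_q_pow_q hF x)
  map_mul' x y := Subtype.ext (mul_pow _ _ q)
  map_add' x y := Subtype.ext (add_pow_q hF _ _)

theorem exists_not_mem {r : ℕ} (hr : r.Prime) (hcard : Fintype.card F = Nat.card F₀ ^ r) :
    ∃ lam : F, lam ∉ F₀ := by
  by_contra hcon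
  push Not at hcon
  have htop : F₀ = ⊤ := eq_top_iff.2 (fun x _ => hcon x)
  have h1 : Nat.card F₀ = Fintype.card F := by
    rw [htop, ← Nat.card_eq_fintype_card]
    exact Nat.card_congr Subfield.topEquiv.toEquiv
  rw [h1] at hcard
  have h2 : 1 < Fintype.card F := Fintype.one_lt_card
  have h4 : Fintype.card F ^ 1 = Fintype.card F ^ r := by rw [pow_one]; exact hcard
  have := Nat.pow_right_injective h2 h4
  exact hr.one_lt.ne this

theorem sigma0_ne_refl (hF : Fintype.card F = q ^ 2) {r : ℕ} (hr : r.Prime) (hro : Odd r)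
    (hcard : Fintype.card F = Nat.card F₀ ^ r) : sigma0 hF F₀ ≠ RingEquiv.refl F₀ := by
  intro href
  have hdich := Cfsg.Agent.Lib.Helper7.SubF.subfield_dich F₀ hr hcard
  have hfix : ∀ x ∈ F₀, x ^ q = x := by
    intro x hx
    have := congrArg (fun f : F₀ ≃+* F₀ => ((f ⟨x, hx⟩ : F₀) : F)) href
    exact this
  have hfr : finrank F₀ F = r := by
    have h2 : Nat.card F = Nat.card F₀ ^ finrank F₀ F := Module.natCard_eq_pow_finrank
    rw [Nat.card_eq_fintype_card, hcard] at h2
    have hq : 1 < Nat.card F₀ := Finite.one_lt_card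
    exact (Nat.pow_right_injective hq h2).symm
  have h3 : 3 ≤ finrank F₀ F := by
    rw [hfr]
    have := hr.two_le
    rcases hro with ⟨k, hk⟩
    omega
  let K₁ : Subfield F :=
    { carrier := {x | x ^ q = x}
      mul_mem' := by
        intro a b ha hb
        show (a * b) ^ q = a * b
        rw [mul_pow, ha, hb]
      one_mem' := one_pow q
      add_mem' := by
        intro a b ha hb
        show (a + b) ^ q = a + b
        rw [add_pow_q hF, ha, hb]
      zero_mem' := by
        show (0 : F) ^ q = 0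
        exact zero_pow (by have := two_le_of_card_sq hF; omega)
      neg_mem' := by
        intro a ha
        show (-a) ^ q = -a
        rw [neg_pow_q hF, ha]
      inv_mem' := by
        intro a ha
        show (a⁻¹) ^ q = a⁻¹
        rw [inv_pow, ha] }
  have hle : F₀ ≤ K₁ := fun x hx => hfix x hx
  rcases hdich K₁ hle with h | h
  · obtain ⟨x, hx⟩ := exists_not_mem hr hcard
    have m1 : x + x ^ q ∈ F₀ := by
      rw [← h]
      show (x + x ^ q) ^ q = x + x ^ q
      rw [add_pow_q hF, pow_q_pow_q hF, add_comm]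
    have m2 : x * x ^ q ∈ F₀ := by
      rw [← h]
      show (x * x ^ q) ^ q = x * x ^ q
      rw [mul_pow, pow_q_pow_q hF, mul_comm]
    exact no_quadratic hdich h3 hx (F₀.neg_mem m1) m2 (by ring)
  · apply sigmaQ_ne_refl hF
    ext x
    have : x ∈ K₁ := by rw [h]; exact Subfield.mem_top x
    exact this

/-- the rational hermitian space attached to a compatible structure -/
def mkURS (hF : Fintype.card F = q ^ 2) (hne : sigma0 hF F₀ ≠ RingEquiv.refl F₀)
    (hrat : ∀ x y, Cfsg.hermForm n F q (jMap F₀ P x) (jMap F₀ P y) ∈ F₀) :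
    URS F₀ (Fin n → F₀) (Fin n → F) where
  σ := sigmaQ hF
  σ₀ := sigma0 hF F₀
  σ_coe := fun c => rfl
  f := Cfsg.hermForm n F q
  f₀ := fun x y => ⟨Cfsg.hermForm n F q (jMap F₀ P x) (jMap F₀ P y), hrat x y⟩
  uf := hermUF hF n
  uf₀ :=
    { ne_refl := hne
      involutive := fun a => Subtype.ext (pow_q_pow_q hF a)
      add_left := by
        intro x y v
        apply Subtype.ext
        show Cfsg.hermForm n F q (jMap F₀ P (x + y)) _ = _ + _
        rw [map_add, (hermUF hF n).add_left]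
      smul_left := by
        intro c x v
        apply Subtype.ext
        show Cfsg.hermForm n F q (jMap F₀ P (c • x)) _ = _ * _
        rw [jMap_smul, (hermUF hF n).smul_left]
      herm := by
        intro v w
        apply Subtype.ext
        exact (hermUF hF n).herm _ _
      nondeg := by
        intro v hv
        by_contra hcon
        push Not at hcon
        apply hv
        apply jMap_inj F₀ P
        apply (hermUF hF n).hat_eq_zero
        apply LinearMap.ext_on (span_jMap F₀ P)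
        rintro _ ⟨x, rfl⟩
        simpa using congrArg Subtype.val (hcon x) }
  j := jMap F₀ P
  j_smul := jMap_smul F₀ P
  f_j := fun x y => rfl
  span := span_jMap F₀ P

theorem mem_toLinGrp_iff_isScal (D : URS F₀ (Fin n → F₀) (Fin n → F)) (hj : D.j = jMap F₀ P)
    (e : (Fin n → F) ≃ₗ[F] (Fin n → F)) :
    e ∈ toLinGrp (Cfsg.Geo.subfieldSubgroup F₀ P) ↔ IsScal D e := by
  constructor
  · intro h
    obtain ⟨c, hc, h1⟩ := exists_of_mem_toLinGrp_subfield h
    refine ⟨c, hc, fun x => ?_⟩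
    obtain ⟨v', hv', hv⟩ := h1 (D.j x) ((mem_ratVec_iff F₀ P).2 ⟨x, by rw [hj]⟩)
    obtain ⟨x', rfl⟩ := (mem_ratVec_iff F₀ P).1 hv'
    exact ⟨x', by rw [hv, hj]⟩
  · rintro ⟨c, hc, h1⟩
    apply mem_toLinGrp_subfield_of e c hc
    intro v hv
    obtain ⟨x, rfl⟩ := (mem_ratVec_iff F₀ P).1 hv
    obtain ⟨x', hx'⟩ := h1 x
    refine ⟨jMap F₀ P x', (mem_ratVec_iff F₀ P).2 ⟨x', rfl⟩, ?_⟩
    rw [← hj]; exact hx'

/-- the unitary subfield subgroups of `SU_n(q)` are maximal -/
theorem unitary_subfield_maximal (n q : ℕ) (hF : Fintype.card F = q ^ 2) (hn : 11 ≤ n)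
    (F₀ : Subfield F) (r : ℕ) (hr : r.Prime) (hro : Odd r)
    (hcard : Fintype.card F = Nat.card F₀ ^ r) (P : Matrix.GeneralLinearGroup (Fin n) F)
    (hP : Cfsg.Geo.IsFormRationalStructure (Cfsg.hermForm n F q) F₀ 1 P) :
    Cfsg.Geo.IsMaximalIn (Cfsg.GU n F q ⊓ Cfsg.Geo.specialLinear (Fin n) F)
      (Cfsg.Geo.subfieldSubgroup F₀ P ⊓ (Cfsg.GU n F q ⊓ Cfsg.Geo.specialLinear (Fin n) F)) := by
  have hdich := Cfsg.Agent.Lib.Helper7.SubF.subfield_dich F₀ hr hcard
  obtain ⟨D, hDf, hDj⟩ : ∃ D : URS F₀ (Fin n → F₀) (Fin n → F),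
      D.f = Cfsg.hermForm n F q ∧ D.j = jMap F₀ P :=
    ⟨mkURS (F₀ := F₀) (P := P) hF (sigma0_ne_refl hF hr hro hcard) (by
      intro x y
      have := hP _ _ (fun i => (x i).2) (fun i => (y i).2)
      rwa [one_mul] at this), rfl, rfl⟩
  have hdim : finrank F₀ (Fin n → F₀) = n := by simp
  have hdimV : finrank F (Fin n → F) = n := by simp
  have hiff := mem_toLinGrp_iff_isScal D hDj
  refine isMaximalIn_transfer (S' := toLinGrp (Cfsg.Geo.subfieldSubgroup F₀ P)) mem_SU_iff'
    (fun g => glEquiv_mem_toLinGrp.symm) ?_ ?_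
  · obtain ⟨lam, hlam⟩ := exists_not_mem hr hcard
    obtain ⟨g, hg, hgs⟩ := exists_not_isScal (D := D) (by omega) hlam
    exact ⟨g, by rw [← hDf]; exact hg, fun h => hgs ((hiff g).1 h)⟩
  · intro M' h1 h2 g hg hgS
    rw [← hDf] at h1 h2 ⊢
    have hM : D.HasRat M' := by
      intro x hxx a ha
      obtain ⟨t, htT, et⟩ := tvE_inT D.uf (D.f_j_zero hxx) (D.skew_coe ha)
      exact ⟨t, h1 ⟨⟨TGrp_le_UGrp D.uf htT, TGrp_le_slGrp D.uf htT⟩,
        (hiff t).2 (isScal_of_tvE x a et)⟩, et⟩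
    have hMi : M' ≤ UGrp D.f := fun x hx => (h2 hx).1
    rcases main_dichotomy hM hMi hdich (by omega) (by omega) with h | h
    · exact h
    · exact (hgS ((hiff g).2 (h g hg))).elim

end Cfsg.Agent.Lib.Helper99.SuSub
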