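import Cfsg.Prelude.Def_GeometricClasses
import Cfsg.Agent.Lib.Helper99.FFArithC
import Cfsg.Agent.Lib.Helper6.SLCard

set_option autoImplicit false
open scoped MatrixGroups

namespace Cfsg.Agent.Lib.Helper99

variable {F : Type*} [Field F] {ι : Type} [Fintype ι] [DecidableEq ι]

/-- A matrix all of whose entries are `c` times an element of `F₀` lies in the subfield group. -/
theorem mem_subfieldSubgroup_of_entries (F₀ : Subfield F) (g : GL ι F) (c : F) (hc : c ≠ 0)
    (h : ∀ i j, ∃ a ∈ F₀, (g : Matrix ι ι F) i j = c * a) : g ∈ Cfsg.Geo.subfieldSubgroup F₀ 1 := by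
  choose a ha hg using h
  set N : Matrix ι ι F₀ := Matrix.of fun i j => ⟨a i j, ha i j⟩ with hN
  have hgN : (g : Matrix ι ι F) = c • (F₀.subtype.mapMatrix N) := by
    ext i j
    rw [hg]
    rfl
  have hdet : N.det ≠ 0 := by
    intro h0
    have h1 : (F₀.subtype.mapMatrix N).det = 0 := by
      rw [← RingHom.map_det, h0, map_zero]
    have h2 : (g : Matrix ι ι F).det = 0 := by
      rw [hgN, Matrix.det_smul, h1, mul_zero]
    have h3 := (Matrix.GeneralLinearGroup.det g).ne_zero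
    rw [Matrix.GeneralLinearGroup.val_det_apply] at h3
    exact h3 h2
  refine ⟨g, ?_, by simp⟩
  have hs : Units.map (Matrix.scalar ι : F →+* Matrix ι ι F).toMonoidHom (Units.mk0 c hc) ∈
      Cfsg.Geo.scalars ι F := ⟨_, rfl⟩
  have hr : Matrix.GeneralLinearGroup.map (F₀.subtype : F₀ →+* F)
      (Matrix.GeneralLinearGroup.mkOfDetNeZero N hdet) ∈
      (Matrix.GeneralLinearGroup.map (n := ι) (F₀.subtype : F₀ →+* F)).range := ⟨_, rfl⟩
  have := Subgroup.mul_mem_sup hr hs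
  have heq : g = Matrix.GeneralLinearGroup.map (F₀.subtype : F₀ →+* F)
      (Matrix.GeneralLinearGroup.mkOfDetNeZero N hdet) *
      Units.map (Matrix.scalar ι : F →+* Matrix ι ι F).toMonoidHom (Units.mk0 c hc) := by
    apply Units.ext
    rw [Units.val_mul, hgN]
    show _ = (F₀.subtype.mapMatrix N) * Matrix.scalar ι c
    rw [Matrix.scalar_apply, ← Matrix.smul_one_eq_diagonal, Matrix.mul_smul, Matrix.mul_one]
  rw [heq]
  exact this

/-- Elements of the subfield group are scalar multiples of matrices over `F₀`. -/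
theorem exists_entries_of_mem_subfieldSubgroup (F₀ : Subfield F) (g : GL ι F)
    (h : g ∈ Cfsg.Geo.subfieldSubgroup F₀ 1) :
    ∃ (c : F) (N : Matrix ι ι F₀), c ≠ 0 ∧ (g : Matrix ι ι F) = c • (F₀.subtype.mapMatrix N) := by
  obtain ⟨y, hy, hyg⟩ := h
  have hyg' : y = g := by simpa using hyg
  subst hyg'
  obtain ⟨r, ⟨N, rfl⟩, s, hs, rfl⟩ := Subgroup.mem_sup_of_normal_right.1 hy
  obtain ⟨c, hc⟩ := (Cfsg.Geo.mem_scalars_iff s).1 hs
  refine ⟨c, (N : Matrix ι ι F₀), c.ne_zero, ?_⟩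
  rw [Units.val_mul, hc, Matrix.mul_smul, Matrix.mul_one]
  rfl

lemma exists_odd_factor (q₀ k n i : ℕ) (hq₀ : Odd q₀) (hk : Odd k) (hi : i < n) :
    ∃ r : ℕ, Odd r ∧ (q₀ ^ k) ^ n - (q₀ ^ k) ^ i = (q₀ ^ n - q₀ ^ i) * r := by
  obtain ⟨d, rfl⟩ : ∃ d, n = i + d := ⟨n - i, by omega⟩
  obtain ⟨s, hs, hs'⟩ := exists_odd_mul_eq_pow_sub_one (q₀ ^ d) k hq₀.pow hk
  obtain ⟨k', rfl⟩ : ∃ k', k = k' + 1 := ⟨k - 1, by have := hk.pos; omega⟩
  refine ⟨q₀ ^ (k' * i) * s, (hq₀.pow).mul hs, ?_⟩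
  have e1 : (q₀ ^ (k' + 1)) ^ (i + d) - (q₀ ^ (k' + 1)) ^ i
      = (q₀ ^ (k' + 1)) ^ i * ((q₀ ^ d) ^ (k' + 1) - 1) := by
    rw [Nat.mul_sub, mul_one, pow_add, ← pow_mul, ← pow_mul, ← pow_mul, mul_comm d]
  have e2 : q₀ ^ (i + d) - q₀ ^ i = q₀ ^ i * (q₀ ^ d - 1) := by
    rw [Nat.mul_sub, mul_one, pow_add]
  rw [e1, e2, hs', ← pow_mul]
  have e3 : q₀ ^ ((k' + 1) * i) = q₀ ^ i * q₀ ^ (k' * i) := by
    rw [← pow_add]; congr 1; ring
  rw [e3]; ring

/-- For a subfield of odd degree in odd characteristic the subfield subgroup has odd index. -/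
theorem odd_index_subfield [Fintype F] (n : ℕ) (hn : 1 ≤ n) (F₀ : Subfield F) (k : ℕ) (hk : Odd k)
    (hcard : Fintype.card F = Nat.card F₀ ^ k) (hodd : Odd (Fintype.card F)) :
    Odd ((Cfsg.Geo.subfieldSubgroup F₀ 1).comap
      (Matrix.SpecialLinearGroup.toGL : Matrix.SpecialLinearGroup (Fin n) F →* GL (Fin n) F)).index := by
  classical
  have : Fintype F₀ := Fintype.ofFinite F₀
  set q₀ := Nat.card F₀ with hq₀
  have hq₀' : Fintype.card F₀ = q₀ := by rw [hq₀, Nat.card_eq_fintype_card]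
  have hq₀odd : Odd q₀ := by
    rw [hcard] at hodd
    obtain ⟨k', rfl⟩ : ∃ k', k = k' + 1 := ⟨k - 1, by have := hk.pos; omega⟩
    rw [pow_succ] at hodd
    exact Nat.Odd.of_mul_right hodd
  have hq₀1 : 1 < q₀ := by rw [← hq₀']; exact Fintype.one_lt_card
  set φ := Matrix.SpecialLinearGroup.map (n := Fin n) (F₀.subtype : F₀ →+* F) with hφ
  have hinj : Function.Injective φ := by
    intro A B hAB
    apply Subtype.ext
    ext i j
    exact congrFun (congrFun (congrArg Subtype.val hAB) i) j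
  have hle : φ.range ≤ (Cfsg.Geo.subfieldSubgroup F₀ 1).comap
      (Matrix.SpecialLinearGroup.toGL : Matrix.SpecialLinearGroup (Fin n) F →* GL (Fin n) F) := by
    rintro _ ⟨N, rfl⟩
    apply mem_subfieldSubgroup_of_entries F₀ _ 1 one_ne_zero
    intro i j
    exact ⟨(N i j : F), (N i j).2, by rw [one_mul]; rfl⟩
  have hdvd := Subgroup.index_dvd_of_le hle
  have h1 := φ.range.card_mul_index
  have h2 : Nat.card φ.range = Nat.card (Matrix.SpecialLinearGroup (Fin n) F₀) :=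
    Nat.card_congr (MonoidHom.ofInjective hinj).toEquiv.symm
  rw [h2] at h1
  have h3 := Cfsg.Agent.Lib.Helper6.card_SL_field (F := F) n hn
  have h4 := Cfsg.Agent.Lib.Helper6.card_SL_field (F := F₀) n hn
  rw [hcard] at h3
  rw [hq₀'] at h4
  choose r hr hr' using fun i : Fin n => exists_odd_factor q₀ k n i hq₀odd hk i.2
  have hR : Odd (∏ i, r i) := Finset.prod_induction _ Odd (fun _ _ => Odd.mul) odd_one (fun i _ => hr i)
  obtain ⟨s, hs, hs'⟩ := exists_odd_mul_eq_pow_sub_one q₀ k hq₀odd hk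
  simp only [hr', Finset.prod_mul_distrib] at h3
  rw [← h4, hs', ← h1] at h3
  have hpos : 0 < Nat.card (Matrix.SpecialLinearGroup (Fin n) F₀) := Nat.card_pos
  have h5 : s * φ.range.index = ∏ i, r i := by
    have h6 : ((q₀ - 1) * Nat.card (Matrix.SpecialLinearGroup (Fin n) F₀)) * (s * φ.range.index)
        = ((q₀ - 1) * Nat.card (Matrix.SpecialLinearGroup (Fin n) F₀)) * ∏ i, r i := by
      rw [← h3]; ring
    exact Nat.eq_of_mul_eq_mul_left (Nat.mul_pos (by omega) hpos) h6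
  have h7 : Odd φ.range.index := by
    rw [← h5] at hR
    exact Nat.Odd.of_mul_right hR
  exact Odd.of_dvd_nat h7 hdvd

end Cfsg.Agent.Lib.Helper99
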