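import Mathlib

set_option autoImplicit false

namespace Cfsg.Agent.Lib.Helper99

open Matrix

variable {F : Type*} [Field F]

/-- Cayley-Hamilton for 2 x 2 matrices. -/
lemma ch2 (A : Matrix (Fin 2) (Fin 2) F) : A * A = A.trace • A - A.det • (1 : Matrix (Fin 2) (Fin 2) F) := by
  ext i j
  fin_cases i <;> fin_cases j <;>
    simp [Matrix.mul_apply, Fin.sum_univ_two, Matrix.trace, Matrix.det_fin_two] <;> ring

/-- Polarised Cayley-Hamilton for trace zero matrices. -/
lemma ch2_polar (A B : Matrix (Fin 2) (Fin 2) F) (hA : A.trace = 0) (hB : B.trace = 0) :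
    A * B + B * A = (A * B).trace • (1 : Matrix (Fin 2) (Fin 2) F) := by
  have h1 : A 1 1 = - A 0 0 := by
    simp [Matrix.trace, Fin.sum_univ_two] at hA; linear_combination hA
  have h2 : B 1 1 = - B 0 0 := by
    simp [Matrix.trace, Fin.sum_univ_two] at hB; linear_combination hB
  ext i j
  fin_cases i <;> fin_cases j <;>
    simp [Matrix.mul_apply, Fin.sum_univ_two, Matrix.trace, h1, h2] <;> ring

/-- A non-scalar 2 x 2 matrix is conjugate to its companion matrix. -/
lemma exists_companion (X : Matrix (Fin 2) (Fin 2) F) (hX : ∀ z : F, X ≠ z • (1 : Matrix (Fin 2) (Fin 2) F)) :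
    ∃ G : Matrix (Fin 2) (Fin 2) F, G.det ≠ 0 ∧ X * G = G * !![0, -X.det; 1, X.trace] := by
  by_cases hc : X 1 0 = 0
  · by_cases hb : X 0 1 = 0
    · have hne : X 0 0 ≠ X 1 1 := by
        intro h
        apply hX (X 0 0)
        ext i j
        fin_cases i <;> fin_cases j <;> simp [hc, hb, h]
      refine ⟨!![1, X 0 0 + X 0 1; 1, X 1 0 + X 1 1], ?_, ?_⟩
      · simp only [Matrix.det_fin_two_of, hc, hb]
        intro h
        apply hne
        linear_combination -h
      · ext i j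
        fin_cases i <;> fin_cases j <;>
          simp [Matrix.mul_apply, Fin.sum_univ_two, Matrix.trace, Matrix.det_fin_two] <;> ring
    · refine ⟨!![0, X 0 1; 1, X 1 1], ?_, ?_⟩
      · simp only [Matrix.det_fin_two_of]
        intro h
        apply hb
        linear_combination -h
      · ext i j
        fin_cases i <;> fin_cases j <;>
          simp [Matrix.mul_apply, Fin.sum_univ_two, Matrix.trace, Matrix.det_fin_two] <;> ring
  · refine ⟨!![1, X 0 0; 0, X 1 0], ?_, ?_⟩
    · simp only [Matrix.det_fin_two_of]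
      intro h
      apply hc
      linear_combination h
    · ext i j
      fin_cases i <;> fin_cases j <;>
        simp [Matrix.mul_apply, Fin.sum_univ_two, Matrix.trace, Matrix.det_fin_two] <;> ring

lemma det_add_smul (Y : Matrix (Fin 2) (Fin 2) F) (α β : F) :
    (α • (1 : Matrix (Fin 2) (Fin 2) F) + β • Y).det = α ^ 2 + α * β * Y.trace + β ^ 2 * Y.det := by
  simp [Matrix.det_fin_two, Matrix.trace, Fin.sum_univ_two]
  ring

/-- The binary form `α² + tαβ + β²` represents everything over a finite field of odd order. -/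
lemma exists_norm_eq [Fintype F] (hodd : Fintype.card F % 2 = 1) (t δ : F) (ht : t ^ 2 ≠ 4) :
    ∃ α β : F, α ^ 2 + α * β * t + β ^ 2 = δ := by
  have h2 : (2 : F) ≠ 0 := by
    apply Ring.two_ne_zero
    intro h
    have := FiniteField.even_card_of_char_two h
    omega
  have h4 : (4 : F) ≠ 0 := by
    have : (4 : F) = 2 * 2 := by norm_num
    rw [this]; exact mul_ne_zero h2 h2
  set κ : F := 1 - t ^ 2 / 4 with hκ
  have hκ0 : κ ≠ 0 := by
    intro h
    apply ht
    rw [hκ] at h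
    field_simp at h
    linear_combination -h
  obtain ⟨a, b, hab⟩ := FiniteField.exists_root_sum_quadratic (R := F)
    (f := Polynomial.X ^ 2) (g := Polynomial.C κ * Polynomial.X ^ 2 - Polynomial.C δ)
    (Polynomial.degree_X_pow 2) (by
      rw [Polynomial.degree_sub_C]
      · rw [Polynomial.degree_C_mul_X_pow 2 hκ0]; rfl
      · rw [Polynomial.degree_C_mul_X_pow 2 hκ0]; norm_num) hodd
  simp only [Polynomial.eval_pow, Polynomial.eval_X, Polynomial.eval_sub, Polynomial.eval_mul,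
    Polynomial.eval_C] at hab
  refine ⟨a - t * b / 2, b, ?_⟩
  rw [hκ] at hab
  field_simp
  field_simp at hab
  linear_combination hab

/-- Non-scalar matrices of determinant one with the same trace are conjugate under `SL₂`. -/
lemma exists_sl2_conj [Fintype F] (hodd : Fintype.card F % 2 = 1) (X Y : Matrix (Fin 2) (Fin 2) F)
    (hX : ∀ z : F, X ≠ z • (1 : Matrix (Fin 2) (Fin 2) F))
    (hY : ∀ z : F, Y ≠ z • (1 : Matrix (Fin 2) (Fin 2) F))
    (hXd : X.det = 1) (hYd : Y.det = 1) (htr : X.trace = Y.trace) (ht : Y.trace ^ 2 ≠ 4) :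
    ∃ G : Matrix (Fin 2) (Fin 2) F, G.det = 1 ∧ X * G = G * Y := by
  obtain ⟨G₁, hG₁, h1⟩ := exists_companion X hX
  obtain ⟨G₂, hG₂, h2⟩ := exists_companion Y hY
  rw [hXd, htr] at h1
  rw [hYd] at h2
  have hu₂ : IsUnit G₂.det := isUnit_iff_ne_zero.2 hG₂
  obtain ⟨α, β, hαβ⟩ := exists_norm_eq hodd Y.trace (G₂.det / G₁.det) ht
  refine ⟨G₁ * G₂⁻¹ * (α • (1 : Matrix (Fin 2) (Fin 2) F) + β • Y), ?_, ?_⟩
  · rw [Matrix.det_mul, Matrix.det_mul, det_add_smul, hYd, mul_one, hαβ, Matrix.det_nonsing_inv,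
      Ring.inverse_eq_inv']
    field_simp
  · have h3 : G₂⁻¹ * Y = !![0, -1; 1, Y.trace] * G₂⁻¹ := by
      have : G₂⁻¹ * (Y * G₂) * G₂⁻¹ = G₂⁻¹ * (G₂ * !![0, -1; 1, Y.trace]) * G₂⁻¹ := by rw [h2]
      rw [← Matrix.mul_assoc, Matrix.mul_assoc (G₂⁻¹ * Y), Matrix.mul_nonsing_inv _ hu₂, Matrix.mul_one,
        ← Matrix.mul_assoc, Matrix.nonsing_inv_mul _ hu₂, Matrix.one_mul] at this
      exact this
    have h4 : X * (G₁ * G₂⁻¹) = (G₁ * G₂⁻¹) * Y := by
      rw [← Matrix.mul_assoc, h1, Matrix.mul_assoc, Matrix.mul_assoc, h3]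
    have h5 : (α • (1 : Matrix (Fin 2) (Fin 2) F) + β • Y) * Y = Y * (α • (1 : Matrix (Fin 2) (Fin 2) F) + β • Y) := by
      simp [Matrix.add_mul, Matrix.mul_add]
    rw [← Matrix.mul_assoc, h4, Matrix.mul_assoc (G₁ * G₂⁻¹) Y, ← h5, Matrix.mul_assoc (G₁ * G₂⁻¹)]

end Cfsg.Agent.Lib.Helper99
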